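import Cfsg.Agent.H6.Chain

set_option autoImplicit false

namespace Cfsg.H6.THR

def R : List (List ℕ) := [[1,1,1], [3,3,3], [5,5,5], [7,7,7], [9,9,9], [11,11,11], [13,13,13], [1,3,1,3], [1,5,1,5], [1,7,1,7], [1,9,1,9], [1,11,1,11], [1,13,1,13], [3,5,3,5], [3,7,3,7], [3,9,3,9], [3,11,3,11], [3,13,3,13], [5,7,5,7], [5,9,5,9], [5,11,5,11], [5,13,5,13], [7,9,7,9], [7,11,7,11], [7,13,7,13], [9,11,9,11], [9,13,9,13], [11,13,11,13]]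

def RM : List (List ℕ) := [[1,1], [2,2], [3,3], [6,6], [9,9], [4,3,5,3], [4,4,2,1], [7,7,6,1], [1,2,6,2,6], [3,7,2,3,8,5,8,2], [6,3,7,3,6,5,8,5], [9,1,9,2], [9,3,9,3], [9,4,9,3,5], [9,6,3,6,9,5,6,5,6,2]]

def RO (x : List ℕ) : List (List ℕ) := RM ++ [[8,9,7,9,2,3,8,9,3,5] ++ x]

def RX : List (List ℕ) := [[1,1], [2,2], [3,3], [4,4], [5,5], [1,2,1,2,1,2], [1,5,1,5], [2,3,2,3,2,3], [2,4,2,4], [2,5,2,5], [1,4,3,4,3,4,3,4,3], [3,5,3,5], [4,5,4,5,4,5], [6,6,6,6,6,6,6], [7,1,6,1], [7,2,6,2], [7,3,6,3], [6,4,6,4], [5,7,5,6,7,7,7,5,6,6,6], [8,8,8], [9,1,8,1], [9,2,8,2], [9,3,8,3], [9,4,8,4], [9,5,8,5], [9,6,8,7,7], [2,1,3,2,4,3,4,5,4,3,4,2,1,3,2,7,5,7,4,3,4,5,4,3,4,7,7,7,5,7,4,3,4,5,4,3,4,5,7,5]]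

end Cfsg.H6.THR
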