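import Cfsg.Agent.TH.Perm2
import Cfsg.Agent.L0.Class2

/-! Charts for an involution centralizer `2^(1+8).A9`. -/

set_option autoImplicit false
set_option linter.unusedSectionVars false

namespace Cfsg.TH

open Subgroup

theorem z2c (i : ZMod 2) : i = 0 ∨ i = 1 := by revert i; decide
theorem z2add (i : ZMod 2) : i + i = 0 := by revert i; decide

/-- The power of an involution. -/
def zp {G : Type*} [Group G] (z : G) (i : ZMod 2) : G := if i = 0 then 1 else z

section
variable {G : Type*} [Group G] {z : G}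
@[simp] theorem zp_zero : zp z 0 = 1 := if_pos rfl
@[simp] theorem zp_one : zp z 1 = z := if_neg (by decide)
theorem zp_add (h : z * z = 1) (i j : ZMod 2) : zp z (i + j) = zp z i * zp z j := by
  rcases z2c i with rfl | rfl <;> rcases z2c j with rfl | rfl <;> simp [z2add, h]
theorem zp_inj (h : z ≠ 1) {i j : ZMod 2} (e : zp z i = zp z j) : i = j := by
  rcases z2c i with rfl | rfl <;> rcases z2c j with rfl | rfl <;> simp_all [eq_comm]
theorem zp_comm {x : G} (h : x * z = z * x) (i : ZMod 2) : x * zp z i = zp z i * x := by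
  rcases z2c i with rfl | rfl <;> simp [h]
theorem map_zp {H : Type*} [Group H] {F : Type*} [FunLike F G H] [MonoidHomClass F G H] (f : F)
    (i : ZMod 2) : f (zp z i) = zp (f z) i := by
  rcases z2c i with rfl | rfl <;> simp
theorem mem_C {g : G} : g ∈ centralizer {z} ↔ g * z = z * g := mem_centralizer_singleton_iff
end

/-- The orthogonal module. -/
structure VD (V : Type*) [AddCommGroup V] [Module (ZMod 2) V] where
  B : LinearMap.BilinForm (ZMod 2) V
  q : V → ZMod 2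
  r : A9 →* Module.End (ZMod 2) V
  q_add : ∀ u v, q (u + v) = q u + q v + B u v
  q_r : ∀ σ v, q (r σ v) = q v
  nd : ∀ v, (∀ w, B v w = 0) → v = 0
  card : Nat.card V = 256

variable {V : Type*} [AddCommGroup V] [Module (ZMod 2) V]

theorem vadd (v : V) : v + v = 0 := by
  rw [← two_smul (ZMod 2) v, show (2 : ZMod 2) = 0 from rfl, zero_smul]

theorem veq {u v : V} : u + v = 0 ↔ u = v := by
  rw [add_eq_zero_iff_eq_neg, neg_eq_of_add_eq_zero_left (vadd v)]

namespace VD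
variable (D : VD V)
include D

theorem fin : Finite V := Nat.finite_of_card_ne_zero (by rw [D.card]; omega)
theorem q_zero : D.q 0 = 0 := by simpa [z2add] using D.q_add 0 0
theorem B_self (v : V) : D.B v v = 0 := by
  have := D.q_add v v
  rw [vadd, D.q_zero, z2add, zero_add] at this
  exact this.symm
theorem B_comm (u v : V) : D.B u v = D.B v u := by
  have := D.q_add u v
  rw [add_comm u, D.q_add, add_comm (D.q v)] at this
  exact (add_left_cancel this).symm
theorem B_r (σ : A9) (u v : V) : D.B (D.r σ u) (D.r σ v) = D.B u v := by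
  have := D.q_add (D.r σ u) (D.r σ v)
  rw [← map_add, D.q_r, D.q_r, D.q_r, D.q_add] at this
  exact (add_left_cancel this).symm
theorem r_mul (σ τ : A9) (v : V) : D.r (σ * τ) v = D.r σ (D.r τ v) := by rw [map_mul]; rfl
theorem r_one (v : V) : D.r 1 v = v := by rw [map_one]; rfl
theorem r_inv (σ : A9) (v : V) : D.r σ (D.r σ⁻¹ v) = v := by rw [← r_mul, mul_inv_cancel, r_one]
theorem inv_r (σ : A9) (v : V) : D.r σ⁻¹ (D.r σ v) = v := by rw [← r_mul, inv_mul_cancel, r_one]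
theorem r_inj (σ : A9) {u v : V} (h : D.r σ u = D.r σ v) : u = v := by
  rw [← D.inv_r σ u, h, D.inv_r]
theorem r_eq_zero {σ : A9} {v : V} : D.r σ v = 0 ↔ v = 0 :=
  ⟨fun h => D.r_inj σ (by rw [h, map_zero]), fun h => by rw [h, map_zero]⟩
theorem ndeg : D.B.Nondegenerate := ⟨D.nd, fun v h => D.nd v fun w => by rw [D.B_comm]; exact h w⟩
theorem exists_B {v : V} (h : v ≠ 0) : ∃ w, D.B v w = 1 := by
  by_contra! k
  exact h (D.nd v fun w => (z2c _).resolve_right (k w))
theorem exists_rep (φ : V →ₗ[ZMod 2] ZMod 2) : ∃ p, ∀ v, D.B p v = φ v := by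
  have := D.fin
  obtain ⟨p, hp⟩ := (D.B.toDual D.ndeg).surjective φ
  exact ⟨p, fun v => by rw [← hp]; rfl⟩
theorem finrank : Module.finrank (ZMod 2) V = 8 := by
  have := D.fin
  have h := Module.natCard_eq_pow_finrank (K := ZMod 2) (V := V)
  rw [D.card, Nat.card_zmod] at h
  exact (Nat.pow_right_injective le_rfl (show 2 ^ 8 = 2 ^ _ from h)).symm

/-- Twisting by an automorphism. -/
def tw (κ : A9 ≃* A9) : VD V := { D with r := D.r.comp κ.toMonoidHom, q_r := fun _ => D.q_r _ }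

end VD

/-- A chart. -/
structure Ch (D : VD V) (G : Type*) [Group G] where
  z : G
  Q : Subgroup G
  cv : G → V
  π : G → A9
  z2 : z * z = 1
  z1 : z ≠ 1
  QC : Q ≤ centralizer {z}
  cv_mul : ∀ {x y}, x ∈ Q → y ∈ Q → cv (x * y) = cv x + cv y
  cv_surj : ∀ v, ∃ x ∈ Q, cv x = v
  cv_zero : ∀ {x}, x ∈ Q → (cv x = 0 ↔ x = 1 ∨ x = z)
  zQ : z ∈ Q
  sq : ∀ {x}, x ∈ Q → x * x = zp z (D.q (cv x))
  π_mul : ∀ {x y}, x ∈ centralizer {z} → y ∈ centralizer {z} → π (x * y) = π x * π y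
  π_surj : ∀ σ, ∃ g ∈ centralizer {z}, π g = σ
  π_ker : ∀ {g}, g ∈ centralizer {z} → (π g = 1 ↔ g ∈ Q)
  cv_conj : ∀ {g x}, g ∈ centralizer {z} → x ∈ Q → cv (g * x * g⁻¹) = D.r (π g) (cv x)
  h2c : ∀ {g}, g ∈ centralizer {z} → (∀ x ∈ Q, g * x = x * g) → g ∈ Q

universe u

theorem exists_ch {G : Type u} [Group G] [Finite G] (t : G) (ht : orderOf t = 2)
    (Q : Subgroup (centralizer ({t} : Set G))) [Q.Normal] (hQ : IsExtraspecial 2 Q)
    (hcard : Nat.card Q = 2 ^ 9) (h2c : centralizer (Q : Set (centralizer ({t} : Set G))) ≤ Q)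
    (e : (centralizer ({t} : Set G)) ⧸ Q ≃* A9) :
    ∃ (V : Type u) (_ : AddCommGroup V) (_ : Module (ZMod 2) V) (D : VD V) (S : Ch D G),
      S.z = t := by
  classical
  have t2 : t * t = 1 := by rw [← pow_two, ← ht, pow_orderOf_eq_one]
  have t1 : t ≠ 1 := by rintro rfl; simp at ht
  let X := Q.map (centralizer {t}).subtype
  have XC : X ≤ centralizer {t} := map_subtype_le _
  have mX : ∀ g (hg : g ∈ centralizer {t}), g ∈ X ↔ (⟨g, hg⟩ : centralizer {t}) ∈ Q :=
    fun g hg => ⟨by rintro ⟨y, hy, rfl⟩; exact hy, fun h => ⟨_, h, rfl⟩⟩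
  have hc : ∀ g ∈ centralizer {t}, (∀ x ∈ X, g * x = x * g) → g ∈ X := fun g hg h =>
    (mX g hg).2 (h2c fun y hy => Subtype.ext (h y ⟨y, hy, rfl⟩).symm)
  have tX : t ∈ X := hc t (mem_C.2 rfl) fun x hx => (mem_C.1 (XC hx)).symm
  let ι : Q → G := fun x => x.1.1
  have hZ : ∀ y : Q, y ∈ center Q ↔ ι y = 1 ∨ ι y = t := by
    obtain ⟨z, -, -, hz⟩ := L0.es_two_center hQ
    let t' : Q := ⟨⟨t, mem_C.2 rfl⟩, (mX _ _).1 tX⟩
    have h1 : t' = z := ((hz t').1 (mem_center_iff.2 fun g =>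
      Subtype.ext (Subtype.ext (mem_C.1 g.1.2)))).resolve_left fun h => t1 (congrArg ι h)
    intro y
    rw [hz, ← h1]
    exact or_congr ⟨fun h => congrArg ι h, fun h => Subtype.ext (Subtype.ext h)⟩
      ⟨fun h => congrArg ι h, fun h => Subtype.ext (Subtype.ext h)⟩
  have sq : ∀ x ∈ X, x * x = 1 ∨ x * x = t := by
    rintro _ ⟨x, hx, rfl⟩
    have := (hZ _).1 (L0.es_pow_mem hQ ⟨x, hx⟩)
    rwa [pow_two] at this
  have cm : ∀ x ∈ X, ∀ y ∈ X, x * y * x⁻¹ * y⁻¹ = 1 ∨ x * y * x⁻¹ * y⁻¹ = t := by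
    rintro _ ⟨x, hx, rfl⟩ _ ⟨y, hy, rfl⟩
    exact (hZ _).1 (L0.comm_mem_center (L0.es_le hQ) ⟨x, hx⟩ ⟨y, hy⟩)
  have mY : ∀ x, x ∈ zpowers t ↔ x = 1 ∨ x = t := fun x => by
    rw [mem_zpowers_iff_mem_range_orderOf, ht]; simp [Finset.range_add_one, eq_comm, or_comm]
  have : ((zpowers t).subgroupOf X).Normal := ⟨fun n hn g => by
    rw [mem_subgroupOf, mY] at hn ⊢
    have := mem_C.1 (XC g.2)
    rcases hn with h | h <;> simp [h, this]⟩
  let cg : CommGroup (X ⧸ (zpowers t).subgroupOf X) :=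
    { (inferInstance : Group (X ⧸ (zpowers t).subgroupOf X)) with
    mul_comm := fun a b => by
      obtain ⟨a, rfl⟩ := QuotientGroup.mk_surjective a
      obtain ⟨b, rfl⟩ := QuotientGroup.mk_surjective b
      rw [← QuotientGroup.mk_mul, ← QuotientGroup.mk_mul, QuotientGroup.eq, mem_subgroupOf, mY]
      have := cm _ (inv_mem b.2) _ (inv_mem a.2)
      simpa [mul_assoc] using this }
  let W := Additive (X ⧸ (zpowers t).subgroupOf X)
  let cv : G → W := fun y => if h : y ∈ X then Additive.ofMul (QuotientGroup.mk ⟨y, h⟩) else 0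
  have hcv : ∀ y (h : y ∈ X), cv y = Additive.ofMul (QuotientGroup.mk ⟨y, h⟩) := fun y h => dif_pos h
  have c1 : ∀ {x y}, x ∈ X → y ∈ X → cv (x * y) = cv x + cv y := fun hx hy => by
    rw [hcv _ hx, hcv _ hy, hcv _ (mul_mem hx hy)]; rfl
  have c2 : ∀ {x}, x ∈ X → (cv x = 0 ↔ x = 1 ∨ x = t) := fun hx => by
    rw [hcv _ hx, ofMul_eq_zero, QuotientGroup.eq_one_iff, mem_subgroupOf, mY]
  have c3 : ∀ v, ∃ x ∈ X, cv x = v := fun b => by
    obtain ⟨y, hy⟩ := QuotientGroup.mk_surjective b.toMul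
    exact ⟨y, y.2, by rw [hcv _ y.2]; exact congrArg Additive.ofMul hy⟩
  have cW : Nat.card W = 256 := by
    have h1 := card_eq_card_quotient_mul_card_subgroup ((zpowers t).subgroupOf X)
    rw [Nat.card_congr (subgroupOfEquivOfLe (zpowers_le.2 tX)).toEquiv, Nat.card_zpowers, ht,
      card_map_of_injective (centralizer {t}).subtype_injective, hcard] at h1
    change Nat.card (X ⧸ (zpowers t).subgroupOf X) = 256
    omega
  obtain ⟨W', _, cv, c1, c2, c3, cW⟩ : ∃ (W' : Type u) (_ : AddCommGroup W') (cv : G → W'),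
      (∀ {x y}, x ∈ X → y ∈ X → cv (x * y) = cv x + cv y) ∧
      (∀ {x}, x ∈ X → (cv x = 0 ↔ x = 1 ∨ x = t)) ∧ (∀ v, ∃ x ∈ X, cv x = v) ∧
      Nat.card W' = 256 := ⟨W, inferInstance, cv, c1, c2, c3, cW⟩
  choose s s1 s2 using c3
  have two : ∀ v : W', v + v = 0 := fun v => by
    rw [← s2 v, ← c1 (s1 v) (s1 v), c2 (mul_mem (s1 v) (s1 v))]; exact sq _ (s1 v)
  let md : Module (ZMod 2) W' := AddCommGroup.zmodModule fun v => by rw [two_nsmul, two]
  have ceq : ∀ {x y}, x ∈ X → y ∈ X → cv x = cv y → x = y ∨ x = y * t := fun {x y} hx hy h => by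
    have h1 : cv (y⁻¹ * x) = 0 := by
      have := c1 hy (mul_mem (inv_mem hy) hx)
      rwa [mul_inv_cancel_left, h, left_eq_add] at this
    rw [c2 (mul_mem (inv_mem hy) hx), inv_mul_eq_one, inv_mul_eq_iff_eq_mul, eq_comm] at h1
    exact h1
  have ct : ∀ {x}, x ∈ X → x * t = t * x := fun hx => mem_C.1 (XC hx)
  let q : W' → ZMod 2 := fun v => if s v * s v = 1 then 0 else 1
  have hq : ∀ {x}, x ∈ X → x * x = zp t (q (cv x)) := fun {x} hx => by
    have h1 : s (cv x) * s (cv x) = x * x := by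
      rcases ceq (s1 _) hx (s2 _) with h | h <;> rw [h]
      rw [mul_assoc, ← mul_assoc t, ← ct hx, mul_assoc x t, t2, mul_one]
    simp only [q, h1]
    split_ifs with h
    · simpa using h
    · simpa using (sq x hx).resolve_left h
  let b : W' → W' → ZMod 2 := fun u v => q (u + v) + q u + q v
  have hb : ∀ {x y}, x ∈ X → y ∈ X → x * y = y * x * zp t (b (cv x) (cv y)) := fun {x y} hx hy => by
    simp only [b]
    rw [zp_add t2, zp_add t2, ← c1 hx hy, ← hq hx, ← hq hy, ← hq (mul_mem hx hy)]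
    have h1 : x * x * (x * x) = 1 := by rw [hq hx, ← zp_add t2, z2add, zp_zero]
    have h2 : y * y * (y * y) = 1 := by rw [hq hy, ← zp_add t2, z2add, zp_zero]
    have h3 : ∀ w ∈ X, w * (x * x) = x * x * w := fun w hw => by rw [hq hx]; exact zp_comm (ct hw) _
    have h4 : ∀ w ∈ X, w * (y * y) = y * y * w := fun w hw => by rw [hq hy]; exact zp_comm (ct hw) _
    symm
    calc _ = y * (x * x) * y * (x * y) * (x * x) * (y * y) := by simp only [mul_assoc]
      _ = (x * x) * (y * y * (x * y)) * (x * x) * (y * y) := by rw [h3 y hy]; simp only [mul_assoc]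
      _ = (x * x * (x * y)) * (y * y * (x * x)) * (y * y) := by
        rw [← h4 _ (mul_mem hx hy)]; simp only [mul_assoc]
      _ = x * y * (x * x * (x * x)) * (y * y * (y * y)) := by
        rw [← h3 _ (mul_mem hx hy), h3 _ (mul_mem hy hy)]; simp only [mul_assoc]
      _ = _ := by rw [h1, h2]; simp
  have badd : ∀ u u' v, b (u + u') v = b u v + b u' v := fun u u' v => by
    refine zp_inj t1 (mul_left_cancel (a := s v * (s u * s u')) ?_)
    have h1 := hb (mul_mem (s1 u) (s1 u')) (s1 v)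
    have h2 := hb (s1 u) (s1 v)
    have h3 := hb (s1 u') (s1 v)
    rw [c1 (s1 u) (s1 u')] at h1
    simp only [s2] at h1 h2 h3
    rw [← h1, mul_assoc, h3, ← mul_assoc, ← mul_assoc, h2, zp_add t2 (b u v), mul_assoc _ _ (s u'),
      ← zp_comm (ct (s1 u'))]
    simp only [mul_assoc]
  have bc : ∀ u v, b u v = b v u := fun u v => by simp only [b]; rw [add_comm u]; ring
  have b0 : ∀ v, b 0 v = 0 := fun v => by simpa using badd 0 0 v
  let B : LinearMap.BilinForm (ZMod 2) W' := LinearMap.mk₂ (ZMod 2) b badd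
    (fun c u v => by rcases z2c c with rfl | rfl <;> simp [b0])
    (fun u v v' => by rw [bc, badd, bc, bc v'])
    (fun c u v => by rcases z2c c with rfl | rfl <;> simp [b0, bc u 0])
  let π : G → A9 := fun g => if h : g ∈ centralizer {t} then e (QuotientGroup.mk ⟨g, h⟩) else 1
  have hπ : ∀ g (h : g ∈ centralizer {t}), π g = e (QuotientGroup.mk ⟨g, h⟩) := fun g h => dif_pos h
  have p1 : ∀ {x y}, x ∈ centralizer {t} → y ∈ centralizer {t} → π (x * y) = π x * π y :=
    fun hx hy => by rw [hπ _ hx, hπ _ hy, hπ _ (mul_mem hx hy), ← map_mul]; rfl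
  have p2 : ∀ σ, ∃ g ∈ centralizer {t}, π g = σ := fun σ => by
    obtain ⟨g, hg⟩ := QuotientGroup.mk_surjective (e.symm σ)
    exact ⟨g, g.2, by rw [hπ _ g.2, hg, e.apply_symm_apply]⟩
  have p3 : ∀ {g}, g ∈ centralizer {t} → (π g = 1 ↔ g ∈ X) := fun hg => by
    rw [hπ _ hg, map_eq_one_iff _ e.injective, QuotientGroup.eq_one_iff, mX _ hg]
  clear_value π
  have cj : ∀ {g x}, g ∈ centralizer {t} → x ∈ X → g * x * g⁻¹ ∈ X := fun {g x} hg hx =>
    (mX _ (mul_mem (mul_mem hg (XC hx)) (inv_mem hg))).2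
      (Normal.conj_mem inferInstance _ ((mX _ (XC hx)).1 hx) ⟨g, hg⟩)
  have cvt : ∀ {x}, x ∈ X → cv (x * t) = cv x := fun hx => by
    rw [c1 hx tX, (c2 tX).2 (Or.inr rfl), add_zero]
  choose l l1 l2 using p2
  have key : ∀ {g x}, g ∈ centralizer {t} → x ∈ X →
      cv (l (π g) * s (cv x) * (l (π g))⁻¹) = cv (g * x * g⁻¹) := fun {g x} hg hx => by
    have h1 : g⁻¹ * l (π g) ∈ X := (p3 (mul_mem (inv_mem hg) (l1 _))).1 (by
      have := p1 hg (mul_mem (inv_mem hg) (l1 (π g)))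
      rwa [mul_inv_cancel_left, l2, left_eq_mul] at this)
    obtain ⟨y, hy, e⟩ : ∃ y ∈ X, l (π g) = g * y := ⟨_, h1, by simp⟩
    have h2 : cv (y * s (cv x) * y⁻¹) = cv x := by
      have := c1 (cj (XC hy) (s1 (cv x))) hy
      rwa [inv_mul_cancel_right, c1 hy (s1 _), s2, add_comm, add_left_inj, eq_comm] at this
    rw [e, show g * y * s (cv x) * (g * y)⁻¹ = g * (y * s (cv x) * y⁻¹) * g⁻¹ by group]
    rcases ceq (cj (XC hy) (s1 _)) hx h2 with h | h <;> rw [h]
    rw [← cvt (cj hg hx), mul_assoc _ g⁻¹, mem_C.1 (inv_mem hg)]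
    simp only [mul_assoc]
  let ρ : A9 → Module.End (ZMod 2) W' := fun σ => (AddMonoidHom.mk'
    (fun v => cv (l σ * s v * (l σ)⁻¹)) fun u v => by
      have := key (l1 σ) (mul_mem (s1 u) (s1 v))
      rw [l2, c1 (s1 u) (s1 v), s2, s2] at this
      rw [this, ← c1 (cj (l1 σ) (s1 u)) (cj (l1 σ) (s1 v)), conj_mul]).toZModLinearMap 2
  have hρ : ∀ {g x}, g ∈ centralizer {t} → x ∈ X → cv (g * x * g⁻¹) = ρ (π g) (cv x) :=
    fun hg hx => (key hg hx).symm
  let r : A9 →* Module.End (ZMod 2) W' :=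
    { toFun := ρ
      map_one' := LinearMap.ext fun v => by
        have := hρ (one_mem _) (s1 v)
        rw [(p3 (one_mem _)).2 (one_mem _), s2] at this
        rw [← this]; simp [s2]
      map_mul' := fun σ τ => LinearMap.ext fun v => by
        have h1 := hρ (mul_mem (l1 σ) (l1 τ)) (s1 v)
        have h2 := hρ (l1 σ) (cj (l1 τ) (s1 v))
        have h3 := hρ (l1 τ) (s1 v)
        rw [p1 (l1 σ) (l1 τ)] at h1
        simp only [l2, s2] at h1 h2 h3
        rw [Module.End.mul_apply, ← h1, ← h3, ← h2]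
        congr 1; group }
  refine ⟨W', inferInstance, md, ⟨B, q, r, fun u v => ?_, fun σ v => ?_, fun v h => ?_, cW⟩,
    ⟨t, X, cv, π, t2, t1, XC, c1, fun v => ⟨_, s1 v, s2 v⟩, c2, tX, hq, p1,
      fun σ => ⟨_, l1 σ, l2 σ⟩, p3, hρ, hc _⟩, rfl⟩
  · change _ = _ + b u v
    simp only [b]
    generalize q (u + v) = i, q u = j, q v = k
    revert i j k; decide
  · refine zp_inj t1 ?_
    have h1 := hρ (l1 σ) (s1 v)
    have h2 := hq (s1 v)
    rw [l2, s2] at h1
    rw [s2] at h2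
    change zp t (q (ρ σ v)) = _
    rw [← h1, ← hq (cj (l1 σ) (s1 v)), conj_mul, h2, zp_comm (mem_C.1 (l1 σ)), mul_inv_cancel_right]
  · rw [← s2 v, c2 (s1 v)]
    obtain ⟨y, hy, e⟩ := s1 v
    have : (⟨y, hy⟩ : Q) ∈ center Q := mem_center_iff.2 fun g => Subtype.ext (Subtype.ext (by
      have h1 := hb (s1 v) (⟨g.1, g.2, rfl⟩ : g.1.1 ∈ X)
      have h2 : b v (cv g.1.1) = 0 := h _
      rw [s2, h2, zp_zero, mul_one, ← e] at h1
      exact h1.symm))
    rw [← e]
    exact (hZ _).1 this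

end Cfsg.TH
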