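import Cfsg.Agent.TH.Ch

/-! Basic properties of charts. -/

set_option autoImplicit false
set_option linter.unusedSectionVars false

namespace Cfsg.TH

open Subgroup

variable {V : Type*} [AddCommGroup V] [Module (ZMod 2) V] {D : VD V} {G : Type*} [Group G]

namespace Ch
variable (S : Ch D G) {x y g h : G}

/-- The centralizer. -/
abbrev C : Subgroup G := centralizer {S.z}

theorem zC : S.z ∈ S.C := S.QC S.zQ
theorem cz (hg : g ∈ S.C) : g * S.z = S.z * g := mem_C.1 hg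
theorem qz (hx : x ∈ S.Q) : x * S.z = S.z * x := mem_C.1 (S.QC hx)
theorem zinv : S.z⁻¹ = S.z := inv_eq_of_mul_eq_one_left S.z2
theorem cjz (hg : g ∈ S.C) : g * S.z * g⁻¹ = S.z := by rw [S.cz hg, mul_inv_cancel_right]
theorem cv_one : S.cv 1 = 0 := (S.cv_zero (one_mem _)).2 (Or.inl rfl)
theorem cv_z : S.cv S.z = 0 := (S.cv_zero S.zQ).2 (Or.inr rfl)
theorem zp_mem (i : ZMod 2) : zp S.z i ∈ S.Q := by
  rcases z2c i with rfl | rfl <;> simp [S.zQ]
theorem cv_zp (i : ZMod 2) : S.cv (zp S.z i) = 0 := by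
  rcases z2c i with rfl | rfl <;> simp [S.cv_z, S.cv_one]
theorem cv_mz (hx : x ∈ S.Q) : S.cv (x * S.z) = S.cv x := by rw [S.cv_mul hx S.zQ, S.cv_z, add_zero]
theorem cv_inv (hx : x ∈ S.Q) : S.cv x⁻¹ = S.cv x := by
  rw [← veq, ← S.cv_mul (inv_mem hx) hx, inv_mul_cancel, S.cv_one]
theorem cv_eq (hx : x ∈ S.Q) (hy : y ∈ S.Q) (h : S.cv x = S.cv y) : x = y ∨ x = y * S.z := by
  have h1 : S.cv (y⁻¹ * x) = 0 := by rw [S.cv_mul (inv_mem hy) hx, S.cv_inv hy, h, vadd]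
  rwa [S.cv_zero (mul_mem (inv_mem hy) hx), inv_mul_eq_one, inv_mul_eq_iff_eq_mul, eq_comm] at h1
theorem cv_eq' (hx : x ∈ S.Q) (hy : y ∈ S.Q) (h : S.cv x = S.cv y) : ∃ i, x = y * zp S.z i :=
  (S.cv_eq hx hy h).elim (fun h => ⟨0, by simpa⟩) fun h => ⟨1, by simpa⟩

theorem comm (hx : x ∈ S.Q) (hy : y ∈ S.Q) : x * y = y * x * zp S.z (D.B (S.cv x) (S.cv y)) := by
  have h1 := S.sq (mul_mem hx hy)
  rw [S.cv_mul hx hy, D.q_add, D.B_comm, zp_add S.z2, zp_add S.z2, ← S.sq hx, ← S.sq hy,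
    mul_assoc x y, mul_assoc x x, mul_assoc x, mul_left_cancel_iff, mul_assoc x, mul_assoc y y,
    zp_comm (S.qz hy), ← mul_assoc, ← mul_assoc, ← mul_assoc, mul_right_cancel_iff] at h1
  rw [h1, D.B_comm, mul_assoc (x * y), ← zp_add S.z2, z2add, zp_zero, mul_one]

theorem comm_iff (hx : x ∈ S.Q) (hy : y ∈ S.Q) : x * y = y * x ↔ D.B (S.cv x) (S.cv y) = 0 := by
  rw [S.comm hx hy, mul_eq_left]
  exact ⟨fun h => zp_inj S.z1 (h.trans zp_zero.symm), fun h => by rw [h, zp_zero]⟩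

theorem sq_iff (hx : x ∈ S.Q) : x * x = 1 ↔ D.q (S.cv x) = 0 := by
  rw [S.sq hx]
  exact ⟨fun h => zp_inj S.z1 (h.trans zp_zero.symm), fun h => by rw [h, zp_zero]⟩

theorem π_one : S.π 1 = 1 := (S.π_ker (one_mem _)).2 (one_mem _)
theorem π_Q (hx : x ∈ S.Q) : S.π x = 1 := (S.π_ker (S.QC hx)).2 hx
theorem π_inv (hg : g ∈ S.C) : S.π g⁻¹ = (S.π g)⁻¹ :=
  eq_inv_of_mul_eq_one_left (by rw [← S.π_mul (inv_mem hg) hg, inv_mul_cancel, S.π_one])
theorem π_conj (hg : g ∈ S.C) (hx : x ∈ S.C) : S.π (g * x * g⁻¹) = S.π g * S.π x * (S.π g)⁻¹ := by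
  rw [S.π_mul (mul_mem hg hx) (inv_mem hg), S.π_mul hg hx, S.π_inv hg]
theorem π_mq (hg : g ∈ S.C) (hx : x ∈ S.Q) : S.π (g * x) = S.π g := by
  rw [S.π_mul hg (S.QC hx), S.π_Q hx, mul_one]
theorem conj_mem (hg : g ∈ S.C) (hx : x ∈ S.Q) : g * x * g⁻¹ ∈ S.Q :=
  (S.π_ker (mul_mem (mul_mem hg (S.QC hx)) (inv_mem hg))).1 (by
    rw [S.π_conj hg (S.QC hx), S.π_Q hx]; simp)
theorem π_eq (hg : g ∈ S.C) (hh : h ∈ S.C) (e : S.π g = S.π h) : ∃ x ∈ S.Q, g = h * x :=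
  ⟨h⁻¹ * g, (S.π_ker (mul_mem (inv_mem hh) hg)).1 (by
    rw [S.π_mul (inv_mem hh) hg, S.π_inv hh, e, inv_mul_cancel]), by simp⟩

/-- The homomorphism onto the alternating group. -/
def ph : S.C →* A9 := MonoidHom.mk' (fun g => S.π g) fun a b => S.π_mul a.2 b.2

theorem π_pow (hg : g ∈ S.C) (n : ℕ) : S.π (g ^ n) = S.π g ^ n := map_pow S.ph ⟨g, hg⟩ n

theorem four (hx : x ∈ S.Q) : x * x * (x * x) = 1 := by
  rw [S.sq hx, ← zp_add S.z2, z2add, zp_zero]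

theorem eq_one_of_odd (hx : x ∈ S.Q) {n : ℕ} (hn : Odd n) (h : x ^ n = 1) : x = 1 := by
  have h4 : x ^ 4 = 1 := by rw [← S.four hx]; simp only [pow_succ, pow_zero, one_mul, mul_assoc]
  have := Nat.dvd_gcd (orderOf_dvd_of_pow_eq_one h4) (orderOf_dvd_of_pow_eq_one h)
  rwa [show Nat.gcd 4 n = 1 from (Nat.Coprime.pow_left 2 (Nat.coprime_two_left.2 hn)), Nat.dvd_one,
    orderOf_eq_one_iff] at this

theorem exists_flip (hx : x ∈ S.Q) (h : S.cv x ≠ 0) : ∃ y ∈ S.Q, y * x * y⁻¹ = x * S.z := by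
  obtain ⟨w, hw⟩ := D.exists_B h
  obtain ⟨y, hy, rfl⟩ := S.cv_surj w
  refine ⟨y, hy, ?_⟩
  rw [S.comm hy hx, D.B_comm, hw, zp_one, mul_assoc x, S.qz hy]
  simp only [mul_assoc, mul_inv_cancel, mul_one]

/-- Vectors in one orbit give conjugate elements. -/
theorem lift_conj (hx : x ∈ S.Q) (hy : y ∈ S.Q) (h0 : S.cv y ≠ 0) {σ : A9}
    (h : D.r σ (S.cv x) = S.cv y) : ∃ g ∈ S.C, S.π g = σ ∧ g * x * g⁻¹ = y := by
  obtain ⟨g, hg, rfl⟩ := S.π_surj σ
  rw [← S.cv_conj hg hx] at h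
  rcases S.cv_eq (S.conj_mem hg hx) hy h with e | e
  · exact ⟨g, hg, rfl, e⟩
  · obtain ⟨w, hw, e'⟩ := S.exists_flip hy h0
    refine ⟨w * g, mul_mem (S.QC hw) hg, by rw [S.π_mul (S.QC hw) hg, S.π_Q hw, one_mul], ?_⟩
    rw [show w * g * x * (w * g)⁻¹ = w * (g * x * g⁻¹) * w⁻¹ by group, e, ← conj_mul, e',
      S.cjz (S.QC hw), mul_assoc, S.z2, mul_one]

theorem cent_Q (hg : g ∈ S.C) (h : ∀ x ∈ S.Q, g * x = x * g) : g = 1 ∨ g = S.z := by
  have hq := S.h2c hg h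
  refine (S.cv_zero hq).1 (D.nd _ fun w => ?_)
  obtain ⟨y, hy, rfl⟩ := S.cv_surj w
  exact (S.comm_iff hq hy).1 (h y hy)

include S in
theorem faith {σ : A9} (h : D.r σ = 1) : σ = 1 := by
  classical
  obtain ⟨g, hg, rfl⟩ := S.π_surj σ
  choose s s1 s2 using S.cv_surj
  have k : ∀ {x}, x ∈ S.Q → ∃ i, g * x * g⁻¹ = x * zp S.z i := fun hx =>
    S.cv_eq' (S.conj_mem hg hx) hx (by rw [S.cv_conj hg hx, h]; rfl)
  choose f hf using fun v => k (s1 v)
  have hf' : ∀ {x}, x ∈ S.Q → g * x * g⁻¹ = x * zp S.z (f (S.cv x)) := fun {x} hx => by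
    obtain ⟨i, e⟩ := S.cv_eq' hx (s1 _) (s2 _).symm
    generalize S.cv x = v at e
    rw [e, ← conj_mul, hf, zp_comm (S.cz hg), mul_inv_cancel_right, mul_assoc, mul_assoc,
      ← zp_add S.z2, ← zp_add S.z2, add_comm]
  obtain ⟨p, hp⟩ := D.exists_rep ((AddMonoidHom.mk' f fun u v => by
    refine zp_inj S.z1 (mul_left_cancel (a := s u * s v) ?_)
    have := hf' (mul_mem (s1 u) (s1 v))
    rw [S.cv_mul (s1 u) (s1 v), s2, s2] at this
    rw [← this, ← conj_mul, hf, hf, zp_add S.z2, mul_assoc, ← mul_assoc (zp _ _),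
      ← zp_comm (S.qz (s1 v))]
    simp only [mul_assoc]).toZModLinearMap 2)
  have : (s p)⁻¹ * g ∈ S.Q := S.h2c (mul_mem (inv_mem (S.QC (s1 p))) hg) fun x hx => by
    have h1 := hf' hx
    have h2 := S.comm (s1 p) hx
    rw [s2, hp] at h2
    change _ = _ * zp _ (f _) at h2
    rw [mul_inv_eq_iff_eq_mul] at h1
    rw [mul_assoc, h1, inv_mul_eq_iff_eq_mul, ← mul_assoc (s p), h2, mul_assoc x (s p),
      zp_comm (S.qz (s1 p))]
    simp only [mul_assoc, mul_inv_cancel_left]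
  exact S.π_Q (by simpa using mul_mem (s1 p) this)

/-- Transport along an automorphism. -/
def map (θ : G ≃* G) : Ch D G where
  z := θ S.z
  Q := S.Q.comap θ.symm.toMonoidHom
  cv := fun x => S.cv (θ.symm x)
  π := fun x => S.π (θ.symm x)
  z2 := by rw [← map_mul, S.z2, map_one]
  z1 := by rw [Ne, map_eq_one_iff _ θ.injective]; exact S.z1
  QC := fun x hx => mem_C.2 (θ.symm.injective (by simpa using S.qz hx))
  cv_mul := fun hx hy => by rw [map_mul]; exact S.cv_mul hx hy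
  cv_surj := fun v => by
    obtain ⟨x, hx, e⟩ := S.cv_surj v
    exact ⟨θ x, by simpa using hx, by simpa using e⟩
  cv_zero := fun hx => (S.cv_zero hx).trans (or_congr (map_eq_one_iff _ θ.symm.injective)
    θ.symm_apply_eq)
  zQ := by simpa using S.zQ
  sq := fun hx => θ.symm.injective (by
    rw [map_mul, map_zp, θ.symm_apply_apply]; exact S.sq hx)
  π_mul := fun hx hy => by
    rw [map_mul]
    exact S.π_mul (mem_C.2 (by simpa using congrArg θ.symm (mem_C.1 hx)))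
      (mem_C.2 (by simpa using congrArg θ.symm (mem_C.1 hy)))
  π_surj := fun σ => by
    obtain ⟨x, hx, e⟩ := S.π_surj σ
    exact ⟨θ x, mem_C.2 (by rw [← map_mul, S.cz hx, map_mul]), by simpa using e⟩
  π_ker := fun hx => S.π_ker (mem_C.2 (by simpa using congrArg θ.symm (mem_C.1 hx)))
  cv_conj := fun hg hx => by
    rw [map_mul, map_mul, map_inv]
    exact S.cv_conj (mem_C.2 (by simpa using congrArg θ.symm (mem_C.1 hg))) hx
  h2c := fun hg h => S.h2c (mem_C.2 (by simpa using congrArg θ.symm (mem_C.1 hg))) fun x hx => by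
    simpa using congrArg θ.symm (h (θ x) (by simpa using hx))

/-- The chart at a conjugate. -/
def mv (g : G) : Ch D G := S.map (MulAut.conj g)

theorem mv_z (g : G) : (S.mv g).z = g * S.z * g⁻¹ := rfl
theorem mem_mv_Q : x ∈ (S.mv g).Q ↔ g⁻¹ * x * g ∈ S.Q := by
  change (MulAut.conj g).symm x ∈ S.Q ↔ _; rw [MulAut.conj_symm_apply]

/-- Twisting by an automorphism of the alternating group. -/
def tw (κ : A9 ≃* A9) : Ch (D.tw κ) G :=
  { S with
    π := fun g => κ.symm (S.π g)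
    π_mul := fun hx hy => by rw [S.π_mul hx hy, map_mul]
    π_surj := fun σ => by
      obtain ⟨x, hx, e⟩ := S.π_surj (κ σ)
      exact ⟨x, hx, by rw [e, κ.symm_apply_apply]⟩
    π_ker := fun hx => (map_eq_one_iff _ κ.symm.injective).trans (S.π_ker hx)
    cv_conj := fun hg hx => by rw [S.cv_conj hg hx]; simp [VD.tw] }

/-- Two charts of one family. -/
def Fam (S' : Ch D G) : Prop := ∃ g, S' = S.mv g

/-- The preimage of a subspace. -/
def pre (U : Submodule (ZMod 2) V) : Subgroup G where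
  carrier := {x | x ∈ S.Q ∧ S.cv x ∈ U}
  one_mem' := ⟨one_mem _, by rw [S.cv_one]; exact zero_mem _⟩
  mul_mem' := fun a b => ⟨mul_mem a.1 b.1, by rw [S.cv_mul a.1 b.1]; exact add_mem a.2 b.2⟩
  inv_mem' := fun a => ⟨inv_mem a.1, by rw [S.cv_inv a.1]; exact a.2⟩

theorem mem_pre {U : Submodule (ZMod 2) V} : x ∈ S.pre U ↔ x ∈ S.Q ∧ S.cv x ∈ U := Iff.rfl

theorem card_pre (U : Submodule (ZMod 2) V) : Nat.card (S.pre U) = 2 * Nat.card U := by
  let φ : S.pre U →* Multiplicative U := MonoidHom.mk'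
    (fun k => Multiplicative.ofAdd ⟨S.cv k, k.2.2⟩) fun a b =>
      congrArg Multiplicative.ofAdd (Subtype.ext (S.cv_mul a.2.1 b.2.1))
  have hs : φ.range = ⊤ := MonoidHom.range_eq_top.2 fun u => by
    obtain ⟨x, hx, e⟩ := S.cv_surj u.toAdd.1
    exact ⟨⟨x, hx, by rw [e]; exact u.toAdd.2⟩, congrArg Multiplicative.ofAdd (Subtype.ext e)⟩
  have hk : Nat.card φ.ker = 2 := by
    refine (Nat.card_eq_two_iff' 1).2 ⟨⟨⟨S.z, S.zQ, by rw [S.cv_z]; exact zero_mem _⟩,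
      congrArg Multiplicative.ofAdd (Subtype.ext S.cv_z)⟩,
      fun e => S.z1 (congrArg (fun k : φ.ker => k.1.1) e), fun k hk => ?_⟩
    refine Subtype.ext (Subtype.ext (((S.cv_zero k.1.2.1).1 ?_).resolve_left fun e =>
      hk (Subtype.ext (Subtype.ext e))))
    exact congrArg (fun u : Multiplicative U => u.toAdd.1) k.2
  rw [← card_mul_index φ.ker, index_ker, hs, hk, card_top]
  rfl

end Ch

end Cfsg.TH
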