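import Cfsg.Agent.H6.MRep
import Cfsg.Agent.H2.Chev1

/-! Right multiplication of packed matrices by root elements of a Chevalley group over `ZMod 3`. -/

set_option autoImplicit false

namespace Cfsg.TH.E8

open Cfsg.H6 Finset

variable (P : Par)

/-- A combination of columns. -/
noncomputable def scol (co : ℕ → ℤ → ℕ) (M1 p : ℕ) (l : H2.Op.SV) : ℕ :=
  @List.rec _ (fun _ => ℕ) (nat_lit 0) (fun e _ ih => Nat.add ih
    (Nat.mul (Nat.land (Nat.shiftRight p (Nat.mul P.b e.1)) M1) (co e.2.1 e.2.2))) l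

/-- All the columns. -/
noncomputable def sacc (co : ℕ → ℤ → ℕ) (M0 M1 p : ℕ) (cf : ℕ → H2.Op.SV) (n : ℕ) : ℕ :=
  @Nat.rec (fun _ => ℕ) (Nat.land p M0)
    (fun j ih => Nat.add ih (Nat.shiftLeft (scol P co M1 p (cf j)) (Nat.mul P.b j))) n

/-- The product by a sparse unipotent matrix. -/
noncomputable def smul (r : ℕ) (co : ℕ → ℤ → ℕ) (cf : ℕ → H2.Op.SV) (p : ℕ) : ℕ :=
  frc (P.rdc (msk P.b (Nat.mul r P.d) (Nat.sub P.b P.s)))
    (sacc P co (msk P.b (Nat.mul r P.d) P.t) (msk (Nat.mul P.b P.d) r P.t) p cf P.d)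

variable {P}

theorem scol_eq (hb : 0 < P.b) (ht : P.t ≤ P.b) (hd : 0 < P.d) (co : ℕ → ℤ → ℕ) (r p : ℕ)
    (l : H2.Op.SV) : scol P co (msk (P.b * P.d) r P.t) p l =
      pk (P.b * P.d) r fun i => (l.map fun e => P.dgt p i e.1 * co e.2.1 e.2.2).sum := by
  induction l with
  | nil => simp [scol, pk]
  | cons e l ih =>
    have e1 : scol P co (msk (P.b * P.d) r P.t) p (e :: l) = scol P co (msk (P.b * P.d) r P.t) p l +
      ((p >>> (P.b * e.1)) &&& msk (P.b * P.d) r P.t) * co e.2.1 e.2.2 := rfl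
    rw [e1, ih, msk_eq (by positivity),
      land_pk (by positivity) (ht.trans (Nat.le_mul_of_pos_right _ hd)), pk_mul, pk_add]
    refine pk_congr fun i _ => ?_
    rw [List.map_cons, List.sum_cons, add_comm]
    rfl

theorem pk_single (b d j : ℕ) (hj : j < d) :
    pk b d (fun k => if k = j then 1 else 0) = 2 ^ (b * j) := by
  unfold pk
  rw [sum_eq_single j (fun k _ h => by simp [h]) (fun h => absurd (mem_range.mpr hj) h)]
  simp

theorem sacc_eq (hb : 0 < P.b) (ht : P.t ≤ P.b) (hd : 0 < P.d) (co : ℕ → ℤ → ℕ) (r p : ℕ)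
    (cf : ℕ → H2.Op.SV) (n : ℕ) (hn : n ≤ P.d) :
    sacc P co (msk P.b (r * P.d) P.t) (msk (P.b * P.d) r P.t) p cf n =
      pk P.b (r * P.d) fun v => P.dgt p (v / P.d) (v % P.d) + if v % P.d < n then
        ((cf (v % P.d)).map fun e => P.dgt p (v / P.d) e.1 * co e.2.1 e.2.2).sum else 0 := by
  induction n with
  | zero =>
    have e1 : sacc P co (msk P.b (r * P.d) P.t) (msk (P.b * P.d) r P.t) p cf 0 =
      (p >>> 0) &&& msk P.b (r * P.d) P.t := rfl
    rw [e1, msk_eq hb, land_pk hb ht]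
    refine pk_congr fun v _ => ?_
    rw [if_neg (Nat.not_lt_zero _), add_zero, add_zero]
    unfold Par.dgt
    rw [mul_assoc, ← mul_add, Nat.div_add_mod]
  | succ n ih =>
    have e1 : sacc P co (msk P.b (r * P.d) P.t) (msk (P.b * P.d) r P.t) p cf (n + 1) =
      sacc P co (msk P.b (r * P.d) P.t) (msk (P.b * P.d) r P.t) p cf n +
        scol P co (msk (P.b * P.d) r P.t) p (cf n) <<< (P.b * n) := rfl
    rw [e1, ih (by omega), scol_eq hb ht hd, Nat.shiftLeft_eq, ← pk_single P.b P.d n (by omega),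
      pk_mul_pk r hd, pk_add]
    refine pk_congr fun v _ => ?_
    rcases lt_trichotomy (v % P.d) n with h | h | h
    · rw [if_pos h, if_neg h.ne, if_pos (h.trans n.lt_succ_self), mul_zero, add_zero]
    · rw [if_neg h.not_lt, if_pos h, if_pos (h.trans_lt n.lt_succ_self), mul_one, add_zero, h]
    · rw [if_neg h.not_gt, if_neg h.ne', if_neg (by omega), mul_zero, add_zero]

theorem dec_rdc (h : P.ok = true) (r : ℕ) {F : ℕ → ℕ} (hF : ∀ v, F v ≤ P.d * (2 ^ P.t - 1) ^ 2)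
    (i : Fin r) (j : Fin P.d) :
    P.dec r (P.rdc (msk P.b (r * P.d) (P.b - P.s)) (pk P.b (r * P.d) F)) i j = F (i * P.d + j) := by
  unfold Par.ok at h
  simp only [Bool.and_eq_true, Nat.blt_eq, Nat.ble_eq] at h
  obtain ⟨⟨⟨⟨⟨⟨hb, ht⟩, hs⟩, hq⟩, hqt⟩, hd⟩, hx⟩ := h
  have hx' := allR_range hx rfl
  have hF' : ∀ v, F v * P.c < 2 ^ P.b ∧ (F v * P.c) >>> P.s % 2 ^ (P.b - P.s) = F v / P.q := by
    intro v
    simpa using hx' (F v) (Nat.zero_le _) (by have := hF v; omega)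
  have e : P.rdc (msk P.b (r * P.d) (P.b - P.s)) (pk P.b (r * P.d) F) =
      pk P.b (r * P.d) fun v => F v % P.q := by
    have e0 : ∀ X, P.rdc (msk P.b (r * P.d) (P.b - P.s)) X =
      X - (((X * P.c) >>> P.s) &&& msk P.b (r * P.d) (P.b - P.s)) * P.q := fun _ => rfl
    rw [e0, pk_mul, msk_eq hb, land_pk hb (by omega), pk_mul, pk_sub]
    · refine pk_congr fun v hv => ?_
      rw [lane_pk hb (fun i _ => (hF' i).1) (by omega) hv, (hF' v).2, Nat.mod_def, mul_comm]
    · intro v hv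
      rw [lane_pk hb (fun i _ => (hF' i).1) (by omega) hv, (hF' v).2]
      exact Nat.div_mul_le_self _ _
  have h1 : ∀ x, x % P.q < 2 ^ P.t := fun x => lt_of_lt_of_le (Nat.mod_lt _ hq) hqt
  have h4 : (i : ℕ) * P.d + j < r * P.d := by
    have := Nat.mul_le_mul_right P.d (show (i : ℕ) + 1 ≤ r from i.2)
    have := j.2
    nlinarith
  rw [e]
  unfold Par.dec Par.dgt
  rw [show P.b * P.d * i + P.b * j = P.b * (i * P.d + j) + 0 by ring,
    lane_pk hb (fun _ _ => lt_of_lt_of_le (h1 _) (Nat.pow_le_pow_right (by norm_num) ht))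
      (by omega) h4, Nat.shiftRight_zero, Nat.mod_eq_of_lt (h1 _), ZMod.natCast_mod]

theorem dec_smul (h : P.ok = true) (r : ℕ) {co : ℕ → ℤ → ℕ} {cf : ℕ → H2.Op.SV} {B K : ℕ}
    (hc : ∀ k c, co k c ≤ B) (hl : ∀ j, (cf j).length ≤ K)
    (hB : (2 ^ P.t - 1) * (1 + K * B) ≤ P.d * (2 ^ P.t - 1) ^ 2) (p : ℕ) (i : Fin r) (j : Fin P.d) :
    P.dec r (smul P r co cf p) i j = P.dec r p i j +
      ((cf j).map fun e => (P.dgt p i e.1 : ZMod P.q) * co e.2.1 e.2.2).sum := by
  have h' := h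
  unfold Par.ok at h'
  simp only [Bool.and_eq_true, Nat.blt_eq, Nat.ble_eq] at h'
  obtain ⟨⟨⟨⟨⟨⟨hb, ht⟩, hs⟩, hq⟩, hqt⟩, hd⟩, hx⟩ := h'
  have h2 : ((i : ℕ) * P.d + j) / P.d = i := by
    rw [mul_comm, Nat.mul_add_div hd, Nat.div_eq_of_lt j.2, add_zero]
  have h3 : ((i : ℕ) * P.d + j) % P.d = j := by
    rw [mul_comm, Nat.mul_add_mod, Nat.mod_eq_of_lt j.2]
  have h5 : ∀ a i j, P.dgt a i j ≤ 2 ^ P.t - 1 := fun a i j =>
    Nat.le_sub_one_of_lt (Nat.mod_lt _ (by positivity))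
  have e := sacc_eq hb ht hd co r p cf P.d le_rfl
  unfold smul
  rw [frc_eq]
  refine (congrArg (fun X => P.dec r (P.rdc (msk P.b (r * P.d) (P.b - P.s)) X) i j) e).trans ?_
  rw [dec_rdc h, h2, h3, if_pos j.2]
  · push_cast
    rw [List.map_map]
    congr 2
    exact List.map_congr_left fun e _ => by simp
  · intro v
    refine le_trans ?_ hB
    rw [if_pos (Nat.mod_lt _ hd), mul_add, mul_one]
    refine add_le_add (h5 _ _ _) ((List.sum_le_card_nsmul _ ((2 ^ P.t - 1) * B) fun x hx => ?_).trans ?_)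
    · obtain ⟨e, -, rfl⟩ := List.mem_map.mp hx
      exact Nat.mul_le_mul (h5 _ _ _) (hc _ _)
    · rw [List.length_map, smul_eq_mul, mul_left_comm]
      exact Nat.mul_le_mul_left _ (Nat.mul_le_mul_right _ (hl _))

open Cfsg.Lie H2.Ch

/-- The coefficients. -/
def co (q t k : ℕ) (c : ℤ) : ℕ := Int.toNat (Int.emod (Int.mul c (Int.ofNat (Nat.pow t k))) (Int.ofNat q))

theorem co_lt {q : ℕ} (hq : 0 < q) (t k : ℕ) (c : ℤ) : co q t k c ≤ q - 1 := by
  have h1 : c * (t ^ k : ℕ) % (q : ℤ) < q := Int.emod_lt_of_pos _ (by exact_mod_cast hq)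
  have e : co q t k c = (c * (t ^ k : ℕ) % (q : ℤ)).toNat := rfl
  omega

theorem co_cast {q : ℕ} (hq : 0 < q) (t k : ℕ) (c : ℤ) : (co q t k c : ZMod q) = c * t ^ k := by
  have h1 : 0 ≤ c * (t ^ k : ℕ) % (q : ℤ) := Int.emod_nonneg _ (by exact_mod_cast hq.ne')
  have e : co q t k c = (c * (t ^ k : ℕ) % (q : ℤ)).toNat := rfl
  rw [e, ← Int.cast_natCast, Int.toNat_of_nonneg h1, ZMod.intCast_mod]
  push_cast
  rfl

theorem decS_len (l f k c : ℕ) : (decS l f k c).length ≤ f := by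
  induction f generalizing k c with
  | zero => simp [decS]
  | succ f ih =>
    rw [decS_succ]
    split_ifs
    · simp
    · exact Nat.succ_le_succ (ih _ _)

theorem cl_len (D : ChevalleyDatum) (T : Tb) (r j : ℕ) : (cl D T r j).length ≤ D.rank + 3 := by
  by_cases h : j < D.rank
  · rw [cl_lt D T r h]; simp
  obtain ⟨s, rfl⟩ := Nat.exists_eq_add_of_le (not_lt.mp h)
  by_cases h2 : s = ng D r
  · rw [h2, cl_ng]; simp
  · rw [cl_root D T r h2]; exact (decS_len _ _ _ _).trans (by omega)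

variable [Fact P.q.Prime] {D : ChevalleyDatum} {T : Tb}

theorem sum_pv (p : ℕ) (i : Fin P.d) (t : ℕ) (l : H2.Op.SV) (hl : ∀ e ∈ l, e.1 < P.d) :
    ∑ a : Fin P.d, P.dec P.d p i a * H2.Ch.pv (t : ZMod P.q) l a =
      (l.map fun e => (P.dgt p i e.1 : ZMod P.q) * co P.q t e.2.1 e.2.2).sum := by
  induction l with
  | nil => simp [H2.Ch.pv]
  | cons e l ih =>
    obtain ⟨h1, h2⟩ := List.forall_mem_cons.mp hl
    rw [List.map_cons, List.sum_cons, ← ih h2, co_cast (Fact.out : P.q.Prime).pos]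
    simp only [H2.Ch.pv, List.map_cons, List.sum_cons, mul_add, sum_add_distrib, add_left_inj]
    rw [sum_eq_single ⟨e.1, h1⟩ (fun b _ hb => by rw [if_neg fun h => hb (Fin.ext h.symm), mul_zero])
      (fun h => absurd (mem_univ _) h), if_pos rfl]
    rfl

theorem dec_x (h : P.ok = true) (hB : (2 ^ P.t - 1) * (1 + (D.rank + 3) * (P.q - 1)) ≤ P.d * (2 ^ P.t - 1) ^ 2)
    (hd : dim D = P.d) (e : D.Idx ≃ Fin P.d) (he : ∀ a, (e a : ℕ) = enc D a) {r : Fin D.nroots}
    (hr : OkA D T r) (t p : ℕ) :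
    P.dec P.d (smul P P.d (co P.q t) (cl D T r) p) =
      P.dec P.d p * Matrix.reindex e e (D.xMat (ZMod P.q) r t) := by
  ext i j
  have he' : ∀ a, (enc D (e.symm a) : ℕ) = a := fun a => by rw [← he, e.apply_symm_apply]
  rw [dec_smul h P.d (co_lt (Fact.out : P.q.Prime).pos t) (cl_len D T r) hB, Matrix.mul_apply,
    ← sum_pv p i t _ fun x hx => (hr.cl j (j.2.trans_eq hd.symm) x hx).1.trans_eq hd]
  simp only [Matrix.reindex_apply, Matrix.submatrix_apply, xMat_eq hr, he', mul_add, sum_add_distrib,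
    add_left_inj, Matrix.one_apply, EmbeddingLike.apply_eq_iff_eq, mul_ite, mul_one, mul_zero,
    sum_ite_eq', mem_univ, if_true]

/-- The letter `2 r + t - 1` stands for the root element `x_r (t)`, `t = 1, 2`. -/
noncomputable def img (P : Par) (D : ChevalleyDatum) (T : Tb) (x p : ℕ) : ℕ :=
  smul P P.d (co P.q (Nat.succ (Nat.mod x 2))) (cl D T (Nat.div x 2)) p

theorem mem_group (h : P.ok = true) (ht : 0 < P.t)
    (hB : (2 ^ P.t - 1) * (1 + (D.rank + 3) * (P.q - 1)) ≤ P.d * (2 ^ P.t - 1) ^ 2)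
    (hd : dim D = P.d) (e : D.Idx ≃ Fin P.d) (he : ∀ a, (e a : ℕ) = enc D a)
    (hr : ∀ r < D.nroots, OkA D T r) {w : List ℕ} (hw : (w.all fun x => Nat.blt x (2 * D.nroots)) = true)
    {c : ℕ} (hc : Nat.beq (trF (img P D T) w P.one) c = true) (g : GL D.Idx (ZMod P.q))
    (hg : Matrix.reindex e e g.1 = P.dec P.d c) : g ∈ D.group (ZMod P.q) := by
  simp only [List.all_eq_true, Nat.blt_eq] at hw
  rw [← Nat.eq_of_beq_eq_true hc, trF_eq] at hg
  have key : ∀ p (u : GL D.Idx (ZMod P.q)), u ∈ D.group (ZMod P.q) →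
      Matrix.reindex e e u.1 = P.dec P.d p →
      Matrix.reindex e e g.1 = P.dec P.d (tr (img P D T) w p) → g ∈ D.group (ZMod P.q) := by
    clear hg hc
    induction w with
    | nil =>
      intro p u hu h1 h2
      rwa [Units.ext ((Matrix.reindex e e).injective (h2.trans h1.symm))]
    | cons x w ih =>
      intro p u hu h1 h2
      obtain ⟨h3, h4⟩ := List.forall_mem_cons.mp hw
      have h5 : x / 2 < D.nroots := by omega
      have h6 := dec_x h hB hd e he (r := ⟨x / 2, h5⟩) (hr _ h5) (x % 2 + 1) p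
      have h7 : IsUnit (D.xMat (ZMod P.q) ⟨x / 2, h5⟩ (x % 2 + 1 : ℕ)) := by
        have h8 : ∀ w : List ℕ, (∀ x ∈ w, x < 2 * D.nroots) → ∀ p,
            IsUnit (P.dec P.d (tr (img P D T) w p)).det → IsUnit (P.dec P.d p).det := by
          intro w hw
          induction w with
          | nil => exact fun _ h => h
          | cons x w ih =>
            intro p h1
            obtain ⟨h3, h4⟩ := List.forall_mem_cons.mp hw
            have h5 : x / 2 < D.nroots := by omega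
            have h6 := ih h4 _ h1
            rw [show P.dec P.d (img P D T x p) = _ from
              dec_x h hB hd e he (r := ⟨x / 2, h5⟩) (hr _ h5) (x % 2 + 1) p, Matrix.det_mul] at h6
            exact isUnit_of_mul_isUnit_left h6
        have h9 := h8 w h4 (img P D T x p) (by
          rw [← tr_cons, ← h2, Matrix.det_reindex_self, ← Matrix.isUnit_iff_isUnit_det]
          exact g.isUnit)
        rw [show P.dec P.d (img P D T x p) = _ from h6, Matrix.det_mul, Matrix.det_reindex_self] at h9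
        exact (Matrix.isUnit_iff_isUnit_det _).mpr (isUnit_of_mul_isUnit_right h9)
      refine ih h4 (img P D T x p) (u * h7.unit)
        (mul_mem hu (Subgroup.subset_closure ⟨_, _, h7.unit_spec⟩)) ?_ h2
      rw [show P.dec P.d (img P D T x p) = _ from h6, ← h1, Units.val_mul, h7.unit_spec]
      simp only [Matrix.reindex_apply, Matrix.submatrix_mul_equiv]
  refine key _ 1 (one_mem _) ?_ hg
  rw [Par.dec_one h ht]
  simp

end Cfsg.TH.E8
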