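import Cfsg.Agent.TH.E2

/-! The relations. -/

set_option autoImplicit false
set_option maxRecDepth 100000
set_option Elab.async false

namespace Cfsg.TH.E8

open Cfsg.H6

theorem d12 : Nat.beq (trF (P3.img P3.d code) [2] (code 1)) (code 12) = true := by
  decide +kernel

theorem d13 : Nat.beq (trF (P3.img P3.d code) [3] (code 2)) (code 13) = true := by
  decide +kernel

theorem d14 : Nat.beq (trF (P3.img P3.d code) [5] (code 4)) (code 14) = true := by
  decide +kernel

theorem d15 : Nat.beq (trF (P3.img P3.d code) [14] (code 13)) (code 15) = true := by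
  decide +kernel

theorem d16 : Nat.beq (trF (P3.img P3.d code) [11,4,10] (code 14)) (code 16) = true := by
  decide +kernel

theorem d17 : Nat.beq (trF (P3.img P3.d code) [11] (code 7)) (code 17) = true := by
  decide +kernel

theorem d18 : Nat.beq (trF (P3.img P3.d code) [10] (code 6)) (code 18) = true := by
  decide +kernel

theorem d19 : Nat.beq (trF (P3.img P3.d code) [18] (code 17)) (code 19) = true := by
  decide +kernel

theorem d20 : Nat.beq (trF (P3.img P3.d code) [7,7,10,6,6] (code 4)) (code 20) = true := by
  decide +kernel

theorem d21 : Nat.beq (trF (P3.img P3.d code) [3,1,2] (code 2)) (code 21) = true := by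
  decide +kernel

theorem d22 : Nat.beq (trF (P3.img P3.d code) [1,3,2] (code 2)) (code 22) = true := by
  decide +kernel

theorem d23 : Nat.beq (trF (P3.img P3.d code) [4,3,4,5] (code 5)) (code 23) = true := by
  decide +kernel

theorem d24 : Nat.beq (trF (P3.img P3.d code) [3] (code 4)) (code 24) = true := by
  decide +kernel

theorem r0 : Nat.beq (trF (P3.img P3.d code) [12,12] (code 12)) P3.one = true := by
  decide +kernel

theorem r1 : Nat.beq (trF (P3.img P3.d code) [5,1,5] (code 1)) P3.one = true := by
  decide +kernel

theorem r2 : Nat.beq (trF (P3.img P3.d code) [13,13] (code 13)) P3.one = true := by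
  decide +kernel

theorem r3 : Nat.beq (trF (P3.img P3.d code) [4,2,4] (code 2)) P3.one = true := by
  decide +kernel

theorem r4 : Nat.beq (trF (P3.img P3.d code) [5,2,5] (code 2)) P3.one = true := by
  decide +kernel

theorem r5 : Nat.beq (trF (P3.img P3.d code) [24,24,24,24] (code 1)) P3.one = true := by
  decide +kernel

theorem r6 : Nat.beq (trF (P3.img P3.d code) [5,3,5] (code 3)) P3.one = true := by
  decide +kernel

theorem r7 : Nat.beq (trF (P3.img P3.d code) [14,14] (code 14)) P3.one = true := by
  decide +kernel

theorem r8 : Nat.beq (trF (P3.img P3.d code) [15,15,15,15,15,15,15] (code 15)) P3.one = true := by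
  decide +kernel

theorem r9 : Nat.beq (trF (P3.img P3.d code) [6,6,6,6,6,6] (code 6)) P3.one = true := by
  decide +kernel

end Cfsg.TH.E8
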