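import Cfsg.Agent.TH.E2

/-! The relations. -/

set_option autoImplicit false
set_option maxRecDepth 100000
set_option Elab.async false

namespace Cfsg.TH.E8

open Cfsg.H6

theorem r10 : Nat.beq (trF (P3.img P3.d code) [1,6,1] (code 7)) P3.one = true := by
  decide +kernel

theorem r11 : Nat.beq (trF (P3.img P3.d code) [2,6,2] (code 7)) P3.one = true := by
  decide +kernel

theorem r12 : Nat.beq (trF (P3.img P3.d code) [3,6,3] (code 7)) P3.one = true := by
  decide +kernel

theorem r13 : Nat.beq (trF (P3.img P3.d code) [4,6,4] (code 6)) P3.one = true := by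
  decide +kernel

theorem r14 : Nat.beq (trF (P3.img P3.d code) [7,5,7,7,5,6,6,6] (code 5)) P3.one = true := by
  decide +kernel

theorem r15 : Nat.beq (trF (P3.img P3.d code) [8,8] (code 8)) P3.one = true := by
  decide +kernel

theorem r16 : Nat.beq (trF (P3.img P3.d code) [1,8,1] (code 9)) P3.one = true := by
  decide +kernel

theorem r17 : Nat.beq (trF (P3.img P3.d code) [2,8,2] (code 9)) P3.one = true := by
  decide +kernel

theorem r18 : Nat.beq (trF (P3.img P3.d code) [3,8,3] (code 9)) P3.one = true := by
  decide +kernel

theorem r19 : Nat.beq (trF (P3.img P3.d code) [4,8,4] (code 9)) P3.one = true := by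
  decide +kernel

theorem r20 : Nat.beq (trF (P3.img P3.d code) [5,8,5] (code 9)) P3.one = true := by
  decide +kernel

theorem r21 : Nat.beq (trF (P3.img P3.d code) [6,8,7,7] (code 9)) P3.one = true := by
  decide +kernel

theorem r22 : Nat.beq (trF (P3.img P3.d code) [10,3,1] (code 10)) P3.one = true := by
  decide +kernel

theorem r23 : Nat.beq (trF (P3.img P3.d code) [1,10,1] (code 11)) P3.one = true := by
  decide +kernel

theorem r24 : Nat.beq (trF (P3.img P3.d code) [3,10,3] (code 11)) P3.one = true := by
  decide +kernel

theorem r25 : Nat.beq (trF (P3.img P3.d code) [5,10,5] (code 11)) P3.one = true := by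
  decide +kernel

theorem r26 : Nat.beq (trF (P3.img P3.d code) [16] (code 16)) P3.one = true := by
  decide +kernel

theorem r27 : Nat.beq (trF (P3.img P3.d code) [21,10,22,5] (code 11)) P3.one = true := by
  decide +kernel

theorem r28 : Nat.beq (trF (P3.img P3.d code) [11,4,21,4,10,4,22,3,5,4,11,4,21,5,11] (code 4)) P3.one = true := by
  decide +kernel

end Cfsg.TH.E8
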