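import Cfsg.Agent.TH.E2

/-! The relations. -/

set_option autoImplicit false
set_option maxRecDepth 100000
set_option Elab.async false

namespace Cfsg.TH.E8

open Cfsg.H6

theorem r29 : Nat.beq (trF (P3.img P3.d code) [8,10,8] (code 11)) P3.one = true := by
  decide +kernel

theorem r30 : Nat.beq (trF (P3.img P3.d code) [7,17,6,6,5,7,7,10,6,6] (code 5)) P3.one = true := by
  decide +kernel

theorem r31 : Nat.beq (trF (P3.img P3.d code) [3,17,17,17] (code 1)) P3.one = true := by
  decide +kernel

theorem r32 : Nat.beq (trF (P3.img P3.d code) [3,19,19,19,19] (code 1)) P3.one = true := by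
  decide +kernel

theorem r33 : Nat.beq (trF (P3.img P3.d code) [20,20,4,7,7,10,23,6,6,6,23,7,24,24,1] (code 20)) P3.one = true := by
  decide +kernel

theorem r34 : Nat.beq (trF (P3.img P3.d code) [1] (code 1)) P3.one = true := by
  decide +kernel

theorem r35 : Nat.beq (trF (P3.img P3.d code) [2] (code 2)) P3.one = true := by
  decide +kernel

theorem r36 : Nat.beq (trF (P3.img P3.d code) [3] (code 3)) P3.one = true := by
  decide +kernel

theorem r37 : Nat.beq (trF (P3.img P3.d code) [4] (code 4)) P3.one = true := by
  decide +kernel

theorem r38 : Nat.beq (trF (P3.img P3.d code) [5] (code 5)) P3.one = true := by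
  decide +kernel

theorem r39 : Nat.beq (trF (P3.img P3.d code) [7] (code 6)) P3.one = true := by
  decide +kernel

theorem r40 : Nat.beq (trF (P3.img P3.d code) [9] (code 8)) P3.one = true := by
  decide +kernel

theorem r41 : Nat.beq (trF (P3.img P3.d code) [11] (code 10)) P3.one = true := by
  decide +kernel

end Cfsg.TH.E8
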