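import Cfsg.Agent.TH.E3a
import Cfsg.Agent.TH.E3b
import Cfsg.Agent.TH.E3c
import Cfsg.Agent.TH.E4a
import Cfsg.Agent.TH.E4b
import Cfsg.Agent.H2.TbE8b
import Cfsg.Agent.H2.TbE8b3
import Cfsg.Agent.H2.TbE8b6
import Cfsg.Agent.H6.Th.Pres

/-! The Thompson group maps nontrivially to the Chevalley group of type E8 over `ZMod 3`. -/

set_option autoImplicit false
set_option maxRecDepth 100000

namespace Cfsg.TH.E8

open Cfsg.H6 Cfsg.Lie H2.Ch

def sgm : List (List ℕ) := [[], [1], [2], [3], [4], [5], [6], [7], [8], [9], [10], [11], [1,2], [2,3], [4,5], [2,3,4,5], [4,5,11,4,10], [7,11], [6,10], [7,11,6,10], [4,7,7,10,6,6], [2,3,1,2], [2,1,3,2], [5,4,3,4,5], [4,3]]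

theorem ex : Ex (P3.mat code) sgm 25 :=
  (((((((((((((Ex.base (m := 12) (by decide +kernel)).step (Par.def_of_chk ok d12) (by decide +kernel)).step (Par.def_of_chk ok d13) (by decide +kernel)).step (Par.def_of_chk ok d14) (by decide +kernel)).step (Par.def_of_chk ok d15) (by decide +kernel)).step (Par.def_of_chk ok d16) (by decide +kernel)).step (Par.def_of_chk ok d17) (by decide +kernel)).step (Par.def_of_chk ok d18) (by decide +kernel)).step (Par.def_of_chk ok d19) (by decide +kernel)).step (Par.def_of_chk ok d20) (by decide +kernel)).step (Par.def_of_chk ok d21) (by decide +kernel)).step (Par.def_of_chk ok d22) (by decide +kernel)).step (Par.def_of_chk ok d23) (by decide +kernel)).step (Par.def_of_chk ok d24) (by decide +kernel)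

def R2 : List (List ℕ) := [[12,12,12], [1,5,1,5], [13,13,13], [2,4,2,4], [2,5,2,5], [1,24,24,24,24], [3,5,3,5], [14,14,14], [15,15,15,15,15,15,15,15], [6,6,6,6,6,6,6], [7,1,6,1], [7,2,6,2], [7,3,6,3], [6,4,6,4], [5,7,5,7,7,5,6,6,6], [8,8,8], [9,1,8,1], [9,2,8,2], [9,3,8,3], [9,4,8,4], [9,5,8,5], [9,6,8,7,7], [10,10,3,1], [11,1,10,1], [11,3,10,3], [11,5,10,5], [16,16], [11,21,10,22,5], [4,11,4,21,4,10,4,22,3,5,4,11,4,21,5,11], [11,8,10,8], [5,7,17,6,6,5,7,7,10,6,6], [1,3,17,17,17], [1,3,19,19,19,19], [20,20,20,4,7,7,10,23,6,6,6,23,7,24,24,1], [1,1], [2,2], [3,3], [4,4], [5,5], [6,7], [8,9], [10,11]]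

theorem ones : ∀ r ∈ R2, mpr (P3.mat code) r = 1 :=
  List.forall_mem_cons.mpr ⟨Par.one_of_chk ok (by decide) r0,
  List.forall_mem_cons.mpr ⟨Par.one_of_chk ok (by decide) r1,
  List.forall_mem_cons.mpr ⟨Par.one_of_chk ok (by decide) r2,
  List.forall_mem_cons.mpr ⟨Par.one_of_chk ok (by decide) r3,
  List.forall_mem_cons.mpr ⟨Par.one_of_chk ok (by decide) r4,
  List.forall_mem_cons.mpr ⟨Par.one_of_chk ok (by decide) r5,
  List.forall_mem_cons.mpr ⟨Par.one_of_chk ok (by decide) r6,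
  List.forall_mem_cons.mpr ⟨Par.one_of_chk ok (by decide) r7,
  List.forall_mem_cons.mpr ⟨Par.one_of_chk ok (by decide) r8,
  List.forall_mem_cons.mpr ⟨Par.one_of_chk ok (by decide) r9,
  List.forall_mem_cons.mpr ⟨Par.one_of_chk ok (by decide) r10,
  List.forall_mem_cons.mpr ⟨Par.one_of_chk ok (by decide) r11,
  List.forall_mem_cons.mpr ⟨Par.one_of_chk ok (by decide) r12,
  List.forall_mem_cons.mpr ⟨Par.one_of_chk ok (by decide) r13,
  List.forall_mem_cons.mpr ⟨Par.one_of_chk ok (by decide) r14,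
  List.forall_mem_cons.mpr ⟨Par.one_of_chk ok (by decide) r15,
  List.forall_mem_cons.mpr ⟨Par.one_of_chk ok (by decide) r16,
  List.forall_mem_cons.mpr ⟨Par.one_of_chk ok (by decide) r17,
  List.forall_mem_cons.mpr ⟨Par.one_of_chk ok (by decide) r18,
  List.forall_mem_cons.mpr ⟨Par.one_of_chk ok (by decide) r19,
  List.forall_mem_cons.mpr ⟨Par.one_of_chk ok (by decide) r20,
  List.forall_mem_cons.mpr ⟨Par.one_of_chk ok (by decide) r21,
  List.forall_mem_cons.mpr ⟨Par.one_of_chk ok (by decide) r22,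
  List.forall_mem_cons.mpr ⟨Par.one_of_chk ok (by decide) r23,
  List.forall_mem_cons.mpr ⟨Par.one_of_chk ok (by decide) r24,
  List.forall_mem_cons.mpr ⟨Par.one_of_chk ok (by decide) r25,
  List.forall_mem_cons.mpr ⟨Par.one_of_chk ok (by decide) r26,
  List.forall_mem_cons.mpr ⟨Par.one_of_chk ok (by decide) r27,
  List.forall_mem_cons.mpr ⟨Par.one_of_chk ok (by decide) r28,
  List.forall_mem_cons.mpr ⟨Par.one_of_chk ok (by decide) r29,
  List.forall_mem_cons.mpr ⟨Par.one_of_chk ok (by decide) r30,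
  List.forall_mem_cons.mpr ⟨Par.one_of_chk ok (by decide) r31,
  List.forall_mem_cons.mpr ⟨Par.one_of_chk ok (by decide) r32,
  List.forall_mem_cons.mpr ⟨Par.one_of_chk ok (by decide) r33,
  List.forall_mem_cons.mpr ⟨Par.one_of_chk ok (by decide) r34,
  List.forall_mem_cons.mpr ⟨Par.one_of_chk ok (by decide) r35,
  List.forall_mem_cons.mpr ⟨Par.one_of_chk ok (by decide) r36,
  List.forall_mem_cons.mpr ⟨Par.one_of_chk ok (by decide) r37,
  List.forall_mem_cons.mpr ⟨Par.one_of_chk ok (by decide) r38,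
  List.forall_mem_cons.mpr ⟨Par.one_of_chk ok (by decide) r39,
  List.forall_mem_cons.mpr ⟨Par.one_of_chk ok (by decide) r40,
  List.forall_mem_cons.mpr ⟨Par.one_of_chk ok (by decide) r41,
  List.forall_mem_nil _⟩⟩⟩⟩⟩⟩⟩⟩⟩⟩⟩⟩⟩⟩⟩⟩⟩⟩⟩⟩⟩⟩⟩⟩⟩⟩⟩⟩⟩⟩⟩⟩⟩⟩⟩⟩⟩⟩⟩⟩⟩⟩

instance : Fact P3.q.Prime := ⟨Nat.prime_three⟩

theorem okA8 (r : ℕ) (hr : r < chevE8.nroots) : OkA chevE8 tbE8 r := by
  change r < 240 at hr
  by_cases h0 : r < 30
  · exact okA_of aE8_0 (by omega) h0
  by_cases h1 : r < 60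
  · exact okA_of aE8_1 (by omega) h1
  by_cases h2 : r < 90
  · exact okA_of aE8_2 (by omega) h2
  by_cases h3 : r < 120
  · exact okA_of aE8_3 (by omega) h3
  by_cases h4 : r < 150
  · exact okA_of aE8_4 (by omega) h4
  by_cases h5 : r < 180
  · exact okA_of aE8_5 (by omega) h5
  by_cases h6 : r < 210
  · exact okA_of aE8_6 (by omega) h6
  exact okA_of aE8_7 (by omega) hr

theorem hdim : dim chevE8 = P3.d := by decide +kernel

/-- The numbering of the basis. -/
def en : chevE8.Idx ≃ Fin P3.d := (enc chevE8).trans (finCongr hdim)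

theorem mem8 {w : List ℕ} (hw : (w.all fun x => Nat.blt x (2 * chevE8.nroots)) = true) {c : ℕ}
    (hc : Nat.beq (trF (img P3 chevE8 tbE8) w P3.one) c = true) (g : GL chevE8.Idx (ZMod P3.q))
    (hg : Matrix.reindex en en g.1 = P3.dec P3.d c) : g ∈ chevE8.group (ZMod P3.q) :=
  mem_group ok (by decide) (by decide +kernel) hdim en (fun _ => rfl) okA8 hw hc g hg

theorem a_ne : P3.mat code 1 ≠ 1 := fun h => by
  have h1 := congrFun (congrFun h ⟨22, by decide⟩) ⟨22, by decide⟩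
  rw [Matrix.one_apply_eq] at h1
  have h2 : P3.dgt (code 1) 22 22 = 2 := by decide +kernel
  have h3 : ((P3.dgt (code 1) 22 22 : ℕ) : ZMod 3) = 1 := h1
  rw [h2] at h3
  exact absurd h3 (by decide)

theorem hom : ∃ f : Spor.Th →* chevE8.group (ZMod P3.q), f (Th.ev 1) ≠ 1 := by
  obtain ⟨h1, h2, h3⟩ := mrep_sound (m0 := 12) (inv := 3108186227616092632570265856) (R := Th.R) ex ones
    (by decide +kernel)
  obtain ⟨ρ, hρ⟩ := Th.lift h1 h2
  let φ : Spor.Th →* GL chevE8.Idx (ZMod P3.q) :=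
    (Units.map (Matrix.reindexAlgEquiv (ZMod P3.q) (ZMod P3.q) en.symm).toMulEquiv.toMonoidHom).comp ρ
  have hφ : ∀ x, 1 ≤ x → x < 12 → Matrix.reindex en en (φ (Th.ev x)).1 = P3.dec P3.d (code x) := by
    intro x a b
    have h4 : (φ (Th.ev x)).1 = Matrix.reindex en.symm en.symm (ρ (Th.ev x)).1 := rfl
    have h5 : (ρ (Th.ev x)).1 = P3.dec P3.d (code x) := by rw [hρ]; exact h3 x a b
    rw [h4, h5, ← Matrix.reindex_symm, Equiv.apply_symm_apply]
  have hm : ∀ g, φ g ∈ chevE8.group (ZMod P3.q) := by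
    have : gen Th.ev Th.X ≤ (chevE8.group (ZMod P3.q)).comap φ := by
      refine gen_le fun w hw => ?_
      simp only [Th.X, List.mem_cons, List.not_mem_nil, or_false] at hw
      rw [Subgroup.mem_comap]
      rcases hw with rfl | rfl | rfl | rfl | rfl | rfl | rfl | rfl <;> rw [evL_singleton]
      · exact mem8 (by decide +kernel) x1 _ (hφ 1 (by omega) (by omega))
      · exact mem8 (by decide +kernel) x2 _ (hφ 2 (by omega) (by omega))
      · exact mem8 (by decide +kernel) x3 _ (hφ 3 (by omega) (by omega))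
      · exact mem8 (by decide +kernel) x4 _ (hφ 4 (by omega) (by omega))
      · exact mem8 (by decide +kernel) x5 _ (hφ 5 (by omega) (by omega))
      · exact mem8 (by decide +kernel) x6 _ (hφ 6 (by omega) (by omega))
      · exact mem8 (by decide +kernel) x8 _ (hφ 8 (by omega) (by omega))
      · exact mem8 (by decide +kernel) x10 _ (hφ 10 (by omega) (by omega))
    exact fun g => this (Th.hX ▸ Subgroup.mem_top g)
  refine ⟨φ.codRestrict _ hm, fun h => a_ne ?_⟩
  have h4 : φ (Th.ev 1) = 1 := congrArg Subtype.val h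
  have h5 := hφ 1 (by omega) (by omega)
  rw [h4] at h5
  exact h5.symm.trans (by simp)

end Cfsg.TH.E8
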