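import Cfsg.Agent.TH.Spin

/-! The central involution is not weakly closed in `Q`: the generic case. -/

set_option autoImplicit false
set_option linter.unusedSectionVars false

namespace Cfsg.TH

open Subgroup Module

variable {V : Type*} [AddCommGroup V] [Module (ZMod 2) V] {D : VD V} {G : Type*} [Group G]

namespace VD
variable (D) {σ : A9}

/-- The commutator space. -/
def W (σ : A9) : Submodule (ZMod 2) V := LinearMap.range (1 + D.r σ)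
/-- The fixed space. -/
def K (σ : A9) : Submodule (ZMod 2) V := LinearMap.ker (1 + D.r σ)

theorem mem_W {v : V} : v ∈ D.W σ ↔ ∃ x, x + D.r σ x = v := Iff.rfl
theorem mem_K {v : V} : v ∈ D.K σ ↔ D.r σ v = v := by
  rw [eq_comm, ← veq]; rfl
theorem rr (h : σ * σ = 1) (v : V) : D.r σ (D.r σ v) = v := by rw [← r_mul, h, r_one]
theorem W_le (h : σ * σ = 1) : D.W σ ≤ D.K σ := by
  rintro _ ⟨x, rfl⟩
  rw [mem_K, LinearMap.add_apply, map_add, D.rr h, add_comm]; rfl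
theorem B_rr (h : σ * σ = 1) (u v : V) : D.B (D.r σ u) v = D.B u (D.r σ v) := by
  rw [← D.B_r σ u, D.rr h]
theorem card_KW (σ : A9) : Nat.card (D.K σ) * Nat.card (D.W σ) = 256 := by
  rw [← D.card, Submodule.card_eq_card_quotient_mul_card (D.K σ)]
  congr 1
  exact (Nat.card_congr (LinearMap.quotKerEquivRange _).toEquiv).symm
theorem B_KW (h : σ * σ = 1) {u v : V} (hu : u ∈ D.K σ) (hv : v ∈ D.W σ) : D.B u v = 0 := by
  obtain ⟨x, rfl⟩ := D.mem_W.1 hv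
  rw [map_add, ← D.B_rr h, D.mem_K.1 hu, z2add]
theorem mem_W_of (h : σ * σ = 1) {v : V} (hv : ∀ k ∈ D.K σ, D.B k v = 0) : v ∈ D.W σ := by
  have := D.fin
  rw [← LinearMap.BilinForm.orthogonal_orthogonal D.ndeg (fun u v e => by rw [D.B_comm]; exact e)
    (D.W σ)]
  refine fun k hk => hv k (D.mem_K.2 (veq.1 (D.nd _ fun w => ?_)))
  have : D.B (w + D.r σ w) k = 0 := hk _ ⟨w, rfl⟩
  rw [map_add, LinearMap.add_apply, D.B_rr h, add_comm, ← map_add, D.B_comm, this]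
theorem lam_add (h : σ * σ = 1) (u v : V) :
    D.B (u + v) (D.r σ (u + v)) = D.B u (D.r σ u) + D.B v (D.r σ v) := by
  simp only [map_add, LinearMap.add_apply]
  rw [D.B_comm v (D.r σ u), D.B_rr h]
  generalize D.B u (D.r σ u) = i, D.B u (D.r σ v) = j, D.B v (D.r σ v) = k
  revert i j k; decide
theorem q_comm (σ : A9) (v : V) : D.q (v + D.r σ v) = D.B v (D.r σ v) := by
  rw [D.q_add, D.q_r, z2add, zero_add]
theorem card_iso {U : Submodule (ZMod 2) V} (h : ∀ u ∈ U, ∀ v ∈ U, D.B u v = 0) :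
    Nat.card U ≤ 16 := by
  have := D.fin
  have h1 := LinearMap.BilinForm.finrank_orthogonal D.ndeg U
  have h2 : Module.finrank (ZMod 2) U ≤ _ := Submodule.finrank_mono
    (show U ≤ D.B.orthogonal U from fun v hv u hu => h u hu v hv)
  rw [h1, D.finrank] at h2
  rw [Module.natCard_eq_pow_finrank (K := ZMod 2), Nat.card_zmod]
  exact Nat.pow_le_pow_right (by omega) (by omega : _ ≤ 4)
end VD

namespace Ch
variable (S : Ch D G) {x y g h a : G}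

theorem half [Finite G] {P : Subgroup G} (hP : P ≤ S.C)
    (h : ∀ x ∈ P, x * y * x⁻¹ = y ∨ x * y * x⁻¹ = y * S.z) {u : G} (hu : u ∈ P)
    (e : u * y * u⁻¹ = y * S.z) : Nat.card ↥(P ⊓ centralizer {y}) * 2 = Nat.card P := by
  have k : ((centralizer {y}).subgroupOf P).index = 2 := index_eq_two_iff.2 ⟨⟨u, hu⟩, fun b => by
    have e1 : (b : G) * u * y * (b * u)⁻¹ = b * y * (b : G)⁻¹ * S.z := by
      rw [show (b : G) * u * y * (b * u)⁻¹ = b * (u * y * u⁻¹) * (b : G)⁻¹ by group, e, ← conj_mul,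
        S.cjz (hP b.2)]
    simp only [mem_subgroupOf, mem_C, ← mul_inv_eq_iff_eq_mul, coe_mul, e1]
    rcases h b b.2 with e2 | e2 <;> simp [e2, S.z1, mul_assoc, S.z2]⟩
  rw [← card_mul_index ((centralizer {y}).subgroupOf P), k, inf_comm, ← inf_subgroupOf_right,
    Nat.card_congr (subgroupOfEquivOfLe inf_le_right).toEquiv]

theorem card_split [Finite G] {P : Subgroup G} (hP : P ≤ S.C) :
    Nat.card ↥(P ⊓ S.Q) * Nat.card ((P.subgroupOf S.C).map S.ph) = Nat.card P := by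
  let φ : P →* A9 := S.ph.comp (inclusion hP)
  have e1 : φ.ker = S.Q.subgroupOf P := Subgroup.ext fun x => S.π_ker (hP x.2)
  have e2 : φ.range = (P.subgroupOf S.C).map S.ph := by
    rw [MonoidHom.range_comp, inclusion_range]
  rw [← card_mul_index φ.ker, index_ker, e1, e2, inf_comm, ← inf_subgroupOf_right S.Q,
    Nat.card_congr (subgroupOfEquivOfLe inf_le_right).toEquiv]

theorem mem_im {P : Subgroup G} (hP : P ≤ S.C) {σ : A9} :
    σ ∈ (P.subgroupOf S.C).map S.ph ↔ ∃ x ∈ P, S.π x = σ :=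
  ⟨by rintro ⟨x, hx, rfl⟩; exact ⟨x, hx, rfl⟩, by rintro ⟨x, hx, rfl⟩; exact ⟨⟨x, hP hx⟩, hx, rfl⟩⟩

theorem card_Q : Nat.card S.Q = 512 := by
  have : S.pre ⊤ = S.Q := Subgroup.ext fun x => ⟨fun h => h.1, fun h => ⟨h, trivial⟩⟩
  rw [← this, card_pre, Nat.card_congr Submodule.topEquiv.toEquiv, D.card]

theorem pgroup {P : Subgroup G} (hP : P ≤ S.Q) (S' : Ch D G) (h' : P ≤ S'.C) :
    IsPGroup 2 ((P.subgroupOf S'.C).map S'.ph) := by
  rintro ⟨σ, hσ⟩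
  obtain ⟨x, hx, rfl⟩ := (S'.mem_im h').1 hσ
  refine ⟨2, Subtype.ext ?_⟩
  have : x ^ 4 = 1 := by rw [← S.four (hP hx)]; simp only [pow_succ, pow_zero, one_mul, mul_assoc]
  change S'.π x ^ 4 = 1
  rw [← S'.π_pow (h' hx), this, S'.π_one]

theorem nmem (hy : y ∈ S.C) (hx : x ∈ S.Q) : x * y * x⁻¹ * y⁻¹ ∈ S.Q := by
  have := mul_mem hx (S.conj_mem hy (inv_mem hx))
  simpa only [mul_assoc] using this

theorem cv_n (hy : y ∈ S.C) (hx : x ∈ S.Q) :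
    S.cv (x * y * x⁻¹ * y⁻¹) = S.cv x + D.r (S.π y) (S.cv x) := by
  have := S.cv_mul hx (S.conj_mem hy (inv_mem hx))
  rw [S.cv_conj hy (inv_mem hx), S.cv_inv hx] at this
  simpa only [mul_assoc] using this

theorem ππ (hy : y ∈ S.C) (h2 : y * y ∈ S.Q) : S.π y * S.π y = 1 := by
  rw [← S.π_mul hy hy, S.π_Q h2]

theorem mem_K_of (hy : y ∈ S.C) (hx : x ∈ S.Q) (h : x * y = y * x) : S.cv x ∈ D.K (S.π y) := by
  rw [D.mem_K, ← S.cv_conj hy hx, ← h, mul_inv_cancel_right]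

theorem conj_K (hy : y ∈ S.C) (hx : x ∈ S.Q) (h : S.cv x ∈ D.K (S.π y)) :
    x * y * x⁻¹ = y ∨ x * y * x⁻¹ = y * S.z := by
  have := (S.cv_zero (S.nmem hy hx)).1 (by rw [S.cv_n hy hx, D.mem_K.1 h, vadd])
  rwa [mul_inv_eq_one, @mul_inv_eq_iff_eq_mul _ _ _ y, ← S.cz hy] at this

theorem exists_u (hy : y ∈ S.C) (h2 : y * y = 1) (hl : D.Lam (S.π y)) :
    ∃ u ∈ S.Q, S.cv u ∈ D.W (S.π y) ∧ u * y * u⁻¹ = y * S.z := by
  obtain ⟨v, hv⟩ := hl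
  obtain ⟨x, hx, rfl⟩ := S.cv_surj v
  have hu := S.nmem hy hx
  refine ⟨_, hu, by rw [S.cv_n hy hx]; exact ⟨_, rfl⟩, ?_⟩
  have := S.sq hu
  rw [S.cv_n hy hx, D.q_comm, hv, zp_one] at this
  rw [S.cz hy, ← this]
  have yi : y⁻¹ = y := inv_eq_of_mul_eq_one_left h2
  simp only [mul_inv_rev, inv_inv, yi, mul_assoc]
  rw [h2, mul_one, ← mul_assoc y y, h2, one_mul]

theorem conj_W (hy : y ∈ S.C) (h2 : y * y = 1) (hl : D.Lam (S.π y)) (ha : a ∈ S.Q)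
    (h : S.cv a ∈ D.W (S.π y)) : ∃ k ∈ S.Q, k * y * k⁻¹ = a * y := by
  obtain ⟨v, hv⟩ := D.mem_W.1 h
  obtain ⟨x, hx, rfl⟩ := S.cv_surj v
  obtain ⟨u, hu, -, e⟩ := S.exists_u hy h2 hl
  rcases S.cv_eq ha (S.nmem hy hx) (by rw [S.cv_n hy hx, hv]) with e' | e'
  · exact ⟨x, hx, by rw [e', inv_mul_cancel_right]⟩
  · refine ⟨x * u, mul_mem hx hu, ?_⟩
    rw [show x * u * y * (x * u)⁻¹ = x * (u * y * u⁻¹) * x⁻¹ by group, e, e', ← conj_mul,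
      S.cjz (S.QC hx), mul_assoc _ S.z, ← S.cz hy, ← mul_assoc, inv_mul_cancel_right]

theorem inv_K (hy : y ∈ S.C) (h2 : y * y = 1) (ha : a ∈ S.Q) (h : a * y * (a * y) = 1) :
    S.cv a ∈ D.K (S.π y) := by
  rw [D.mem_K, ← S.cv_conj hy ha, ← S.cv_inv ha, inv_eq_of_mul_eq_one_left h2]
  congr 1
  exact eq_inv_of_mul_eq_one_right (by simpa only [mul_assoc] using h)

theorem π_eq' (hg : g ∈ S.C) (hh : h ∈ S.C) (e : S.π g = S.π h) : ∃ x ∈ S.Q, g = x * h :=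
  ⟨g * h⁻¹, (S.π_ker (mul_mem hg (inv_mem hh))).1 (by
    rw [S.π_mul hg (inv_mem hh), S.π_inv hh, e, mul_inv_cancel]), by simp⟩

/-- Involutions over one class of free involutions. -/
theorem conj_free (hy : y ∈ S.C) (h2 : y * y = 1) (hl : D.Lam (S.π y))
    (hf : D.K (S.π y) ≤ D.W (S.π y)) (hx : x ∈ S.C) (hx2 : x * x = 1)
    (c : IsConj (S.π x) (S.π y)) : ∃ k ∈ S.C, k * x * k⁻¹ = y := by
  obtain ⟨σ, e⟩ := isConj_iff.1 c
  obtain ⟨g, hg, rfl⟩ := S.π_surj σ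
  rw [← S.π_conj hg hx] at e
  obtain ⟨a, ha, e'⟩ := S.π_eq' (mul_mem (mul_mem hg hx) (inv_mem hg)) hy e
  obtain ⟨k, hk, e2⟩ := S.conj_W hy h2 hl ha (hf (S.inv_K hy h2 ha (by
    rw [← e', conj_mul, hx2]; simp)))
  refine ⟨k⁻¹ * g, mul_mem (inv_mem (S.QC hk)) hg, ?_⟩
  rw [show k⁻¹ * g * x * (k⁻¹ * g)⁻¹ = k⁻¹ * (g * x * g⁻¹) * k by group, e', ← e2]; group

/-- Weak closure. -/
def WC : Prop := ∀ x ∈ S.Q, IsConj S.z x → x = S.z

theorem WC.mv {S : Ch D G} (h : S.WC) (g : G) : (S.mv g).WC := fun x hx c => by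
  have := h _ (S.mem_mv_Q.1 hx) (((isConj_iff.2 ⟨g, rfl⟩ : IsConj S.z (S.mv g).z).trans c).trans
    (isConj_iff.2 ⟨g⁻¹, by simp⟩))
  rw [mv_z, ← this]; group

theorem wc_step [Finite G] (S' : Ch D G) (hy : S'.z ∈ S.C) (hl : D.Lam (S.π S'.z)) (w : S'.WC)
    (hz : S.z ∉ S'.Q) : D.K (S.π S'.z) ≤ D.W (S.π S'.z) ∧
      ∃ d ∈ S.Q, d ∈ S'.C ∧ d * d = 1 ∧ d ≠ S.z ∧ IsConj (S'.π d) (S'.π S.z) := by
  have := D.fin
  have h2 := S'.z2
  have σ2 := S.ππ hy (by rw [h2]; exact one_mem _)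
  obtain ⟨u, hu, huW, e⟩ := S.exists_u hy h2 hl
  have zC : S.z ∈ S'.C := mem_C.2 (S.cz hy).symm
  have c1 := S.half (P := S.pre (D.K (S.π S'.z))) (fun x hx => S.QC hx.1)
    (fun x hx => S.conj_K hy hx.1 hx.2) ⟨hu, D.W_le σ2 huW⟩ e
  have c2 := S.half (P := S.pre (D.W (S.π S'.z))) (fun x hx => S.QC hx.1)
    (fun x hx => S.conj_K hy hx.1 (D.W_le σ2 hx.2)) ⟨hu, huW⟩ e
  rw [card_pre] at c1 c2
  change Nat.card ↥(_ ⊓ S'.C) * 2 = _ at c1 c2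
  have c3 := D.card_KW (S.π S'.z)
  have triv : ∀ a ∈ S.pre (D.K (S.π S'.z)) ⊓ S'.C, a ∈ S'.Q → a = 1 := fun a ha ha' => by
    have k : ∀ x ∈ S.Q, x ∈ S'.C → D.B (S.cv x) (S.cv a) = 0 := fun x hx hx' => by
      have m : x * a * x⁻¹ * a⁻¹ ∈ S'.Q := mul_mem (S'.conj_mem hx' ha') (inv_mem ha')
      rw [S.comm hx ha.1.1, zp_comm (S.qz (mul_mem ha.1.1 hx))] at m
      refine (z2c _).resolve_right fun e => hz ?_
      simpa [e, mul_assoc] using m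
    have hW : S.cv a ∈ D.W (S.π S'.z) := D.mem_W_of σ2 fun v hv => by
      obtain ⟨x, hx, rfl⟩ := S.cv_surj v
      rcases S.conj_K hy hx hv with e' | e'
      · exact k x hx (mem_C.2 (mul_inv_eq_iff_eq_mul.1 e'))
      · have := k (u * x) (mul_mem hu hx) (mem_C.2 (mul_inv_eq_iff_eq_mul.1 (by
          rw [show u * x * S'.z * (u * x)⁻¹ = u * (x * S'.z * x⁻¹) * u⁻¹ by group, e', ← conj_mul, e,
            S.cjz (S.QC hu), mul_assoc, S.z2, mul_one])))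
        rwa [S.cv_mul hu hx, map_add, LinearMap.add_apply, D.B_comm, D.B_KW σ2 ha.1.2 huW,
          zero_add] at this
    obtain ⟨k, -, e'⟩ := S.conj_W hy h2 hl ha.1.1 hW
    simpa using w _ (mul_mem ha' S'.zQ) (isConj_iff.2 ⟨k, e'⟩)
  have le : S.pre (D.W (S.π S'.z)) ⊓ S'.C ≤ S.pre (D.K (S.π S'.z)) ⊓ S'.C :=
    fun x hx => ⟨⟨hx.1.1, D.W_le σ2 hx.1.2⟩, hx.2⟩
  have d1 := S'.card_split (P := S.pre (D.K (S.π S'.z)) ⊓ S'.C) inf_le_right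
  have d2 := S'.card_split (P := S.pre (D.W (S.π S'.z)) ⊓ S'.C) inf_le_right
  rw [(eq_bot_iff_forall (_ ⊓ S'.Q)).2 fun a ha => triv a ha.1 ha.2, card_bot, one_mul] at d1
  rw [(eq_bot_iff_forall (_ ⊓ S'.Q)).2 fun a ha => triv a (le ha.1) ha.2, card_bot, one_mul] at d2
  have E2 : ∀ a ∈ S.pre (D.W (S.π S'.z)) ⊓ S'.C, a * a = 1 := fun a ha => by
    obtain ⟨k, -, e'⟩ := S.conj_W hy h2 hl ha.1.1 ha.1.2
    have : a * S'.z * (a * S'.z) = 1 := by rw [← e', conj_mul, h2]; simp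
    rwa [mul_assoc, ← mul_assoc S'.z, ← S'.cz ha.2, mul_assoc, h2, mul_one] at this
  obtain ⟨k1, σ, hσ, k2, k3⟩ := wc_perm
    (H := ((S.pre (D.K (S.π S'.z)) ⊓ S'.C).subgroupOf S'.C).map S'.ph)
    (E := ((S.pre (D.W (S.π S'.z)) ⊓ S'.C).subgroupOf S'.C).map S'.ph)
    (S.pgroup (P := S.pre _ ⊓ S'.C) (fun x hx => hx.1.1) S' inf_le_right) (map_mono (comap_mono le)) (fun σ hσ τ hτ => by
      obtain ⟨a, ha, rfl⟩ := (S'.mem_im inf_le_right).1 hσ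
      obtain ⟨b, hb, rfl⟩ := (S'.mem_im inf_le_right).1 hτ
      rw [← S'.π_mul ha.2 hb.2, ← S'.π_mul hb.2 ha.2, (S.comm_iff hb.1.1 ha.1.1).2
        (D.B_KW σ2 hb.1.2 ha.1.2)])
    (fun σ hσ => by
      obtain ⟨a, ha, rfl⟩ := (S'.mem_im inf_le_right).1 hσ
      exact S'.ππ ha.2 (by rw [E2 a ha]; exact one_mem _))
    (by rw [d1, d2, ← c3]; congr 1 <;> omega)
    ((S'.mem_im inf_le_right).2 ⟨S.z, ⟨⟨S.zQ, by rw [S.cv_z]; exact zero_mem _⟩, zC⟩, rfl⟩)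
    (mt (S'.π_ker zC).1 hz)
  obtain ⟨d, hd, rfl⟩ := (S'.mem_im inf_le_right).1 hσ
  refine ⟨(Submodule.eq_of_le_of_finrank_le (D.W_le σ2) ?_).ge, d, hd.1.1, hd.2, E2 d hd,
    fun e => k2 (by rw [e]), k3⟩
  have k4 : Nat.card (D.W (S.π S'.z)) = 16 := by omega
  have k5 : Nat.card (D.K (S.π S'.z)) = 16 := by rw [k4] at c3; omega
  rw [Module.natCard_eq_pow_finrank (K := ZMod 2), Nat.card_zmod] at k4 k5
  exact (Nat.pow_right_injective le_rfl (k5.trans k4.symm)).le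

theorem wc_false [Finite G] (S' : Ch D G) (hy : S'.z ∈ S.C) (hl : D.Lam (S.π S'.z))
    (hl' : D.Lam (S'.π S.z)) (w : S.WC) (w' : S'.WC) (hz : S.z ∉ S'.Q) (hz' : S'.z ∉ S.Q) :
    False := by
  have zC : S.z ∈ S'.C := mem_C.2 (S.cz hy).symm
  obtain ⟨-, d, h1, h2, h3, h4, h5⟩ := S.wc_step S' hy hl w' hz
  obtain ⟨k, -, e⟩ := S'.conj_free zC S.z2 hl' (S'.wc_step S zC hl' w hz').1 h2 h3 h5
  exact h4 (w d h1 (isConj_iff.2 ⟨k, e⟩).symm)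

end Ch

end Cfsg.TH
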