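import Cfsg.Agent.TH.Fus1

/-! A conjugate of the central involution in `Q`; the natural module does not occur. -/

set_option autoImplicit false
set_option linter.unusedSectionVars false

namespace Cfsg.TH

open Subgroup Module

variable {V : Type*} [AddCommGroup V] [Module (ZMod 2) V] {D : VD V} {G : Type*} [Group G]

namespace Ch
variable (S : Ch D G) {x y g h a r : G}

/-- Relabelling by an even permutation. -/
def re (σ : A9) : Ch D G :=
  { S with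
    cv := fun x => D.r σ (S.cv x)
    π := fun g => σ * S.π g * σ⁻¹
    cv_mul := fun hx hy => by rw [S.cv_mul hx hy, map_add]
    cv_surj := fun v => by
      obtain ⟨x, hx, e⟩ := S.cv_surj (D.r σ⁻¹ v)
      exact ⟨x, hx, by rw [e, D.r_inv]⟩
    cv_zero := fun hx => D.r_eq_zero.trans (S.cv_zero hx)
    sq := fun hx => by rw [D.q_r]; exact S.sq hx
    π_mul := fun hx hy => by rw [S.π_mul hx hy, conj_mul]
    π_surj := fun τ => by
      obtain ⟨x, hx, e⟩ := S.π_surj (σ⁻¹ * τ * σ)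
      exact ⟨x, hx, by rw [e]; group⟩
    π_ker := fun hx => conj_eq_one_iff.trans (S.π_ker hx)
    cv_conj := fun hg hx => by rw [S.cv_conj hg hx, D.r_mul, D.r_mul, D.inv_r] }

/-- The involution of the second chart lies in the first extraspecial group. -/
structure Lg (S' : Ch D G) : Prop where
  mem : S'.z ∈ S.Q
  ne : S'.z ≠ S.z

theorem card_im_le {P : Subgroup G} (hP : P ≤ S.Q) (S' : Ch D G) (h' : P ≤ S'.C) :
    Nat.card ((P.subgroupOf S'.C).map S'.ph) ≤ 64 := by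
  obtain ⟨τ, hτ⟩ := exists_T0 (S.pgroup hP S' h')
  rw [← card_map_of_injective (f := (MulAut.conj τ).toMonoidHom) (MulAut.conj τ).injective]
  exact card_le_of_cd (L := T0L) (by rintro _ ⟨x, hx, rfl⟩; exact hτ x hx)

theorem card_half [Finite G] (hx : x ∈ S.Q) (h : S.cv x ≠ 0) :
    Nat.card ↥(S.Q ⊓ centralizer {x}) = 256 := by
  obtain ⟨u, hu, e⟩ := S.exists_flip hx h
  have := S.half S.QC (fun y hy => S.conj_K (S.QC hx) hy (by
    rw [D.mem_K, S.π_Q hx, D.r_one])) hu e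
  rw [S.card_Q] at this
  omega

namespace Lg
variable {S} {S' : Ch D G} (L : S.Lg S')
include L

theorem cv_ne : S.cv S'.z ≠ 0 := fun h => ((S.cv_zero L.mem).1 h).elim S'.z1 L.ne
theorem zC : S.z ∈ S'.C := mem_C.2 (S.qz L.mem).symm
theorem re (σ : A9) : (S.re σ).Lg S' := ⟨L.mem, L.ne⟩

theorem symm [Finite G] : S'.Lg S := by
  refine ⟨?_, L.ne.symm⟩
  by_contra hz
  have c1 := S.card_half L.mem L.cv_ne
  have c2 := S'.card_split (P := S.Q ⊓ S'.C) inf_le_right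
  have c3 := S.card_im_le (P := S.Q ⊓ S'.C) inf_le_left S' inf_le_right
  have c4 : S.Q ⊓ S'.C ⊓ S'.Q ≤ zpowers S'.z := fun a ha => by
    have k : ∀ v, D.B v (S.cv S'.z) = 0 → D.B v (S.cv a) = 0 := fun v hv => by
      obtain ⟨x, hx, rfl⟩ := S.cv_surj v
      have m : x * a * x⁻¹ * a⁻¹ ∈ S'.Q :=
        mul_mem (S'.conj_mem (mem_C.2 ((S.comm_iff hx L.mem).2 hv)) ha.2) (inv_mem ha.2)
      rw [S.comm hx ha.1.1, zp_comm (S.qz (mul_mem ha.1.1 hx))] at m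
      refine (z2c _).resolve_right fun e => hz ?_
      simpa [e, mul_assoc] using m
    by_cases h0 : S.cv a = 0
    · rcases (S.cv_zero ha.1.1).1 h0 with e | e
      · rw [e]; exact one_mem _
      · exact absurd (e ▸ ha.2) hz
    by_cases h1 : S.cv a = S.cv S'.z
    · rcases S.cv_eq ha.1.1 L.mem h1 with e | e
      · rw [e]; exact mem_zpowers _
      · exact absurd ((mul_mem_cancel_left S'.zQ).1 (e ▸ ha.2)) hz
    obtain ⟨w1, e1⟩ := D.exists_B h0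
    obtain ⟨w2, e2⟩ := D.exists_B (mt veq.1 h1)
    have k1 := k w1
    have k2 := k w2
    have k3 := k (w1 + w2)
    simp only [map_add, LinearMap.add_apply, D.B_comm (S.cv _)] at e1 e2 k3
    revert e1 e2 k1 k2 k3
    generalize D.B w1 (S.cv a) = i, D.B w2 (S.cv a) = j, D.B w1 (S.cv S'.z) = k,
      D.B w2 (S.cv S'.z) = l
    intro e1 e2 k1 k2 k3
    exfalso
    revert i j k l; decide
  have c5 := card_le_of_le c4
  have : Fact (Nat.Prime 2) := ⟨Nat.prime_two⟩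
  rw [Nat.card_zpowers, orderOf_eq_prime (by rw [pow_two, S'.z2]) S'.z1] at c5
  change Nat.card ↥(S.Q ⊓ S'.C) = 256 at c1
  nlinarith

theorem A2 (ha : a ∈ S.Q) (ha' : a ∈ S'.Q) : a * a = 1 := by
  have h1 := S.sq ha
  have h2 := S'.sq ha'
  rcases z2c (D.q (S.cv a)) with e | e
  · simpa [e] using h1
  rcases z2c (D.q (S'.cv a)) with e' | e'
  · simpa [e'] using h2
  rw [e, zp_one] at h1
  rw [e', zp_one] at h2
  exact absurd (h2.symm.trans h1) L.ne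

theorem cmem (hr : r ∈ S'.Q) (hr' : r ∈ S.C) (hx : x ∈ S.Q) (h : D.B (S.cv x) (S.cv S'.z) = 0) :
    x * r * x⁻¹ * r⁻¹ ∈ S'.Q :=
  mul_mem (S'.conj_mem (mem_C.2 ((S.comm_iff hx L.mem).2 h)) hr) (inv_mem hr)

theorem zp_mem (i : ZMod 2) : zp S'.z i ∈ S.Q := by
  rcases z2c i with rfl | rfl <;> simp [L.mem]

theorem R2 (hr : r ∈ S'.Q) (hr' : r ∈ S.C) : S.π r * S.π r = 1 :=
  S.ππ hr' (by rw [S'.sq hr]; exact L.zp_mem _)

theorem Rc (hr : r ∈ S'.Q) (hr' : r ∈ S.C) (hx : x ∈ S'.Q) (hx' : x ∈ S.C) :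
    Commute (S.π r) (S.π x) := by
  change _ = _
  rw [← S.π_mul hr' hx', S'.comm hr hx, S.π_mq (mul_mem hx' hr') (L.zp_mem _), S.π_mul hx' hr']

theorem lift {σ : A9} (h : D.r σ (S.cv S'.z) = S.cv S'.z) : ∃ k ∈ S.C, k ∈ S'.C ∧ S.π k = σ := by
  obtain ⟨k, hk, e1, e2⟩ := S.lift_conj L.mem L.mem L.cv_ne h
  exact ⟨k, hk, mem_C.2 (mul_inv_eq_iff_eq_mul.1 e2), e1⟩

theorem Rcj {σ : A9} (h : D.r σ (S.cv S'.z) = S.cv S'.z) (hr : r ∈ S'.Q) (hr' : r ∈ S.C) :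
    ∃ x ∈ S'.Q, x ∈ S.C ∧ S.π x = σ * S.π r * σ⁻¹ := by
  obtain ⟨k, hk, hk', rfl⟩ := L.lift h
  exact ⟨_, S'.conj_mem hk' hr, mul_mem (mul_mem hk hr') (inv_mem hk), S.π_conj hk hr'⟩

theorem Rcc {σ : A9} (h : D.r σ (S.cv S'.z) = S.cv S'.z) (hr : r ∈ S'.Q) (hr' : r ∈ S.C) :
    Commute (S.π r) (σ * S.π r * σ⁻¹) := by
  obtain ⟨x, h1, h2, e⟩ := L.Rcj h hr hr'
  exact e ▸ L.Rc hr hr' h1 h2

theorem card [Finite G] : 8 ≤ Nat.card (((S'.Q ⊓ S.C).subgroupOf S.C).map S.ph) := by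
  have := D.fin
  have c1 := S'.card_half L.symm.mem L.symm.cv_ne
  have c2 := S.card_split (P := S'.Q ⊓ S.C) inf_le_right
  let U : Submodule (ZMod 2) V :=
    { carrier := {v | ∃ a ∈ S.Q, a ∈ S'.Q ∧ S.cv a = v}
      add_mem' := by
        rintro _ _ ⟨a, a1, a2, rfl⟩ ⟨b, b1, b2, rfl⟩
        exact ⟨_, mul_mem a1 b1, mul_mem a2 b2, S.cv_mul a1 b1⟩
      zero_mem' := ⟨1, one_mem _, one_mem _, S.cv_one⟩
      smul_mem' := fun c v hv => by
        rcases z2c c with rfl | rfl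
        · exact ⟨1, one_mem _, one_mem _, by simp [S.cv_one]⟩
        · simpa using hv }
  have c3 : Nat.card U ≤ 16 := D.card_iso (by
    rintro _ ⟨a, a1, a2, rfl⟩ _ ⟨b, b1, b2, rfl⟩
    have := (S.sq_iff (mul_mem a1 b1)).1 (L.A2 (mul_mem a1 b1) (mul_mem a2 b2))
    rwa [S.cv_mul a1 b1, D.q_add, (S.sq_iff a1).1 (L.A2 a1 a2), (S.sq_iff b1).1 (L.A2 b1 b2),
      zero_add, zero_add] at this)
  have : Finite (S.pre U) := inferInstance
  have c4 := card_le_of_le (show S'.Q ⊓ S.C ⊓ S.Q ≤ S.pre U from fun a ha =>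
    ⟨ha.2, a, ha.2, ha.1.1, rfl⟩)
  rw [card_pre] at c4
  change Nat.card ↥(S'.Q ⊓ S.C) = 256 at c1
  nlinarith

theorem exists_r [Finite G] : ∃ r ∈ S'.Q, r ∈ S.C ∧ S.π r ≠ 1 := by
  by_contra! hc
  have := L.card.trans (card_le_of_cd (L := [idc]) fun σ hσ => by
    obtain ⟨x, hx, rfl⟩ := (S.mem_im inf_le_right).1 hσ
    rw [hc x hx.1 hx.2, cd_one]; simp)
  simp at this

theorem wu (hr : r ∈ S'.Q) (hr' : r ∈ S.C) (hl : D.Lam (S.π r)) (v : V) :
    D.B v (D.r (S.π r) v) = D.B v (S.cv S'.z) := by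
  have k : ∀ v, D.B v (S.cv S'.z) = 0 → D.B v (D.r (S.π r) v) = 0 := fun v hv => by
    obtain ⟨x, hx, rfl⟩ := S.cv_surj v
    rw [← D.q_comm, ← S.cv_n hr' hx, ← S.sq_iff (S.nmem hr' hx)]
    exact L.A2 (S.nmem hr' hx) (L.cmem hr hr' hx hv)
  obtain ⟨v0, h0⟩ := hl
  have k1 := k v
  have k2 := k v0
  have k3 := k (v + v0)
  rw [D.lam_add (L.R2 hr hr'), map_add, LinearMap.add_apply] at k3
  revert h0 k1 k2 k3
  generalize D.B v (D.r (S.π r) v) = i, D.B v0 (D.r (S.π r) v0) = j, D.B v (S.cv S'.z) = k,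
    D.B v0 (S.cv S'.z) = l
  revert i j k l; decide

theorem natA (N : D.Nat0) (hr : r ∈ S'.Q) (hr' : r ∈ S.C) (e : S.π r = aw wA2) : False := by
  have := L.Rcc (N.fix _ (e ▸ L.wu hr hr' (N.lam _ (L.R2 hr hr') (by rw [e]; decide +kernel)))) hr hr'
  rw [e] at this
  exact absurd this.eq (by decide +kernel)

theorem natB [Finite G] (N : D.Nat0) (hr : r ∈ S'.Q) (hr' : r ∈ S.C) (e : S.π r = aw wB) :
    False := by
  have h1 := e ▸ L.wu hr hr' (N.lam _ (L.R2 hr hr') (by rw [e]; decide +kernel))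
  have h2 : D.r (aw wW) (S.cv S'.z) = S.cv S'.z := veq.1 (D.nd _ fun v => by
    rw [← D.r_inv (aw wW) v, map_add, LinearMap.add_apply, D.B_r, D.B_comm, D.B_comm (S.cv _), ← h1,
      ← h1, ← D.r_mul (aw wB) (aw wW), show aw wB * aw wW = aw wW * aw wB by decide +kernel, D.r_mul, D.B_r,
      z2add])
  have := L.card.trans (card_le_of_cd (L := [idc, 36344963841, 36344959026, 36344955171])
    fun σ hσ => by
      obtain ⟨x, hx, rfl⟩ := (S.mem_im inf_le_right).1 hσ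
      refine five_b (L.R2 hx.1 hx.2) (five_a (L.R2 hx.1 hx.2) ?_)
      simp only [List.mem_cons, List.not_mem_nil, or_false, forall_eq_or_imp, forall_eq]
      exact ⟨L.Rcc h2 hx.1 hx.2, L.Rcc (by rw [aw_append, D.r_mul, h2, h2]) hx.1 hx.2⟩)
  simp at this

theorem nat [Finite G] (N : D.Nat0) : False := by
  obtain ⟨r, hr, hr', h1⟩ := L.exists_r
  rcases inv_class (L.R2 hr hr') h1 with c | c
  · obtain ⟨σ, e⟩ := isConj_iff.1 (c.trans (isConj_iff.2 ⟨aw [1, 3, 3, 5, 1, 1],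
      show _ = aw wA2 by decide +kernel⟩))
    exact (L.re σ).natA N hr hr' e
  · obtain ⟨σ, e⟩ := isConj_iff.1 c
    exact (L.re σ).natB N hr hr' e

end Lg

end Ch

end Cfsg.TH
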