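import Cfsg.Agent.TH.Fus2
import Cfsg.Agent.H5.ZStar

/-! Fusion for the spin module. -/

set_option autoImplicit false
set_option linter.unusedSectionVars false
set_option maxRecDepth 100000

namespace Cfsg.TH

open Subgroup Module Cfsg.H6

variable {V : Type*} [AddCommGroup V] [Module (ZMod 2) V] {D : VD V} {G : Type*} [Group G]

def okw (w : List ℕ) : Bool := w.all fun l => Nat.ble 1 l && Nat.ble l 7

theorem okw_spec {w : List ℕ} (h : okw w = true) : ∀ l ∈ w, 1 ≤ l ∧ l ≤ 7 := by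
  simpa [okw] using h

theorem VD.free_conj {σ τ : A9} (h : D.K σ ≤ D.W σ) (c : IsConj τ σ) : D.K τ ≤ D.W τ := by
  obtain ⟨ρ, rfl⟩ := isConj_iff.1 c.symm
  intro v hv
  rw [D.mem_K, D.r_mul, D.r_mul] at hv
  obtain ⟨x, hx⟩ := D.mem_W.1 (h (D.mem_K.2 (D.r_inj ρ (hv.trans (D.r_inv ρ v).symm))))
  exact D.mem_W.2 ⟨D.r ρ x, by rw [D.r_mul, D.r_mul, D.inv_r, ← map_add, hx, D.r_inv]⟩

def W8 : List ℕ := [0, 2, 4, 6, 16, 18, 20, 22, 128, 130, 132, 134, 144, 146, 148, 150]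

namespace Spin
variable (P : Spin D)

/-- The vector with a given code. -/
def v (n : ℕ) : V := vec P.b n

theorem xor (n m : ℕ) : P.v (n ^^^ m) = P.v n + P.v m := vec_xor _ _ _
theorem zero : P.v 0 = 0 := vec_zero _
theorem ex (u : V) : ∃ n < 256, P.v n = u := P.surj u
theorem eq {n m : ℕ} (hn : n < 256) (hm : m < 256) (h : P.v n = P.v m) : n = m :=
  Nat.eq_of_xor_eq_zero (P.inj _ (xor_lt hn hm) (by rw [vec_xor]; exact veq.2 h))
theorem ne {n : ℕ} (hn : n < 256) (h : n ≠ 0) : P.v n ≠ 0 := mt (P.inj n hn) h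
theorem qv {n : ℕ} (hn : n < 256) : D.q (P.v n) = q0 n := P.q n hn
theorem Bv {n m : ℕ} (hn : n < 256) (hm : m < 256) : D.B (P.v n) (P.v m) = B0 n m := by
  rw [B0, ← P.qv hn, ← P.qv hm, ← P.qv (xor_lt hn hm), P.xor, D.q_add]
  generalize D.q (P.v n) = i, D.q (P.v m) = j, D.B (P.v n) (P.v m) = k
  revert i j k; decide
theorem w {w : List ℕ} (hw : okw w = true) (n : ℕ) : D.r (aw w) (P.v n) = P.v (vw w n) :=
  act_w P.act (okw_spec hw) n
theorem w' {w : List ℕ} {n m : ℕ} (h : okw w = true ∧ vw w n = m) :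
    D.r (aw w) (P.v n) = P.v m := h.2 ▸ P.w h.1 n
theorem vw_lt {n : ℕ} (h : n < 256) (w : List ℕ) : vw w n < 256 := by
  cases w with
  | nil => exact h
  | cons _ _ => exact mv8_lt _ _
include P

theorem free {w L : List ℕ} (hw : okw w = true)
    (h : ∀ n < 256, vw w n = n → ∃ m ∈ L, m ^^^ vw w m = n) : D.K (aw w) ≤ D.W (aw w) := by
  intro u hu
  obtain ⟨n, hn, rfl⟩ := P.ex u
  rw [D.mem_K, P.w hw] at hu
  obtain ⟨m, -, e⟩ := h n hn (P.eq (vw_lt hn _) hn hu)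
  exact D.mem_W.2 ⟨P.v m, by rw [P.w hw, ← P.xor, e]⟩

theorem freeA {σ : A9} (c : IsConj σ (aw wA)) : D.K σ ≤ D.W σ := VD.free_conj (P.free
  (L := [0, 33, 65, 96, 1, 32, 64, 97, 105, 72, 40, 9, 104, 73, 41, 8]) rfl (by decide +kernel)) c

theorem freeB {σ : A9} (c : IsConj σ (aw wB)) : D.K σ ≤ D.W σ := VD.free_conj (P.free
  (L := [0, 32, 128, 160, 2, 34, 130, 162, 8, 40, 136, 168, 10, 42, 138, 170]) rfl
  (by decide +kernel)) c

theorem lamA {σ : A9} (c : IsConj σ (aw wA)) : D.Lam σ :=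
  VD.Lam.conj ⟨P.v 8, by rw [P.w rfl, P.Bv (by omega) (vw_lt (by omega) _)]; decide +kernel⟩ c.symm

theorem lamB {σ : A9} (c : IsConj σ (aw wB)) (u : V) : D.B u (D.r σ u) = 0 := by
  refine (z2c _).resolve_right fun e => ?_
  obtain ⟨x, hx⟩ := VD.Lam.conj ⟨u, e⟩ c
  obtain ⟨n, hn, rfl⟩ := P.ex x
  rw [P.w rfl, P.Bv hn (vw_lt hn _)] at hx
  revert n; decide +kernel

theorem fpf {σ : A9} (h5 : σ ^ 5 = 1) (h1 : σ ≠ 1) {u : V} (h : D.r σ u = u) : u = 0 := by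
  obtain ⟨ρ, e⟩ := isConj_iff.1 (five_class h5 h1)
  obtain ⟨n, hn, e'⟩ := P.ex (D.r ρ u)
  have : D.r (aw wW) (P.v n) = P.v n := by rw [e', ← e, D.r_mul, D.r_mul, D.inv_r, h]
  rw [P.w rfl] at this
  have k : ∀ n < 256, vw wW n = n → n = 0 := by decide +kernel
  rw [k n hn (P.eq (vw_lt hn _) hn this), P.zero] at e'
  exact D.r_eq_zero.1 e'.symm

theorem orb {u : V} (h : D.q u = 0) (h0 : u ≠ 0) : ∃ σ, D.r σ (P.v 130) = u := by
  have k : ∀ n < 256, n ≠ 0 → q0 n = 0 → okw (orbW.getD n []) = true ∧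
      vw (orbW.getD n []) 130 = n := by decide +kernel
  obtain ⟨n, hn, rfl⟩ := P.ex u
  exact ⟨_, P.w' (k n hn (fun e => h0 (by rw [e, P.zero])) (P.qv hn ▸ h))⟩

end Spin

namespace Ch
variable (P : Spin D) (S : Ch D G) {x y g h a r : G}
include P

theorem beta_sq (c : IsConj (S.π y) (aw wB)) (hx : x ∈ S.Q) (h : S.cv x ∈ D.K (S.π y)) :
    x * x = 1 := by
  obtain ⟨u, e⟩ := D.mem_W.1 (P.freeB c h)
  rw [S.sq_iff hx, ← e, D.q_comm, P.lamB c]

theorem beta_cent (hy : y ∈ S.C) (h2 : y * y = 1) (c : IsConj (S.π y) (aw wB)) (hx : x ∈ S.Q)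
    (h : S.cv x ∈ D.K (S.π y)) : x * y = y * x := by
  obtain ⟨u, e⟩ := D.mem_W.1 (P.freeB c h)
  obtain ⟨a, ha, rfl⟩ := S.cv_surj u
  rw [← S.cv_n hy ha] at e
  have h3 := S.beta_sq P c (S.nmem hy ha) (e ▸ h)
  obtain ⟨i, rfl⟩ := S.cv_eq' hx (S.nmem hy ha) e.symm
  have yi : y⁻¹ = y := inv_eq_of_mul_eq_one_left h2
  rw [mul_assoc, ← zp_comm (S.cz hy), ← mul_assoc, ← mul_assoc y, mul_right_cancel_iff,
    inv_mul_cancel_right]
  conv_rhs => rw [← inv_eq_of_mul_eq_one_left h3]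
  simp only [mul_inv_rev, inv_inv, yi, ← mul_assoc, h2, one_mul]

theorem beta_lift (hy : y ∈ S.C) (h2 : y * y = 1) (c : IsConj (S.π y) (aw wB)) {σ : A9}
    (h : σ * S.π y = S.π y * σ) : ∃ k ∈ S.C, k * y = y * k ∧ S.π k = σ * σ := by
  obtain ⟨g, hg, rfl⟩ := S.π_surj σ
  obtain ⟨a, ha, e⟩ := S.π_eq' (mul_mem (mul_mem hg hy) (inv_mem hg)) hy (by
    rw [S.π_conj hg hy, h, mul_inv_cancel_right])
  obtain ⟨u, e'⟩ := D.mem_W.1 (P.freeB c (S.inv_K hy h2 ha (by rw [← e, conj_mul, h2]; simp)))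
  obtain ⟨b, hb, rfl⟩ := S.cv_surj u
  rw [← S.cv_n hy hb] at e'
  obtain ⟨i, rfl⟩ := S.cv_eq' ha (S.nmem hy hb) e'.symm
  have m := mul_mem (inv_mem (S.QC hb)) hg
  have e2 : b⁻¹ * g * y = y * zp S.z i * (b⁻¹ * g) := by
    rw [mul_assoc _ _ y, ← zp_comm (S.cz hy), ← mul_assoc _ y, inv_mul_cancel_right,
      mul_inv_eq_iff_eq_mul] at e
    rw [mul_assoc, e, mul_assoc _ _ g, mul_assoc y, ← mul_assoc (zp _ _),
      ← zp_comm (S.qz (inv_mem hb))]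
    simp only [mul_assoc, inv_mul_cancel_left]
  refine ⟨_, mul_mem m m, ?_, by
    rw [S.π_mul m m, S.π_mul (inv_mem (S.QC hb)) hg, S.π_Q (inv_mem hb), one_mul]⟩
  generalize b⁻¹ * g = k at m e2
  rw [mul_assoc, e2, ← mul_assoc, ← mul_assoc, e2, mul_assoc _ k, zp_comm (S.cz m), ← mul_assoc,
    mul_assoc y, ← zp_add S.z2, z2add, zp_zero, mul_one, mul_assoc]

theorem b3' (S' : Ch D G) (hy : S'.z ∈ S.C) (e : S.π S'.z = aw wB) : False := by
  have c : IsConj (S.π S'.z) (aw wB) := e ▸ IsConj.refl _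
  have h2 := S'.z2
  obtain ⟨k, hk, hk', πk⟩ := S.beta_lift P hy h2 c (σ := aw wW) (by rw [e]; decide +kernel)
  obtain ⟨t, ht, ht', πt⟩ := S.beta_lift P hy h2 c (σ := aw [7]) (by rw [e]; decide +kernel)
  have k5 : k ^ 5 ∈ S.Q := (S.π_ker (pow_mem hk 5)).1 (by rw [S.π_pow hk, πk]; decide +kernel)
  have k10 := S.beta_sq P c k5 (S.mem_K_of hy k5 (S'.cz (pow_mem (mem_C.2 hk') 5)))
  obtain ⟨w, hw, hw', πw, w5⟩ : ∃ w ∈ S.C, w ∈ S'.C ∧ S.π w = aw wW * aw wW ∧ w ^ 5 = 1 :=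
    ⟨k ^ 6, pow_mem hk 6, pow_mem (mem_C.2 hk') 6, by rw [S.π_pow hk, πk]; decide +kernel, by
      rw [← pow_add] at k10
      rw [← pow_mul, show 6 * 5 = (5 + 5) * 3 from rfl, pow_mul, k10, one_pow]⟩
  have p5 : S'.π w ^ 5 = 1 := by rw [← S'.π_pow hw', w5, S'.π_one]
  have p1 : S'.π w ≠ 1 := fun h => by
    rw [S'.eq_one_of_odd ((S'.π_ker hw').1 h) (by decide) w5, S.π_one] at πw
    revert πw; decide +kernel
  have hz : S.z ∉ S'.Q := fun h => by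
    have h3 := S'.cv_conj hw' h
    rw [S.cjz hw] at h3
    rcases (S'.cv_zero h).1 (P.fpf p5 p1 h3.symm) with e' | e'
    · exact S.z1 e'
    · rw [← e', S.π_Q S.zQ] at e
      revert e; decide +kernel
  let T : V → ZMod 2 → Prop := fun v i => ∃ x ∈ S.Q, S.cv x = v ∧
    x * S'.z * x⁻¹ * S'.z⁻¹ * zp S.z i ∈ S'.Q
  have T1 : ∀ {u v i}, T u i → u + D.r (aw wB) u = v + D.r (aw wB) v → T v i := by
    rintro _ v i ⟨x, hx, rfl, m⟩ h
    obtain ⟨x', hx', rfl⟩ := S.cv_surj v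
    have := S.beta_cent P hy h2 c (mul_mem (inv_mem hx) hx') (by
      rw [D.mem_K, S.cv_mul (inv_mem hx) hx', S.cv_inv hx, map_add, e, ← veq, add_add_add_comm,
        add_comm _ (S.cv x), h, add_comm, add_comm (S.cv x'), vadd])
    refine ⟨x', hx', rfl, ?_⟩
    rwa [show x' * S'.z * x'⁻¹ = x * (x⁻¹ * x' * S'.z) * x'⁻¹ by group, this,
      show x * (S'.z * (x⁻¹ * x')) * x'⁻¹ = x * S'.z * x⁻¹ by group]
  have T2 : ∀ {u i} {k}, k ∈ S.C → k * S'.z = S'.z * k → T u i → T (D.r (S.π k) u) i := by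
    rintro _ i k hk hk' ⟨x, hx, rfl, m⟩
    refine ⟨_, S.conj_mem hk hx, S.cv_conj hk hx, ?_⟩
    have := S'.conj_mem (mem_C.2 hk') m
    rw [mul_assoc k, mul_assoc _ (zp _ _), ← zp_comm (S.cz (inv_mem hk))] at this
    have e1 : S'.z = k * S'.z * k⁻¹ := by rw [hk', mul_inv_cancel_right]
    convert this using 1
    conv_lhs => rw [e1]
    group
  have T3 : ∀ {u v i j}, T u i → T v j → T (u + v) (i + j + D.B u (v + D.r (aw wB) v)) := by
    rintro _ _ i j ⟨x, hx, rfl, m⟩ ⟨x', hx', rfl, m'⟩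
    refine ⟨_, mul_mem hx hx', S.cv_mul hx hx', ?_⟩
    have h3 := S.comm hx (S.nmem hy hx')
    rw [S.cv_n hy hx', e] at h3
    convert mul_mem m' m using 1
    have z1 := S.qz (S.nmem hy hx)
    rw [show x * x' * S'.z * (x * x')⁻¹ * S'.z⁻¹ = x * (x' * S'.z * x'⁻¹ * S'.z⁻¹) * x⁻¹ *
      (x * S'.z * x⁻¹ * S'.z⁻¹) by group, h3, mul_assoc _ (zp _ _) x⁻¹,
      ← zp_comm (S.qz (inv_mem hx)), ← mul_assoc _ x⁻¹, mul_inv_cancel_right]
    generalize x * S'.z * x⁻¹ * S'.z⁻¹ = n at z1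
    generalize x' * S'.z * x'⁻¹ * S'.z⁻¹ = n'
    rw [mul_assoc n', ← zp_comm z1, mul_assoc n' (zp _ _), ← mul_assoc (zp _ _), ← zp_comm z1]
    simp only [mul_assoc, ← zp_add S.z2]
    congr 3
    rw [add_comm, add_assoc, z2add, add_zero, add_comm]
  have T4 : ∀ {u i j}, T u i → T u j → i = j := by
    rintro _ i j ⟨x, hx, rfl, m⟩ ⟨x', hx', e', m'⟩
    obtain ⟨l, rfl⟩ := S.cv_eq' hx' hx e'
    rw [mul_assoc x, ← zp_comm (S.cz hy), mul_inv_rev, ← mul_assoc x, ← mul_assoc,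
      mul_inv_cancel_right] at m'
    have := mul_mem (inv_mem m) m'
    rw [mul_inv_rev, mul_assoc, inv_mul_cancel_left] at this
    rcases z2c i with rfl | rfl <;> rcases z2c j with rfl | rfl <;> simp_all
  obtain ⟨κ, T0⟩ : ∃ κ, T (P.v 2) κ := by
    obtain ⟨u, hu, eu⟩ := S.cv_surj (P.v 65)
    have UK : ∀ x ∈ S.Q, x ∈ S'.C → S.cv x ∈ D.K (S.π S'.z) := fun x hx hx' =>
      S.mem_K_of hy hx (S'.cz hx')
    have uC : u ∈ S'.C := mem_C.2 (S.beta_cent P hy h2 c hu (by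
      rw [D.mem_K, e, eu]; exact P.w' (by decide +kernel)))
    have cc : ∀ g ∈ S.C, g ∈ S'.C → Commute (S'.π u) (S'.π g * S'.π u * (S'.π g)⁻¹) :=
      fun g hg hg' => by
      have m := S.conj_mem hg hu
      have m' := mul_mem (mul_mem hg' uC) (inv_mem hg')
      rw [← S'.π_conj hg' uC]
      change _ = _
      rw [← S'.π_mul uC m', ← S'.π_mul m' uC, (S.comm_iff hu m).2 (D.B_KW (S.ππ hy (by
        rw [h2]; exact one_mem _)) (UK u hu uC) (P.freeB c (UK _ m m')))]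
    obtain ⟨ρ, eρ⟩ := isConj_iff.1 (five_class p5 p1)
    have cj : ∀ a b : A9, Commute a b → Commute (ρ * a * ρ⁻¹) (ρ * b * ρ⁻¹) := fun a b h =>
      h.map (MulAut.conj ρ)
    have f := five_a (u := ρ * S'.π u * ρ⁻¹) (by
      rw [conj_mul, S'.ππ uC (by rw [S.beta_sq P c hu (UK u hu uC)]; exact one_mem _)]; simp) (by
      simp only [List.mem_cons, List.not_mem_nil, or_false, forall_eq_or_imp, forall_eq, aw_append,
        ← eρ]
      refine ⟨?_, ?_⟩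
      · convert cj _ _ (cc w hw hw') using 1; group
      · convert cj _ _ (cc _ (mul_mem hw hw) (mul_mem hw' hw')) using 1
        rw [S'.π_mul hw' hw']; group)
    rw [← eρ] at f
    have m : u * w * u⁻¹ * w⁻¹ ∈ S'.Q := (S'.π_ker (mul_mem (mul_mem (mul_mem uC hw') (inv_mem uC))
      (inv_mem hw'))).1 (by
        rw [S'.π_mul (mul_mem (mul_mem uC hw') (inv_mem uC)) (inv_mem hw'), S'.π_conj uC hw',
          S'.π_inv hw', (MulAut.conj ρ).injective (a₁ := S'.π u * S'.π w) (a₂ := S'.π w * S'.π u)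
            (by rw [map_mul, map_mul]; exact f.eq)]
        group)
    obtain ⟨x, hx, ex⟩ := S.cv_surj (P.v 2)
    obtain ⟨i, ei⟩ := S.cv_eq' (S.nmem hw hu) (S.nmem hy hx) (by
      rw [S.cv_n hw hu, S.cv_n hy hx, eu, ex, e, πw, ← aw_append, P.w rfl, P.w rfl, ← P.xor, ← P.xor]
      exact congrArg P.v (by decide +kernel))
    exact ⟨i, x, hx, ex, ei ▸ m⟩
  have a0 : ∀ {n m i}, T (P.v n) i → vw (wW ++ wW) n = m → T (P.v m) i := fun h e => by
    have := T2 hw (S'.cz hw') h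
    rwa [πw, ← aw_append, P.w' ⟨rfl, e⟩] at this
  have a1 : ∀ {n m i}, T (P.v n) i → vw ([7] ++ [7]) n = m → T (P.v m) i := fun h e => by
    have := T2 ht ht' h
    rwa [πt, ← aw_append, P.w' ⟨rfl, e⟩] at this
  have fin : ∀ {n m i}, n < 256 → T (P.v 2) κ → T (P.v n) κ → T (P.v m) κ →
      (2 ^^^ n) ^^^ vw wB (2 ^^^ n) = m ^^^ vw wB m → B0 2 (n ^^^ vw wB n) = i → κ + κ + i = κ :=
    fun {n m i} hn h1 h2 h3 e1 e2 => by
    have := T3 h1 h2
    rw [← P.xor, P.w rfl, ← P.xor, P.Bv (by omega) (xor_lt hn (Spin.vw_lt hn _)), e2] at this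
    exact T4 (T1 this (by rw [P.w rfl, P.w rfl, ← P.xor, ← P.xor, e1])) h3
  have s0 := a0 (m := 245) T0 (by decide +kernel)
  have s00 := a0 (m := 72) s0 (by decide +kernel)
  have s10 := a1 (m := 95) s0 (by decide +kernel)
  have s01 := a0 (m := 243) (a1 T0 rfl) (by decide +kernel)
  have f0 := fin (i := 0) (by omega) T0 s0 s01 (by decide +kernel) (by decide +kernel)
  have f1 := fin (i := 1) (by omega) T0 s00 s10 (by decide +kernel) (by decide +kernel)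
  clear T0 s0 s00 s10 s01 fin
  revert κ; decide

theorem b3 (S' : Ch D G) (hy : S'.z ∈ S.C) (c : IsConj (S.π S'.z) (aw wB)) : False := by
  obtain ⟨σ, e⟩ := isConj_iff.1 c
  exact (S.re σ).b3' P S' hy e

end Ch

end Cfsg.TH
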