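import Cfsg.Agent.TH.Fus3

/-! One class of involutions in the centralizer. -/

set_option autoImplicit false
set_option linter.unusedSectionVars false
set_option maxRecDepth 100000

namespace Cfsg.TH

open Subgroup Module Cfsg.H6

variable {V : Type*} [AddCommGroup V] [Module (ZMod 2) V] {D : VD V} {G : Type*} [Group G]

/-- The translations. -/
def tl (i : ℕ) : List ℕ := rp i wS ++ wE ++ iw (rp i wS)

theorem aw_tl (i : ℕ) : aw (tl i) = aw (rp i wS) * aw wE * (aw (rp i wS))⁻¹ := by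
  rw [tl, aw_append, aw_append, aw_iw]

namespace Ch
variable (P : Spin D) (S : Ch D G) {x y g h a r : G}

theorem conj_sing (P : Spin D) (hx : x ∈ S.Q) (hy : y ∈ S.Q) (x2 : x * x = 1) (y2 : y * y = 1)
    (x0 : S.cv x ≠ 0) (y0 : S.cv y ≠ 0) : ∃ g ∈ S.C, g * x * g⁻¹ = y := by
  obtain ⟨σ, e⟩ := P.orb ((S.sq_iff hx).1 x2) x0
  obtain ⟨τ, e'⟩ := P.orb ((S.sq_iff hy).1 y2) y0
  obtain ⟨g, hg, -, e''⟩ := S.lift_conj hx hy y0 (σ := τ * σ⁻¹) (by rw [← e, D.r_mul, D.inv_r, e'])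
  exact ⟨g, hg, e''⟩

/-- The involutions of `Q` are conjugate. -/
def QC' : Prop := ∀ x ∈ S.Q, x * x = 1 → x ≠ 1 → IsConj x S.z
/-- The involutions with one fixed point are conjugate to the central involution. -/
def AC : Prop := ∀ y ∈ S.C, y * y = 1 → IsConj (S.π y) (aw wA) → IsConj y S.z

theorem conj_mv (g x : G) : IsConj (g⁻¹ * x * g) S.z → IsConj x (S.mv g).z := fun h =>
  ((isConj_iff.2 ⟨g⁻¹, by simp⟩ : IsConj x (g⁻¹ * x * g)).trans h).trans (isConj_iff.2 ⟨g, rfl⟩)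

theorem sq_mv (h : x * x = 1) : g⁻¹ * x * g * (g⁻¹ * x * g) = 1 := by
  rw [show g⁻¹ * x * g * (g⁻¹ * x * g) = g⁻¹ * (x * x) * g by group, h]; simp

theorem QC'.mv {S : Ch D G} (h : S.QC') (g : G) : (S.mv g).QC' := fun x hx x2 x1 =>
  S.conj_mv g x (h _ (S.mem_mv_Q.1 hx) (sq_mv x2) fun e => x1 (by
    rw [← mul_right_cancel_iff (a := g), ← mul_left_cancel_iff (a := g⁻¹), ← mul_assoc, e]; simp))

theorem mem_mv_C : x ∈ (S.mv g).C ↔ g⁻¹ * x * g ∈ S.C := by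
  rw [mem_C, mem_C, mv_z]
  constructor <;> intro h
  · rw [← mul_left_cancel_iff (a := g), ← mul_right_cancel_iff (a := g⁻¹)]
    simpa only [mul_assoc, mul_inv_cancel_left, mul_inv_cancel, mul_one, inv_mul_cancel_left] using h
  · rw [← mul_left_cancel_iff (a := g⁻¹), ← mul_right_cancel_iff (a := g)]
    simpa only [mul_assoc, mul_inv_cancel_left, inv_mul_cancel, mul_one, inv_mul_cancel_left] using h

theorem mv_π : (S.mv g).π x = S.π (g⁻¹ * x * g) := by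
  change S.π ((MulAut.conj g).symm x) = _; rw [MulAut.conj_symm_apply]

theorem AC.mv {S : Ch D G} (h : S.AC) (g : G) : (S.mv g).AC := fun x hx x2 c =>
  S.conj_mv g x (h _ (S.mem_mv_C.1 hx) (sq_mv x2) (S.mv_π ▸ c))

namespace Lg
variable {S} {S' : Ch D G} (L : S.Lg S') (hc : S.cv S'.z = P.v 130)
include L hc

theorem fixw {w : List ℕ} (h : okw w = true ∧ vw w 130 = 130) :
    D.r (aw w) (S.cv S'.z) = S.cv S'.z := by rw [hc, P.w' h]

theorem Rcl (hr : r ∈ S'.Q) (hr' : r ∈ S.C) : S.π r = 1 ∨ ∃ i < 7, S.π r = aw (tl i) := by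
  simp only [aw_tl]
  refine seven (L.R2 hr hr') fun g hg => L.Rcc (L.fixw P hc ?_) hr hr'
  revert g; decide +kernel

theorem exE [Finite G] {i : ℕ} (hi : i < 7) : ∃ r ∈ S'.Q, r ∈ S.C ∧ S.π r = aw (tl i) := by
  obtain ⟨r, hr, hr', h1⟩ := L.exists_r
  obtain ⟨j, hj, e⟩ := (L.Rcl P hc hr hr').resolve_left h1
  have k : ∀ i < 7, ∀ j < 7, (okw (rp (7 + i - j) wS) = true ∧ vw (rp (7 + i - j) wS) 130 = 130) ∧
    cjc (rp (7 + i - j) wS) (pw (tl j)) = pw (tl i) := by decide +kernel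
  obtain ⟨x, h1, h2, e'⟩ := L.Rcj (L.fixw P hc (k i hi j hj).1) hr hr'
  exact ⟨x, h1, h2, eq_aw (by rw [e', e, cd_cj, cd_aw, (k i hi j hj).2])⟩

theorem hA [Finite G] {m : ℕ} (hm : m ∈ W8) (hx : x ∈ S.Q) (e : S.cv x = P.v m) : x ∈ S'.Q := by
  have k : ∀ m ∈ W8, ∃ p ∈ [(0, 0), (0, 8), (1, 10), (2, 10), (3, 34), (1, 32), (0, 65), (0, 73),
    (0, 12), (0, 4), (2, 8), (1, 8), (1, 34), (3, 32), (0, 77), (0, 69)], p.1 < 7 ∧ p.2 < 256 ∧
    B0 p.2 130 = 0 ∧ okw (tl p.1) = true ∧ p.2 ^^^ vw (tl p.1) p.2 = m := by decide +kernel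
  obtain ⟨⟨i, n⟩, -, hi, hn, h1, h2, h3⟩ := k m hm
  obtain ⟨r, hr, hr', πr⟩ := L.exE P hc hi
  obtain ⟨y, hy, ey⟩ := S.cv_surj (P.v n)
  obtain ⟨j, rfl⟩ := S.cv_eq' hx (S.nmem hr' hy) (by
    rw [S.cv_n hr' hy, e, ey, πr, P.w h2, ← P.xor, h3])
  exact mul_mem (L.cmem hr hr' hy (by rw [ey, hc, P.Bv hn (by omega), h1])) (L.symm.zp_mem j)

theorem invE [Finite G] : ∃ r ∈ S'.Q, r ∈ S.C ∧ r * r = 1 ∧ S.π r = aw wE := by
  obtain ⟨r, hr, hr', πr⟩ := L.exE P hc (i := 0) (by omega)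
  rw [show aw (tl 0) = aw wE from aw_eq (by decide +kernel)] at πr
  rcases z2c (D.q (S'.cv r)) with e | e
  · exact ⟨r, hr, hr', (S'.sq_iff hr).2 e, πr⟩
  obtain ⟨a, ha, ea⟩ := S.cv_surj (P.v 4)
  have ha' := L.hA P hc (by decide) ha ea
  refine ⟨a * r, mul_mem ha' hr, mul_mem (S.QC ha) hr', ?_, by
    rw [S.π_mul (S.QC ha) hr', S.π_Q ha, one_mul, πr]⟩
  rw [S'.sq_iff (mul_mem ha' hr), S'.cv_mul ha' hr, D.q_add, e, (S'.sq_iff ha').1 (L.A2 ha ha'),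
    (z2c (D.B _ _)).resolve_left fun e' => ?_]
  · rfl
  have := S.mem_K_of hr' ha ((S'.comm_iff ha' hr).2 e')
  rw [D.mem_K, πr, ea, P.w rfl] at this
  exact absurd (P.eq (Spin.vw_lt (by omega) _) (by omega) this) (by decide +kernel)

end Lg

theorem lg_of (hx : x ∈ S.Q) (h0 : S.cv x ≠ 0) (e : g * S.z * g⁻¹ = x) : S.Lg (S.mv g) :=
  ⟨by rw [mv_z, e]; exact hx, fun h => h0 (by rw [← e]; exact (congrArg S.cv h).trans S.cv_z)⟩

include P in
theorem ac [Finite G] (h : S.QC') : S.AC := fun y hy y2 c => by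
  obtain ⟨x, hx, ex⟩ := S.cv_surj (P.v 130)
  have h0 : S.cv x ≠ 0 := ex ▸ P.ne (by omega) (by omega)
  obtain ⟨g, e⟩ := isConj_iff.1 (h x hx ((S.sq_iff hx).2 (by
    rw [ex, P.qv (by omega)]; decide +kernel)) fun e => h0 (by rw [e, S.cv_one])).symm
  obtain ⟨r, hr, hr', r2, πr⟩ := (S.lg_of hx h0 e).invE P (by rw [mv_z, e, ex])
  have c' : IsConj (S.π r) (aw wA) := by
    rw [πr]; exact isConj_iff.2 ⟨aw [4, 5, 5], by decide +kernel⟩
  obtain ⟨k, -, ek⟩ := S.conj_free hr' r2 (P.lamA c') (P.freeA c') hy y2 (c.trans c'.symm)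
  refine ((isConj_iff.2 ⟨k, ek⟩).trans (h.mv g r hr r2 fun e => ?_)).trans
    (isConj_iff.2 ⟨g, rfl⟩ : IsConj S.z _).symm
  rw [e, S.π_one] at πr
  revert πr; decide +kernel

include P in
theorem nb [Finite G] (h : S.QC') (hy : y ∈ S.C) (y2 : y * y = 1) :
    ¬ IsConj (S.π y) (aw wB) := fun c => by
  obtain ⟨σ, eσ⟩ := isConj_iff.1 (c.trans (isConj_iff.2 ⟨aw [2],
    show _ = aw [1, 3, 4, 4, 3] by decide +kernel⟩))
  let T := S.re σ
  have πy : T.π y = aw [1, 3, 4, 4, 3] := eσ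
  have c1 : IsConj (T.π y) (aw wB) := (isConj_iff.2 ⟨σ, rfl⟩ : IsConj (S.π y) _).symm.trans c
  have hT : T.QC' := h
  obtain ⟨a, ha, ea⟩ := T.cv_surj (P.v 18)
  have hx := T.nmem hy ha
  have ex : T.cv (a * y * a⁻¹ * y⁻¹) = P.v 130 := by
    rw [T.cv_n hy ha, ea, πy, P.w rfl, ← P.xor]; exact congrArg P.v (by decide +kernel)
  have h0 : T.cv (a * y * a⁻¹ * y⁻¹) ≠ 0 := ex ▸ P.ne (by omega) (by omega)
  obtain ⟨g, e⟩ := isConj_iff.1 (hT _ hx ((T.sq_iff hx).2 (by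
    rw [ex, P.qv (by omega)]; decide +kernel)) fun e => h0 (by rw [e, T.cv_one])).symm
  have L := T.lg_of hx h0 e
  have ha' := L.hA P (by rw [mv_z, e, ex]) (by decide) ha ea
  have hy' : y ∈ (T.mv g).C := mem_C.2 (by
    rw [mv_z, e]
    exact (T.beta_cent P hy y2 c1 hx (by rw [D.mem_K, ex, πy]; exact P.w' (by decide +kernel))).symm)
  have nc : ¬ IsConj y (T.mv g).z := fun c2 => by
    obtain ⟨k, ek⟩ := isConj_iff.1 ((isConj_iff.2 ⟨g, rfl⟩ : IsConj T.z _).trans c2.symm)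
    exact T.b3 P (T.mv k) (by rw [mv_z, ek]; exact hy) (by rw [mv_z, ek]; exact c1)
  by_cases h1 : (T.mv g).π y = 1
  · refine nc (hT.mv g y (((T.mv g).π_ker hy').1 h1) y2 fun e => ?_)
    rw [e, T.π_one] at πy
    revert πy; decide +kernel
  rcases inv_class ((T.mv g).ππ hy' (by rw [y2]; exact one_mem _)) h1 with c2 | c2
  · exact nc ((T.ac P hT).mv g y hy' y2 c2)
  have := (T.mv g).beta_cent P hy' y2 c2 ha' (by
    rw [D.mem_K, eq_comm, ← veq, ← (T.mv g).cv_n hy' ha', ← e]; exact (T.mv g).cv_z)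
  exact h0 (by rw [this]; simp [T.cv_one])

theorem not_wc [Finite G] [IsSimpleGroup G] (h : Nonempty (Spin D) ∨ D.Nat0) : ¬ S.WC := fun w => by
  have : Fact (Nat.Prime 2) := ⟨Nat.prime_two⟩
  obtain ⟨g, hc, hne⟩ := H5.exists_commute_conj_ne
    (orderOf_eq_prime (by rw [pow_two, S.z2]) S.z1) fun hz => by
      have := D.fin
      have : Nontrivial V := Finite.one_lt_card_iff_nontrivial.1 (by rw [D.card]; omega)
      obtain ⟨v, hv⟩ := exists_ne (0 : V)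
      obtain ⟨x, hx, rfl⟩ := S.cv_surj v
      obtain ⟨u, -, e⟩ := S.exists_flip hx hv
      rcases (inferInstance : (center G).Normal).eq_bot_or_eq_top with h | h
      · rw [h] at hz; exact S.z1 hz
      · rw [mem_center_iff.1 (h ▸ mem_top x) u] at e
        exact S.z1 (by simpa using e)
  have hy : (S.mv g).z ∈ S.C := mem_C.2 hc.symm.eq
  have zC : S.z ∈ (S.mv g).C := mem_C.2 hc.eq
  have c : IsConj S.z (S.mv g).z := isConj_iff.2 ⟨g, rfl⟩
  have h1 : (S.mv g).z ∉ S.Q := fun h => hne (w _ h c)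
  have h2 : S.z ∉ (S.mv g).Q := fun h => hne (w.mv g _ h c.symm).symm
  have s1 := S.ππ hy (by rw [(S.mv g).z2]; exact one_mem _)
  have s2 := (S.mv g).ππ zC (by rw [S.z2]; exact one_mem _)
  have n1 := mt (S.π_ker hy).1 h1
  have n2 := mt ((S.mv g).π_ker zC).1 h2
  rcases h with ⟨⟨P⟩⟩ | N
  · exact S.wc_false _ hy (P.lamA ((inv_class s1 n1).resolve_right (S.b3 P _ hy)))
      (P.lamA ((inv_class s2 n2).resolve_right ((S.mv g).b3 P _ zC))) w (w.mv g) h2 h1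
  · exact S.wc_false _ hy (N.lam _ s1 n1) (N.lam _ s2 n2) w (w.mv g) h2 h1

theorem exists_lg [Finite G] [IsSimpleGroup G] (h : Nonempty (Spin D) ∨ D.Nat0) :
    ∃ g, S.Lg (S.mv g) := by
  have := S.not_wc h
  simp only [WC, not_forall] at this
  obtain ⟨x, hx, c, ne⟩ := this
  obtain ⟨g, rfl⟩ := isConj_iff.1 c
  exact ⟨g, hx, ne⟩

include P in
theorem qc [Finite G] [IsSimpleGroup G] : S.QC' := fun x hx x2 x1 => by
  obtain ⟨g, L⟩ := S.exists_lg (Or.inl ⟨P⟩)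
  by_cases h0 : S.cv x = 0
  · rw [((S.cv_zero hx).1 h0).resolve_left x1]
  obtain ⟨k, -, e⟩ := S.conj_sing P hx L.mem x2 (S.mv g).z2 h0 L.cv_ne
  exact (isConj_iff.2 ⟨k, e⟩).trans (isConj_iff.2 ⟨g, rfl⟩ : IsConj S.z _).symm

end Ch

universe u

theorem exists_spin {G : Type u} [Group G] [Finite G] [IsSimpleGroup G] (t : G) (ht : orderOf t = 2)
    (Q : Subgroup (centralizer ({t} : Set G))) [Q.Normal] (hQ : IsExtraspecial 2 Q)
    (hcard : Nat.card Q = 2 ^ 9) (h2c : centralizer (Q : Set (centralizer ({t} : Set G))) ≤ Q)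
    (e : (centralizer ({t} : Set G)) ⧸ Q ≃* A9) :
    ∃ (V : Type u) (_ : AddCommGroup V) (_ : Module (ZMod 2) V) (D : VD V),
      Nonempty (Ch D G) ∧ Nonempty (Spin D) := by
  obtain ⟨V, _, _, D, S, -⟩ := exists_ch t ht Q hQ hcard h2c e
  rcases D.tri fun _ => S.faith with h | h | h
  · exact ⟨V, _, _, D, ⟨S⟩, h⟩
  · exact ⟨V, _, _, _, ⟨S.tw kap⟩, h⟩
  · obtain ⟨g, L⟩ := S.exists_lg (Or.inr h)
    exact (L.nat h).elim

end Cfsg.TH
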