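import Cfsg.Agent.TH.G1

/-! The involution `v` exchanging `a` and `c`, and its action on `C(a, c)`. -/

set_option autoImplicit false
set_option linter.unusedSectionVars false
set_option maxRecDepth 100000

namespace Cfsg.TH

open Subgroup Cfsg.H6

variable {V : Type*} [AddCommGroup V] [Module (ZMod 2) V] {D : VD V} {G : Type*} [Group G]

def I1 : ℕ := 757732674659559167681610489737075512083733500834388884663162558873856
noncomputable def re (u w : List ℕ) : Bool := rel (u ++ invW I1 w)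
def cw (u w : List ℕ) : List ℕ := u ++ w ++ invW I1 u ++ invW I1 w
def E8 : List ℕ := [0, 16, 130, 146, 256, 272, 386, 402]

theorem conj_w {g : ℕ → G} {v : G} {σ : ℕ → List ℕ} {w : List ℕ}
    (h : ∀ l ∈ w, v * g l * v⁻¹ = evL g (σ l)) : v * evL g w * v⁻¹ = evL g (w.flatMap σ) := by
  induction w with
  | nil => simp [evL_nil]
  | cons l w ih =>
    rw [evL_cons, ← conj_mul, h l List.mem_cons_self, ih fun j hj => h j (List.mem_cons_of_mem _ hj),
      List.flatMap_cons, evL_append]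

theorem avg (D : VD V) {ρ : A9} {n : ℕ} (h : ρ ^ n = 1) (hn : (n : ZMod 2) = 1) {α : V}
    (hα : D.r ρ α = α) (w : V) : D.r ρ (∑ i ∈ Finset.range n, D.r (ρ ^ i) w) =
      ∑ i ∈ Finset.range n, D.r (ρ ^ i) w ∧
    D.B (∑ i ∈ Finset.range n, D.r (ρ ^ i) w) α = D.B w α := by
  constructor
  · have := Finset.sum_range_succ' (fun i => D.r (ρ ^ i) w) n
    rw [Finset.sum_range_succ, h, pow_zero, add_left_inj] at this
    rw [map_sum, this]
    exact Finset.sum_congr rfl fun i _ => by rw [pow_succ', D.r_mul]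
  · have k : ∀ i, D.r (ρ ^ i) α = α := fun i => by
      induction i with
      | zero => exact D.r_one _
      | succ i ih => rw [pow_succ, D.r_mul, hα, ih]
    rw [map_sum, LinearMap.sum_apply, Finset.sum_congr rfl fun i _ => by rw [← k i, D.B_r],
      Finset.sum_const, Finset.card_range, nsmul_eq_mul, hn, one_mul]

theorem Ch.fixl (S : Ch D G) {x v : G} (hx : x ∈ S.C) (hv : v ∈ S.Q) {m : ℕ}
    (h : (x * x) ^ m = x) (e : D.r (S.π x) (S.cv v) = S.cv v) : Commute x v := by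
  rw [← h]
  refine Commute.pow_left ?_ m
  obtain ⟨i, e1⟩ := S.cv_eq' (S.conj_mem hx hv) hv ((S.cv_conj hx hv).trans e)
  rw [mul_inv_eq_iff_eq_mul] at e1
  have e2 := zp_comm (S.cz hx) i
  calc x * x * v = x * (v * zp S.z i * x) := (mul_assoc _ _ _).trans (congrArg (x * ·) e1)
    _ = x * v * (zp S.z i * x) := by simp only [mul_assoc]
    _ = v * zp S.z i * (x * zp S.z i) * x := by rw [e1]; simp only [mul_assoc]
    _ = v * (zp S.z i * zp S.z i) * (x * x) := by rw [e2]; simp only [mul_assoc]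
    _ = v * (x * x) := by rw [← zp_add S.z2, z2add]; exact congrArg (· * _) (mul_one _)

/-- The action of `v` on the letters. -/
def th (l : ℕ) : List ℕ := [[], [3], [], [1], [], [5], [6], [7], [8], [9], [5, 10], [11, 5], [12], [15],
  [], [13]].getD l []
def dm : List ℕ := [1, 3, 5, 6, 7, 8, 9, 12]

namespace Nm

variable {P : Spin D} {S : Ch D G} {g : ℕ → G} (N : Nm P S g)
include N

theorem r1 {w : List ℕ} (h : rel w = true) : evL g w = 1 := (N.orc w).2 h

theorem good : Good g I1 := by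
  refine ⟨(evL_singleton g 0).symm.trans (N.r1 (by decide +kernel)), fun l => ?_⟩
  suffices h : rel [H6.invL I1 l, l] = true from eq_inv_of_mul_eq_one_left (by
    simpa only [evL_cons, evL_nil, mul_one] using N.r1 h)
  by_cases h : l < 29
  · exact (by decide +kernel : ∀ l < 29, rel [H6.invL I1 l, l] = true) l h
  have : H6.invL I1 l = 0 := by
    change (_ >>> (8 * l)) &&& 255 = 0
    rw [Nat.shiftRight_eq_div_pow, Nat.div_eq_of_lt, Nat.zero_and]
    exact lt_of_lt_of_le (by decide +kernel) (Nat.pow_le_pow_right (by omega) (by omega : 232 ≤ _))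
  have h1 : cl1L.length = 29 := by decide +kernel
  rw [this, rel_iff, mwd_cons, mwd_cons, mwd_nil, dc_mm, dc_mm, cl1, cl1,
    List.getD_eq_default _ _ (by omega : _ ≤ l), (by decide +kernel : cl1L.getD 0 ONE = ONE), dc_one]
  simp

theorem eq_iff {u w : List ℕ} : evL g u = evL g w ↔ re u w = true := by
  rw [re, ← N.orc, evL_append, evL_invW N.good, mul_inv_eq_one]

theorem eq {u w : List ℕ} (h : re u w = true) : evL g u = evL g w := N.eq_iff.2 h

theorem ne {u w : List ℕ} (h : re u w = false) : evL g u ≠ evL g w := fun e => by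
  rw [N.eq_iff.1 e] at h; exact absurd h (by simp)

theorem evc (u w : List ℕ) : evL g (cw u w) = evL g u * evL g w * (evL g u)⁻¹ * (evL g w)⁻¹ := by
  rw [cw, evL_append, evL_append, evL_append, evL_invW N.good, evL_invW N.good]

theorem cm {u w : List ℕ} (h : rel (cw u w) = true) : Commute (evL g u) (evL g w) := by
  have := N.r1 h
  rwa [N.evc, mul_inv_eq_one, mul_inv_eq_iff_eq_mul] at this

theorem cm1 {i j : ℕ} (h : rel (cw [i] [j]) = true) : Commute (g i) (g j) := by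
  simpa only [evL_singleton] using N.cm h

theorem m1 (l : ℕ) : g l ∈ S.C := evL_singleton g l ▸ N.mem [l]
theorem π1 (l : ℕ) : S.π (g l) = aw (wa l) := by
  rw [← evL_singleton g l, N.π, fw, List.flatMap_singleton]
theorem sq {l : ℕ} (h : rel [l, l] = true) : g l * g l = 1 := by
  simpa only [evL_cons, evL_nil, mul_one] using N.r1 h

variable [Finite G] {S' : Ch D G} (L : S.Lg S') (hz : S'.z = evL g [1, 3])
include L hz

theorem hc : S.cv S'.z = P.v 130 := by
  rw [hz, N.eq (w := q1 130) (by decide +kernel), N.cvq 130 (by omega)]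

theorem mC {w : List ℕ} (h : rel (cw w [1, 3]) = true) : evL g w ∈ S'.C :=
  mem_C.2 (hz ▸ (N.cm h).eq)

theorem mC1 {l : ℕ} (h : rel (cw [l] [1, 3]) = true) : g l ∈ S'.C :=
  evL_singleton g l ▸ N.mC L hz h

theorem inA {n : ℕ} (h : n < 512) (h' : n % 256 ∈ W8) : evL g (q1 n) ∈ S'.Q :=
  L.hA P (N.hc L hz) h' (N.wQ n) (N.cvq n h)

theorem eQ : g 5 ∈ S'.Q := by
  obtain ⟨r, hr, hr', -, πr⟩ := L.invE P (N.hc L hz)
  obtain ⟨x, hx, rfl⟩ := S.π_eq hr' (N.m1 5) (πr.trans (N.π1 5).symm)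
  obtain ⟨m, hm, em⟩ := P.ex (S.cv x)
  have k : ∀ m < 256, ∃ n ∈ [0, 1, 8, 9, 32, 33, 40, 41, 64, 65, 72, 73, 96, 97, 104, 105],
    n < 256 ∧ n ^^^ m ∈ W8 := by decide +kernel
  obtain ⟨n, hn, h1, h2⟩ := k m hm
  have h3 := L.hA P (N.hc L hz) h2 (mul_mem (inv_mem (N.wQ n)) hx) (by
    rw [S.cv_mul (inv_mem (N.wQ n)) hx, S.cv_inv (N.wQ n), N.cvq n (by omega), Nat.mod_eq_of_lt h1,
      P.xor, em])
  have h4 : evL g (5 :: q1 n) ∈ S'.Q := by
    have := mul_mem hr (inv_mem h3)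
    rwa [mul_inv_rev, inv_inv, mul_assoc, mul_inv_cancel_left, ← evL_cons] at this
  have h5 : evL g (7 :: (5 :: q1 n) ++ [6]) ∈ S'.Q := by
    have := S'.conj_mem (N.mC1 L hz (l := 7) (by decide +kernel)) h4
    rwa [← N.good.inv 7, ← evL_cons, ← evL_singleton g (H6.invL I1 7), ← evL_append] at this
  have k2 : ∀ n ∈ [0, 1, 8, 9, 32, 33, 40, 41, 64, 65, 72, 73, 96, 97, 104, 105], n = 0 ∨
      (rel (cw (5 :: q1 n) (7 :: (5 :: q1 n) ++ [6])) = false ∧
        re (cw (5 :: q1 n) (7 :: (5 :: q1 n) ++ [6])) [1, 3] = false) := by decide +kernel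
  rcases k2 n hn with rfl | ⟨k3, k4⟩
  · exact evL_singleton g 5 ▸ h4
  exfalso
  have h6 := S'.comm h4 h5
  rw [zp_comm (S'.qz (mul_mem h5 h4)), ← mul_inv_eq_iff_eq_mul, mul_inv_rev, ← mul_assoc,
    ← N.evc] at h6
  generalize D.B _ _ = i at h6
  rcases z2c i with rfl | rfl
  · exact absurd (((N.orc _).1 h6).symm.trans k3) (by simp)
  · exact N.ne k4 (h6.trans hz)

theorem cand {r : G} (hr : r ∈ S'.Q) (hr' : r ∈ S.C) (ht : Commute r (g 8)) :
    ∃ i ∈ [[], [5]], ∃ n ∈ E8, r = evL g (i ++ q1 n) := by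
  have k : ∀ x ∈ S'.Q, x ∈ S.Q → Commute x (g 8) → ∃ n ∈ E8, x = evL g (q1 n) := by
    intro x hx hx' c
    obtain ⟨n, hn, rfl⟩ := N.enum x hx'
    have k1 : ∀ n < 512, (∀ m ∈ W8, q0 (n % 256 ^^^ m) = 0) → vw wT (n % 256) = n % 256 →
      n ∈ E8 := by decide +kernel
    have k2 : ∀ m ∈ W8, m < 256 := by decide
    refine ⟨n, k1 n hn (fun m hm => ?_) ?_, rfl⟩
    · have h1 := k2 m hm
      have := (S.sq_iff (mul_mem hx' (N.wQ m))).1 (L.A2 (mul_mem hx' (N.wQ m))
        (mul_mem hx (N.inA L hz (by omega) (by rwa [Nat.mod_eq_of_lt h1]))))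
      rwa [S.cv_mul hx' (N.wQ m), N.cvq n hn, N.cvq m (by omega), Nat.mod_eq_of_lt h1, ← P.xor,
        P.qv (xor_lt (Nat.mod_lt _ (by omega)) h1)] at this
    · have := D.mem_K.1 (S.mem_K_of (N.m1 8) hx' c.eq)
      rw [N.π1, N.cvq n hn, P.w (by decide)] at this
      exact P.eq (Spin.vw_lt (Nat.mod_lt _ (by omega)) _) (Nat.mod_lt _ (by omega)) this
  rcases L.Rcl P (N.hc L hz) hr hr' with h | ⟨i, hi, h⟩
  · obtain ⟨n, hn, e⟩ := k r hr ((S.π_ker hr').1 h) ht
    exact ⟨[], by simp, n, hn, e⟩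
  · have h1 := cm_cd (show S.π r * S.π (g 8) = S.π (g 8) * S.π r by
      rw [← S.π_mul hr' (N.m1 8), ht.eq, S.π_mul (N.m1 8) hr'])
    rw [h, N.π1, cd_aw, cd_aw] at h1
    have k1 : ∀ i < 7, TH.cm (pw (tl i)) (pw (wa 8)) = true → pw (tl i) = pw (wa 5) := by
      decide +kernel
    obtain ⟨x, hx, rfl⟩ := S.π_eq hr' (N.m1 5) (by rw [h, N.π1]; exact aw_eq (k1 i hi h1))
    obtain ⟨n, hn, e⟩ := k x ((mul_mem_cancel_left (N.eQ L hz)).1 hr) hx (by
      simpa using (N.cm1 (i := 5) (j := 8) (by decide +kernel)).inv_left.mul_left ht)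
    exact ⟨[5], by simp, n, hn, by rw [e]; rfl⟩

theorem v0 : ∃ v ∈ S'.Q, v * v = 1 ∧ ∀ l ∈ dm, v * g l * v⁻¹ = evL g (th l) := by
  have aQ : g 1 ∈ S'.Q := N.z ▸ L.symm.mem
  have sC := N.mC1 L hz (l := 6) (by decide +kernel)
  have tC := N.mC1 L hz (l := 8) (by decide +kernel)
  have fx : ∀ l, g l ∈ S'.C → D.r (S'.π (g l)) (S'.cv (g 1)) = S'.cv (g 1) := fun l h =>
    D.mem_K.1 (S'.mem_K_of h aQ (by rw [N.z]; exact (S.cz (N.m1 l)).symm))
  have p7 : g 6 ^ 7 = 1 := by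
    rw [← evL_singleton g 6, ← evL_rp]; exact N.r1 (by decide +kernel)
  have p3 : g 8 ^ 3 = 1 := by
    rw [← evL_singleton g 8, ← evL_rp]; exact N.r1 (by decide +kernel)
  have st : g 6 * g 8 = g 8 * g 6 * g 6 := by
    simpa only [evL_cons, evL_nil, mul_one, mul_assoc] using
      N.eq (u := [6, 8]) (w := [8, 6, 6]) (by decide +kernel)
  obtain ⟨w0, h0⟩ := D.exists_B (N.z ▸ L.symm.cv_ne : S'.cv (g 1) ≠ 0)
  obtain ⟨a1, a2⟩ := avg D (ρ := S'.π (g 6)) (n := 7) (by rw [← S'.π_pow sC, p7, S'.π_one]) rfl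
    (fx 6 sC) w0
  rw [D.B_comm w0, h0] at a2
  generalize (∑ i ∈ Finset.range 7, D.r (S'.π (g 6) ^ i) w0) = w1 at a1 a2
  obtain ⟨b1, b2⟩ := avg D (ρ := S'.π (g 8)) (n := 3) (by rw [← S'.π_pow tC, p3, S'.π_one]) rfl
    (fx 8 tC) w1
  have b3 : D.r (S'.π (g 6)) (∑ i ∈ Finset.range 3, D.r (S'.π (g 8) ^ i) w1) =
      ∑ i ∈ Finset.range 3, D.r (S'.π (g 8) ^ i) w1 := by
    rw [map_sum]
    refine Finset.sum_congr rfl fun i hi => ?_
    clear hi
    induction i with
    | zero => rw [pow_zero, D.r_one, a1]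
    | succ i ih =>
      rw [pow_succ', D.r_mul, ← D.r_mul, ← S'.π_mul sC tC, st, S'.π_mul (mul_mem tC sC) sC,
        S'.π_mul tC sC, D.r_mul, D.r_mul, ih, ih]
  rw [a2] at b2
  generalize (∑ i ∈ Finset.range 3, D.r (S'.π (g 8) ^ i) w1) = w2 at b1 b2 b3
  have qa : D.q (S'.cv (g 1)) = 0 := (S'.sq_iff aQ).1 (N.z ▸ S.z2)
  obtain ⟨w, c1, c2, c3, c4⟩ : ∃ w, D.r (S'.π (g 6)) w = w ∧ D.r (S'.π (g 8)) w = w ∧
      D.B w (S'.cv (g 1)) = 1 ∧ D.q w = 0 := by
    rcases z2c (D.q w2) with c | c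
    · exact ⟨w2, b3, b1, b2, c⟩
    · exact ⟨w2 + S'.cv (g 1), by rw [map_add, b3, fx 6 sC], by rw [map_add, b1, fx 8 tC],
        by rw [map_add, LinearMap.add_apply, b2, D.B_self, add_zero],
        by rw [D.q_add, c, qa, b2]; rfl⟩
  obtain ⟨v, hv, rfl⟩ := S'.cv_surj w
  have v2 := (S'.sq_iff hv).2 c4
  have cs := (S'.fixl sC hv (m := 4) (by
    rw [← pow_two, ← pow_mul, show 2 * 4 = 7 + 1 from rfl, pow_succ, p7, one_mul]) c1).symm
  have ct := (S'.fixl tC hv (m := 2) (by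
    rw [← pow_two, ← pow_mul, show 2 * 2 = 3 + 1 from rfl, pow_succ, p3, one_mul]) c2).symm
  have cS : Commute v (g 7) := (N.good.inv 6) ▸ cs.inv_right
  have cT : Commute v (g 9) := (N.good.inv 8) ▸ ct.inv_right
  have cc : ∀ x ∈ S'.C, Commute v x → ∀ y ∈ S'.Q, Commute v (y * (x * y * x⁻¹)) := by
    intro x hx c y hy
    refine (S'.comm_iff hv (mul_mem hy (S'.conj_mem hx hy))).2 ?_
    have := D.B_r (S'.π x) (S'.cv v) (S'.cv y)
    rw [D.mem_K.1 (S'.mem_K_of hx hv c.eq)] at this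
    rw [S'.cv_mul hy (S'.conj_mem hx hy), S'.cv_conj hx hy, map_add, this, z2add]
  have va : v * g 1 * v⁻¹ = g 3 := by
    rw [S'.comm hv aQ, c3, mul_assoc (g 1), show zp S'.z 1 = S'.z from rfl, S'.qz hv]
    have := N.eq (u := [1, 1, 3]) (w := [3]) (by decide +kernel)
    rw [evL_cons, ← hz, evL_singleton] at this
    rw [← this, ← mul_assoc, mul_inv_cancel_right]
  have ce : Commute v (g 5) := by
    have h1 := cc _ (N.mC1 L hz (l := 7) (by decide +kernel)) cS _ (N.eQ L hz)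
    have h2 := N.eq (u := [5]) (w := [6, 6, 6, 5, 7, 5, 6, 7, 7, 7]) (by decide +kernel)
    rw [← N.good.inv 7] at h1
    have h3 := (cs.mul_right (cs.mul_right (cs.mul_right (h1.mul_right
      (cS.mul_right (cS.mul_right cS))))))
    simp only [evL_cons, evL_nil, mul_one, mul_assoc] at h2 h3
    rw [h2]; exact h3
  have cf : Commute v (g 12) := by
    have h1 := cc _ sC cs _ (N.inA L hz (n := 20) (by omega) (by decide))
    have h2 := N.eq (u := [12]) (w := q1 20 ++ (6 :: q1 20 ++ [H6.invL I1 6])) (by decide +kernel)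
    rwa [← N.good.inv 6, ← evL_cons, ← evL_singleton g (H6.invL I1 6), ← evL_append, ← evL_append,
      ← show evL g [12] = _ from h2, evL_singleton] at h1
  refine ⟨v, hv, v2, ?_⟩
  simp only [dm, List.forall_mem_cons, List.not_mem_nil, false_imp_iff, implies_true, and_true]
  refine ⟨va.trans (evL_singleton _ _).symm, ?_, ?_⟩
  · rw [← va, inv_eq_of_mul_eq_one_right v2]
    exact (by simp only [← mul_assoc, v2, one_mul]; rw [mul_assoc, v2, mul_one] :
      _ = g 1).trans (evL_singleton _ _).symm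
  · exact ⟨ce.mul_inv_cancel.trans (evL_singleton _ _).symm,
      cs.mul_inv_cancel.trans (evL_singleton _ _).symm,
      cS.mul_inv_cancel.trans (evL_singleton _ _).symm,
      ct.mul_inv_cancel.trans (evL_singleton _ _).symm,
      cT.mul_inv_cancel.trans (evL_singleton _ _).symm,
      cf.mul_inv_cancel.trans (evL_singleton _ _).symm⟩

theorem step {v : G} (hv : v ∈ S'.Q) {d : List ℕ} (hd : ∀ l ∈ dm ++ d, v * g l * v⁻¹ = evL g (th l))
    {l : ℕ} {R : List (List ℕ)} {j : ℕ} (hj : j ∈ [8, 9])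
    (h : rel (cw [l] [1, 3]) = true ∧ rel (cw [l] [3]) = true ∧ re [8, l] [l, j] = true ∧
      (∀ r ∈ R, rel r = true ∧ ∀ x ∈ r, x = l ∨ x ∈ dm ++ d) ∧
      ∀ i ∈ [[], [5]], ∀ n ∈ E8, (R.all fun r => rel (r.flatMap fun x =>
        if x = l then i ++ q1 n ++ [l] else th x)) = true → re (i ++ q1 n ++ [l]) (th l) = true) :
    v * g l * v⁻¹ = evL g (th l) := by
  obtain ⟨h1, h2, h3, h4, h5⟩ := h
  have c8 : ∀ j ∈ [8, 9], Commute v (g j) := fun j hj => mul_inv_eq_iff_eq_mul.1 ((hd j (by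
    revert j; simp [dm])).trans (by
      simp only [List.mem_cons, List.not_mem_nil, or_false] at hj
      rcases hj with rfl | rfl <;> exact evL_singleton _ _))
  have e3 : v * g 3 * v⁻¹ = S.z := (hd 3 (by simp [dm])).trans ((evL_singleton _ _).trans N.z)
  obtain ⟨i, hi, n, hn, e⟩ := N.cand L hz (S'.nmem (N.mC1 L hz h1) hv)
    (mul_mem (mem_C.2 (by rw [← e3, conj_mul, conj_mul, (N.cm1 h2).eq])) (inv_mem (N.m1 l))) (by
      have e1 : g 8 * g l = g l * g j := by
        simpa only [evL_cons, evL_nil, mul_one] using N.eq h3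
      have e2 : (g l)⁻¹ * g 8 = g j * (g l)⁻¹ := by
        rw [inv_mul_eq_iff_eq_mul, ← mul_assoc, ← e1, mul_inv_cancel_right]
      change _ * _ = _ * _
      rw [mul_assoc, e2, mul_assoc _ v⁻¹, ← mul_assoc v⁻¹, (c8 j hj).inv_left.eq, ← mul_assoc,
        ← mul_assoc, mul_assoc v, ← e1, ← mul_assoc, (c8 8 (by simp)).eq]
      simp only [mul_assoc])
  rw [mul_inv_eq_iff_eq_mul, ← evL_singleton g l, ← evL_append, evL_singleton] at e
  rw [e]
  refine N.eq (h5 i hi n hn (List.all_eq_true.2 fun r hr => (N.orc _).1 ?_))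
  rw [← conj_w (v := v) fun x hx => ?_, N.r1 (h4 r hr).1, mul_one, mul_inv_cancel]
  split_ifs with c
  · rw [c, e]
  · exact hd x (((h4 r hr).2 x hx).resolve_left c)

omit L hz in
theorem exists_v (hq : S.QC') :
    ∃ v, v * v = 1 ∧ ∀ l ∈ dm ++ [13, 15, 10, 11], v * g l * v⁻¹ = evL g (th l) := by
  have e0 : evL g [1, 3] = evL g (q1 130) := N.eq (by decide +kernel)
  obtain ⟨γ, hγ⟩ := isConj_iff.1 (hq _ (e0 ▸ N.wQ 130) (by
    rw [← evL_append]; exact N.r1 (by decide +kernel))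
    (N.ne (w := []) (by decide +kernel))).symm
  have L := S.lg_of (e0 ▸ N.wQ 130) (by
    rw [e0, N.cvq 130 (by omega)]; exact P.ne (by omega) (by omega)) hγ
  have hz := (S.mv_z γ).trans hγ
  obtain ⟨v, hv, v2, h0⟩ := N.v0 L hz
  have vi := inv_eq_of_mul_eq_one_right v2
  have h1 := N.step L hz hv (d := []) (by simpa using h0) (l := 13) (j := 8)
    (R := [[1, 13, 1, 13], [12, 13, 1, 12, 13], [13, 7, 7, 7, 13, 6, 6, 13, 6]]) (by simp)
    (by decide +kernel)
  have h2 : v * g 15 * v⁻¹ = evL g (th 15) := by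
    rw [← evL_singleton g 15, ← show _ = evL g [15] from h1, vi]
    exact (by simp only [← mul_assoc, v2, one_mul]; rw [mul_assoc, v2, mul_one] :
      _ = g 13).trans (evL_singleton _ _).symm
  have h3 : ∀ l ∈ dm ++ [13, 15], v * g l * v⁻¹ = evL g (th l) := by
    simp only [List.forall_mem_append, List.forall_mem_cons]
    exact ⟨h0, h1, h2, by simp⟩
  have h4 := N.step L hz hv h3 (l := 10) (j := 9)
    (R := [[10, 10, 1, 3], [10, 6, 10, 6, 10, 6, 1, 3], [10, 15, 10, 15]]) (by simp)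
    (by decide +kernel)
  refine ⟨v, v2, ?_⟩
  simp only [List.forall_mem_append, List.forall_mem_cons]
  refine ⟨h0, h1, h2, h4, ?_, by simp⟩
  rw [show g 11 = _ from N.good.inv 10, ← conj_inv, h4, ← evL_invW N.good]; rfl

end Nm

end Cfsg.TH
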