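import Cfsg.Agent.H6.Cert
import Cfsg.Agent.TH.CR

set_option autoImplicit false
set_option maxRecDepth 100000
set_option Elab.async false

namespace Cfsg.H6.THC2

noncomputable def get (y : ℕ) : ℕ := (sel (nat_lit 1) y (nat_lit 0x6000000000000050000000000000000000000000000000000000000) (nat_lit 0x4000003000003030000030000030200000200000301000003000002010000010000030200000300000102000001000002010000020000010400000100000203000002000001030000000000020400000200000004000000000001030000010000000200000000000001000000000000))
noncomputable def gs (y : ℕ) : ℕ := (sel (nat_lit 2) y (sel (nat_lit 1) y (nat_lit 0x0) (nat_lit 0x0)) (sel (nat_lit 3) y (nat_lit 0x0) (sel (nat_lit 4) y (nat_lit 0x0) (nat_lit 0x8000006800000680000068000006800000680000068000006800000680000068000006800000680000068000006800000680000068000006800000680000068000006800000680000068000006800000680000068000005000020a0000207000020d8000004000020a0000209800000080000030000204000020100002038000002000020400002038000000800000080000010000102))))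
noncomputable def gd (_y : ℕ) : ℕ := (nat_lit 0x20a000020400002020000000)
noncomputable def gwh (y : ℕ) : ℕ := (sel (nat_lit 3) y (sel (nat_lit 1) y (nat_lit 0x502000001001000) (sel (nat_lit 2) y (nat_lit 0x40404000003000001) (nat_lit 0x4020402000004000002))) (sel (nat_lit 4) y (nat_lit 0x20202000003000003) (sel (nat_lit 5) y (nat_lit 0x2040204000003001002) (nat_lit 0x4))))
noncomputable def gc (y : ℕ) : ℕ := (sel (nat_lit 2) y (sel (nat_lit 1) y (nat_lit 0x20b000020c00002080000200) (nat_lit 0x20d0000209000020a0000201)) (sel (nat_lit 3) y (nat_lit 0x20e000020500002060000202) (nat_lit 0x20f000020700002030000204)))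

theorem b0 : allR (blk get gs (gwB gwh 6) gd 1413984905396736) 4 1 = true := by decide +kernel

theorem c0 : allR (clo get gc 4 576 1) 0 4 = true := by decide +kernel

def sg : List (List ℕ) := [[], [1], [2], [3], [4], [1], [2]]

def BL : List ℕ := [0x205, 0x40404, 0x4020402, 0x20202, 0x0]

def Sub : List (List ℕ) := [[1]]

theorem hA : prepA 67784688129939343067129679678865920 THR.R sg 1413984905396736 BL Sub get gd = true := by decide +kernel

theorem hw : allR (okW BL gwh) 0 6 = true := by decide +kernel

theorem hb : ∀ b, 4 ≤ b → b < 5 → blk get gs (gwB gwh 6) gd 1413984905396736 b = true :=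
  (allR_range b0 (by norm_num : 4 + 1 = 5))

def X : List (List ℕ) := [[1], [3]]

theorem hC : prepC sg 1413984905396736 X 4 4 1 = true := by decide +kernel

theorem hc : ∀ t, 0 ≤ t → t < 4 * 1 → clo get gc 4 576 1 t = true :=
  (allR_range c0 (by norm_num : 0 + 4 = 4))

theorem cover {G : Type*} [Group G] {ev : ℕ → G} (hev : Good ev 67784688129939343067129679678865920) (hR : Rels ev THR.R) :
    Cover (gen ev Sub) (gen ev X) 4 :=
  cert_cover hev hR hA hC hw hb (by norm_num) hc


end Cfsg.H6.THC2
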