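import Cfsg.Agent.TH.THC1
import Cfsg.Agent.TH.THC2
import Cfsg.Agent.TH.THC3
import Cfsg.Agent.TH.THC4
import Cfsg.Agent.TH.THC5
import Cfsg.Agent.TH.THC6
import Cfsg.Agent.TH.THC7

/-! Two general lemmas: normal forms and the Carmichael presentation. -/

set_option autoImplicit false
set_option linter.unusedSectionVars false

namespace Cfsg.TH

open Subgroup Cfsg.H6

theorem nf {H : Type*} [Group H] (Z : Subgroup H) (L : List H)
    (hc : ∀ a ∈ L, ∀ z ∈ Z, z * a = a * z) (hsq : ∀ a ∈ L, a * a ∈ Z)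
    (hcm : ∀ a ∈ L, ∀ b ∈ L, ∃ z ∈ Z, a * b = b * a * z) {x : H}
    (hx : x ∈ closure ((Z : Set H) ∪ {a | a ∈ L})) :
    ∃ L' : List H, L'.Sublist L ∧ ∃ z ∈ Z, x = L'.prod * z := by
  have k1 : ∀ a ∈ L, ∀ T : List H, (∀ b ∈ T, b ∈ L) → ∃ z ∈ Z, T.prod * a = a * T.prod * z := by
    intro a ha T
    induction T with
    | nil => exact fun _ => ⟨1, one_mem _, by simp⟩
    | cons b T ih =>
      intro hT
      obtain ⟨z, hz, e⟩ := ih fun c hc => hT c (List.mem_cons_of_mem _ hc)
      obtain ⟨z', hz', e'⟩ := hcm b (hT b List.mem_cons_self) a ha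
      have c : z' * T.prod = T.prod * z' := (Commute.list_prod_right T z' fun c h =>
        hc c (hT c (List.mem_cons_of_mem _ h)) z' hz').eq
      refine ⟨z' * z, mul_mem hz' hz, ?_⟩
      rw [List.prod_cons, mul_assoc, e, ← mul_assoc, ← mul_assoc, e', mul_assoc _ z', c]
      simp only [mul_assoc]
  have k2 : ∀ M : List H, (∀ b ∈ M, b ∈ L) → ∀ a ∈ M, ∀ T : List H, T.Sublist M →
      ∃ T' : List H, T'.Sublist M ∧ ∃ z ∈ Z, T.prod * a = T'.prod * z := by
    intro M
    induction M with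
    | nil => intro _ a ha; simp at ha
    | cons h M ih =>
      intro hM a ha T hT
      have hM' := fun c hc => hM c (List.mem_cons_of_mem h hc)
      have hh := hM h List.mem_cons_self
      rcases List.mem_cons.1 ha with rfl | ha
      · rcases List.sublist_cons_iff.1 hT with hT | ⟨T₁, e₁, hT₁⟩
        · obtain ⟨z, hz, e⟩ := k1 a hh T fun c hc => hM' c (hT.subset hc)
          exact ⟨a :: T, hT.cons_cons a, z, hz, e⟩
        · subst e₁
          clear hT
          rename' T₁ => T, hT₁ => hT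
          obtain ⟨z, hz, e⟩ := k1 a hh T fun c hc => hM' c (hT.subset hc)
          have c : a * a * T.prod = T.prod * (a * a) := (Commute.list_prod_right T _ fun c h =>
            hc c (hM' c (hT.subset h)) _ (hsq a hh)).eq
          refine ⟨T, hT.cons a, a * a * z, mul_mem (hsq a hh) hz, ?_⟩
          rw [List.prod_cons, mul_assoc, e, ← mul_assoc, ← mul_assoc, c, mul_assoc]
      · rcases List.sublist_cons_iff.1 hT with hT | ⟨T₁, e₁, hT₁⟩
        · obtain ⟨T', h1, h2⟩ := ih hM' a ha T hT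
          exact ⟨T', h1.cons h, h2⟩
        · subst e₁
          clear hT
          rename' T₁ => T, hT₁ => hT
          obtain ⟨T', h1, z, hz, e⟩ := ih hM' a ha T hT
          exact ⟨h :: T', h1.cons_cons h, z, hz, by
            rw [List.prod_cons, List.prod_cons, mul_assoc, e, mul_assoc]⟩
  have k3 : ∀ x y, y ∈ (Z : Set H) ∪ {a | a ∈ L} → (∃ L' : List H, L'.Sublist L ∧ ∃ z ∈ Z,
      x = L'.prod * z) → ∃ L' : List H, L'.Sublist L ∧ ∃ z ∈ Z, x * y = L'.prod * z := by
    rintro _ y (hy | hy) ⟨T, hT, z, hz, rfl⟩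
    · exact ⟨T, hT, _, mul_mem hz hy, mul_assoc _ _ _⟩
    · obtain ⟨T', h1, z', hz', e⟩ := k2 L (fun _ h => h) y hy T hT
      exact ⟨T', h1, _, mul_mem hz' hz, by rw [mul_assoc, hc y hy z hz, ← mul_assoc, e, mul_assoc]⟩
  induction hx using closure_induction_right with
  | one => exact ⟨[], List.nil_sublist _, 1, one_mem _, by simp⟩
  | mul_right x _ y hy ih => exact k3 x y hy ih
  | mul_inv_cancel x _ y hy ih =>
    rcases hy with hy | hy
    · exact k3 x _ (Or.inl (inv_mem hy)) ih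
    · have := k3 _ _ (Or.inl (inv_mem (hsq y hy))) (k3 x y (Or.inr hy) ih)
      simpa [mul_assoc] using this

theorem carm {K : Type*} [Group K] (x : ℕ → K) (h3 : ∀ i, 1 ≤ i → i ≤ 7 → x i * x i * x i = 1)
    (h2 : ∀ i, 1 ≤ i → ∀ j ≤ 7, i < j → x i * x j * (x i * x j) = 1) {H : Subgroup K}
    (hH : H ≤ closure {y | ∃ i, 1 ≤ i ∧ i ≤ 7 ∧ x i = y}) : UB H 181440 := by
  let ev : ℕ → K := fun l => if l = 0 ∨ 15 ≤ l then 1 else if l % 2 = 1 then x ((l + 1) / 2)
    else (x (l / 2))⁻¹
  have hev : Good ev 67784688129939343067129679678865920 := ⟨by simp [ev], fun l => by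
    by_cases h : l < 15
    · interval_cases l <;> simp [ev, H6.invL]
    · have : H6.invL 67784688129939343067129679678865920 l = 0 := by
        change (_ >>> (8 * l)) &&& 255 = 0
        rw [Nat.shiftRight_eq_div_pow, Nat.div_eq_of_lt, Nat.zero_and]
        exact lt_of_lt_of_le (by norm_num) (Nat.pow_le_pow_right (by omega) (by omega : 120 ≤ _))
      simp [ev, this, not_lt.1 h]⟩
  have hR : Rels ev THR.R := by
    have k : ∀ r ∈ THR.R, (∃ i < 8, 1 ≤ i ∧ r = [2 * i - 1, 2 * i - 1, 2 * i - 1]) ∨ ∃ i < 8, ∃ j < 8,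
      1 ≤ i ∧ i < j ∧ r = [2 * i - 1, 2 * j - 1, 2 * i - 1, 2 * j - 1] := by decide
    have e : ∀ i < 8, 1 ≤ i → ev (2 * i - 1) = x i := fun i h1 h2 => by
      simp only [ev]
      rw [if_neg (by omega), if_pos (by omega)]
      congr 1; omega
    intro r hr
    rcases k r hr with ⟨i, h1, h2, rfl⟩ | ⟨i, h1, j, h1', h2', h3', rfl⟩
    · simpa [evL_cons, evL_nil, e i h1 h2, mul_assoc] using h3 i h2 (by omega)
    · simpa [evL_cons, evL_nil, e i h1 h2', e j h1' (by omega), mul_assoc] using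
        h2 i h2' j (by omega) h3'
  have ub : UB (gen ev THC7.X) 181440 :=
    ((((((UB.bot.cover (THC1.cover hev hR)).cover (THC2.cover hev hR)).cover
      (THC3.cover hev hR)).cover (THC4.cover hev hR)).cover (THC5.cover hev hR)).cover
      (THC6.cover hev hR)).cover (THC7.cover hev hR)
  refine ub.mono (hH.trans ((closure_le _).2 ?_))
  rintro _ ⟨i, h1, h2, rfl⟩
  have : x i = evL ev [2 * i - 1] := by
    rw [evL_singleton]
    simp only [ev]
    rw [if_neg (by omega), if_pos (by omega)]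
    congr 1; omega
  rw [this]
  exact evL_mem_gen ev (by interval_cases i <;> decide)

end Cfsg.TH
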