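import Cfsg.Agent.TH.ModA
import Cfsg.Agent.TH.ModB

/-! The graph of the extraspecial group in the matrix model. -/

set_option autoImplicit false
set_option linter.unusedSectionVars false
set_option maxRecDepth 100000

namespace Cfsg.TH

open Subgroup Cfsg.H6

variable {V : Type*} [AddCommGroup V] [Module (ZMod 2) V] {D : VD V} {G : Type*} [Group G]

def qw (n : ℕ) : List ℕ := [8, 9, 10, 11, 12, 13, 14, 15, 16].filter fun l => n.testBit (l - 8)
def lc (l : ℕ) : ℕ := if 8 ≤ l ∧ l ≤ 15 then 2 ^ (l - 8) else 0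
def xw (w : List ℕ) : ℕ := w.foldr (fun l c => lc l ^^^ c) 0
def L8 : List ℕ := [8, 9, 10, 11, 12, 13, 14, 15]

theorem qw_mem {n l : ℕ} (h : l ∈ qw n) : 8 ≤ l ∧ l ≤ 16 := by
  have := List.mem_of_mem_filter h
  simp only [List.mem_cons, List.not_mem_nil, or_false] at this
  omega

section
variable {U : Type*} [Group U] {up : ℕ → U} (O : Orc up)
include O

theorem Orc.eq {u w : List ℕ} (h : pe (mwd cl0 u) (mwd cl0 w) = true) : evL up u = evL up w :=
  (O u w).2 h

theorem Orc.one {l : ℕ} (h : l = 0 ∨ 17 ≤ l) : up l = 1 := by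
  rw [← evL_singleton up, ← evL_nil up]
  rcases h with rfl | h
  · exact O.eq (by decide +kernel)
  · refine O.eq (pe_iff.2 (Or.inl ?_))
    rw [mwd_cons, mwd_nil, dc_mm, cl0, List.getD_eq_default _ _ (by rw [len_cl0L]; omega), dc_one,
      mul_one]

theorem Orc.two {a b c d : ℕ} (h : pe (mwd cl0 [a, b]) (mwd cl0 [c, d]) = true) :
    up a * up b = up c * up d := by
  simpa only [evL_cons, evL_nil, mul_one] using O.eq h

theorem Orc.z2 : up 16 * up 16 = 1 := by
  rw [O.two (c := 0) (d := 0) (by decide +kernel), O.one (Or.inl rfl), mul_one]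

theorem Orc.zc {l : ℕ} (h : l < 17) : up l * up 16 = up 16 * up l :=
  O.two ((by decide +kernel : ∀ l < 17, pe (mwd cl0 [l, 16]) (mwd cl0 [16, l]) = true) l h)

end

theorem evL_pr {U : Type*} [Group U] (e : ℕ → G) (up : ℕ → U) (w : List ℕ) :
    evL (fun l => (e l, up l)) w = (evL e w, evL up w) :=
  Prod.ext (map_evL (MonoidHom.fst G U) _ w) (map_evL (MonoidHom.snd G U) _ w)

/-- Letters for the extraspecial group. -/
structure Qb (P : Spin D) (S : Ch D G) (e : ℕ → G) : Prop where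
  mem : ∀ l, e l ∈ S.Q
  cv : ∀ l, S.cv (e l) = P.v (lc l)
  z : e 16 = S.z
  one : ∀ l, l < 8 ∨ 17 ≤ l → e l = 1

theorem exists_qb (P : Spin D) (S : Ch D G) : ∃ e, Qb P S e := by
  choose f hf ef using fun l => S.cv_surj (P.v (lc l))
  refine ⟨fun l => if l < 8 ∨ 17 ≤ l then 1 else if l = 16 then S.z else f l, fun l => ?_,
    fun l => ?_, rfl, fun l h => if_pos h⟩
  · split_ifs
    exacts [one_mem _, S.zQ, hf l]
  · split_ifs with h1 h2
    · rw [S.cv_one, lc, if_neg (by omega), P.zero]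
    · rw [S.cv_z, lc, if_neg (by omega), P.zero]
    · exact ef l

variable {U : Type*} [Group U] {up : ℕ → U}

/-- The graph. -/
def NN (S : Ch D G) (e : ℕ → G) (up : ℕ → U) : Subgroup (G × U) :=
  closure ((zpowers (S.z, up 16) : Set (G × U)) ∪ {a | a ∈ L8.map fun l => (e l, up l)})

theorem zN (S : Ch D G) (e : ℕ → G) (up : ℕ → U) : (S.z, up 16) ∈ NN S e up :=
  subset_closure (Or.inl (mem_zpowers _))

theorem mem_Z (S : Ch D G) (O : Orc up) {y : G × U} (h : y ∈ zpowers (S.z, up 16)) :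
    y = 1 ∨ y = (S.z, up 16) := by
  have h2 : (S.z, up 16) * (S.z, up 16) = 1 := Prod.ext S.z2 O.z2
  obtain ⟨k, rfl⟩ := mem_zpowers_iff.1 h
  rw [zpow_eq_zpow_emod k (n := 2) (by rw [zpow_two]; exact h2)]
  rcases Int.emod_two_eq_zero_or_one k with e | e <;> rw [e]
  exacts [Or.inl (zpow_zero _), Or.inr (zpow_one _)]

namespace Qb

variable {P : Spin D} {S : Ch D G} {e : ℕ → G} (E : Qb P S e)
include E

theorem wQ (w : List ℕ) : evL e w ∈ S.Q := evL_mem_of_letters fun l _ => E.mem l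

theorem cvw (w : List ℕ) : S.cv (evL e w) = P.v (xw w) := by
  induction w with
  | nil => exact S.cv_one.trans P.zero.symm
  | cons l w ih => rw [evL_cons, S.cv_mul (E.mem l) (E.wQ w), ih, E.cv, ← P.xor]; rfl

theorem cvq {n : ℕ} (h : n < 512) : S.cv (evL e (qw n)) = P.v (n % 256) := by
  rw [E.cvw, (by decide +kernel : ∀ n < 512, xw (qw n) = n % 256) n h]

theorem enum {x : G} (hx : x ∈ S.Q) : ∃ n < 512, x = evL e (qw n) := by
  obtain ⟨m, hm, em⟩ := P.ex (S.cv x)
  rcases S.cv_eq hx (E.wQ (qw m)) (by rw [E.cvq (by omega), Nat.mod_eq_of_lt hm, em]) with h | h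
  · exact ⟨m, by omega, h⟩
  · exact ⟨m + 256, by omega, by
      rw [(by decide +kernel : ∀ m < 256, qw (m + 256) = qw m ++ [16]) m hm, evL_append,
        evL_singleton, E.z, h]⟩

variable (O : Orc up)
include O

theorem let_mem {l : ℕ} (h : l = 0 ∨ 8 ≤ l) : (e l, up l) ∈ NN S e up := by
  by_cases h1 : l = 0 ∨ 17 ≤ l
  · rw [E.one l (by omega), O.one h1]; exact one_mem _
  by_cases h2 : l = 16
  · rw [h2, E.z]; exact zN S e up
  exact subset_closure (Or.inr (List.mem_map.2 ⟨l, by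
    simp only [L8, List.mem_cons, List.not_mem_nil, or_false]; omega, rfl⟩))

theorem qw_in (n : ℕ) : (evL e (qw n), evL up (qw n)) ∈ NN S e up := by
  rw [← evL_pr]
  exact evL_mem_of_letters fun l h => E.let_mem O (Or.inr (qw_mem h).1)

theorem form {h : G × U} (hh : h ∈ NN S e up) :
    ∃ w ∈ L8.sublists, h = (evL e w, evL up w) ∨ h = (evL e w * S.z, evL up (w ++ [16])) := by
  have hl : ∀ l ∈ L8, l < 17 ∧ lc l < 256 := by decide
  refine (nf (zpowers (S.z, up 16)) _ ?_ ?_ ?_ hh).elim fun L' ⟨h1, y, hy, h2⟩ => ?_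
  rotate_right
  · obtain ⟨w, hw, rfl⟩ := List.sublist_map_iff.1 h1
    refine ⟨w, List.mem_sublists.2 hw, ?_⟩
    have := evL_pr e up w
    rw [evL] at this
    rcases mem_Z S O hy with rfl | rfl
    · exact Or.inl (by rw [h2, this, mul_one])
    · exact Or.inr (by rw [h2, this, evL_append, evL_singleton]; rfl)
  · intro a ha y hy
    obtain ⟨l, hl', rfl⟩ := List.mem_map.1 ha
    rcases mem_Z S O hy with rfl | rfl
    · rw [one_mul, mul_one]
    · exact Prod.ext (S.qz (E.mem l)).symm (O.zc (hl l hl').1).symm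
  · intro a ha
    obtain ⟨l, hl', rfl⟩ := List.mem_map.1 ha
    have k : ∀ l ∈ L8, q0 (lc l) = 0 ∧ pe (mwd cl0 [l, l]) (mwd cl0 [0, 0]) = true := by
      decide +kernel
    have : (e l, up l) * (e l, up l) = 1 := Prod.ext ((S.sq_iff (E.mem l)).2 (by
      rw [E.cv, P.qv (hl l hl').2, (k l hl').1])) ((O.two (k l hl').2).trans (by
        rw [O.one (Or.inl rfl)]; exact mul_one _))
    rw [this]; exact one_mem _
  · intro a ha b hb
    obtain ⟨l, hl', rfl⟩ := List.mem_map.1 ha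
    obtain ⟨j, hj, rfl⟩ := List.mem_map.1 hb
    have k : ∀ l ∈ L8, ∀ j ∈ L8, pe (mwd cl0 [l, j])
      (mwd cl0 (if B0 (lc l) (lc j) = 0 then [j, l] else [j, l, 16])) = true := by decide +kernel
    have k1 := O.eq (k l hl' j hj)
    have k2 := S.comm (E.mem l) (E.mem j)
    rw [E.cv, E.cv, P.Bv (hl l hl').2 (hl j hj).2] at k2
    rcases z2c (B0 (lc l) (lc j)) with c | c <;> rw [c] at k1 k2
    · exact ⟨1, one_mem _, Prod.ext k2 (by simpa [evL_cons, evL_nil] using k1)⟩
    · exact ⟨_, mem_zpowers _, Prod.ext k2 (by simpa [evL_cons, evL_nil, mul_assoc] using k1)⟩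

theorem fstQ {h : G × U} (hh : h ∈ NN S e up) : h.1 ∈ S.Q := by
  obtain ⟨w, -, rfl | rfl⟩ := E.form O hh
  exacts [E.wQ w, mul_mem (E.wQ w) S.zQ]

theorem snd_one {h : G × U} (hh : h ∈ NN S e up) (h1 : h.1 = 1) : h.2 = 1 := by
  obtain ⟨w, hw, e1⟩ := E.form O hh
  have k : ∀ w ∈ L8.sublists, xw w < 256 ∧ (xw w = 0 → w = []) := by decide +kernel
  have h0 : S.cv (evL e w) = 0 := by
    rcases e1 with rfl | rfl
    · exact (congrArg S.cv h1).trans S.cv_one
    · rw [← S.cv_mz (E.wQ w)]; exact (congrArg S.cv h1).trans S.cv_one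
  obtain rfl := (k w hw).2 (P.eq (k w hw).1 (by omega) (by rw [← E.cvw, h0, P.zero]))
  rcases e1 with rfl | rfl
  · rfl
  · exact absurd ((one_mul _).symm.trans h1) S.z1

omit E O in
theorem sub_ne : ∀ w ∈ L8.sublists, (!pe (mwd cl0 w) (mwd cl0 []) || w.isEmpty) = true ∧
    pe (mwd cl0 (w ++ [16])) (mwd cl0 []) = false := by decide +kernel

theorem fst_one {h : G × U} (hh : h ∈ NN S e up) (h1 : h.2 = 1) : h.1 = 1 := by
  obtain ⟨w, hw, e1⟩ := E.form O hh
  obtain ⟨k1, k2⟩ := sub_ne w hw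
  rcases e1 with e1 | e1 <;> rw [e1] at h1 ⊢
  · have k3 : evL up w = evL up [] := h1
    rw [(O _ _).1 k3] at k1
    rw [List.isEmpty_iff.1 (by simpa using k1 : w.isEmpty = true)]; rfl
  · have k3 : evL up (w ++ [16]) = evL up [] := h1
    rw [(O _ _).1 k3] at k2
    exact absurd k2 (by simp)

theorem nc {f : G × U} (hf : f ∈ normalizer (NN S e up : Set (G × U))) (hC : f.1 ∈ S.C)
    (h1 : f.2 = 1) : f.1 = 1 ∨ f.1 = S.z := by
  refine S.cent_Q hC fun x hx => ?_
  obtain ⟨n, -, rfl⟩ := E.enum hx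
  have := E.fst_one O (mul_mem ((mem_normalizer_iff.1 hf _).1 (E.qw_in O n))
    (inv_mem (E.qw_in O n))) (by simp [h1])
  simp only [Prod.fst_mul, Prod.fst_inv] at this
  rwa [mul_inv_eq_one, mul_inv_eq_iff_eq_mul] at this

variable [Finite G] [Finite U]

theorem norm {l : ℕ} (h1 : 1 ≤ l) (h7 : l ≤ 7) {X : G} (hX : X ∈ S.C)
    (h : ∀ j ∈ L8, X * e j * X⁻¹ = evL e (qw (mv8 (MM l) (lc j)))) :
    (X, up l) ∈ normalizer (NN S e up : Set (G × U)) := by
  refine mem_normalizer_fintype fun n (hn : n ∈ NN S e up) => ?_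
  have k : ∀ l < 8, 1 ≤ l → ∀ j ∈ L8,
      pe (mwd cl0 [l, j]) (mwd cl0 (qw (mv8 (MM l) (lc j)) ++ [l])) = true := by decide +kernel
  change _ ∈ NN S e up
  induction hn using closure_induction with
  | mem a ha =>
    rcases ha with ha | ha
    · rcases mem_Z S O ha with rfl | rfl
      · rw [mul_one, mul_inv_cancel]; exact one_mem _
      · convert zN S e up using 1
        exact Prod.ext (S.cjz hX) (mul_inv_eq_iff_eq_mul.2 (O.zc (by omega)))
    · obtain ⟨j, hj, rfl⟩ := List.mem_map.1 ha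
      have := O.eq (k l (by omega) h1 j hj)
      rw [evL_append, evL_singleton, evL_cons, evL_singleton, ← mul_inv_eq_iff_eq_mul] at this
      convert E.qw_in O (mv8 (MM l) (lc j)) using 1
      exact Prod.ext (h j hj) this
  | one => rw [mul_one, mul_inv_cancel]; exact one_mem _
  | mul a b _ _ ha hb => rw [← conj_mul]; exact mul_mem ha hb
  | inv a _ ha => rw [← conj_inv]; exact inv_mem ha

theorem exists_X {l : ℕ} (h1 : 1 ≤ l) (h7 : l ≤ 7) : ∃ X ∈ S.C, S.π X = xa l ∧
    X * X * X = 1 ∧ (X, up l) ∈ normalizer (NN S e up : Set (G × U)) := by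
  have k : ∀ i ≤ 8, ∃ X ∈ S.C, S.π X = xa l ∧ ∀ j ∈ L8, j < 8 + i →
      X * e j * X⁻¹ = evL e (qw (mv8 (MM l) (lc j))) := by
    intro i
    induction i with
    | zero =>
      obtain ⟨X, hX, eX⟩ := S.π_surj (xa l)
      exact fun _ => ⟨X, hX, eX, fun j hj h => absurd h ((by decide : ∀ j ∈ L8, ¬ j < 8) j hj)⟩
    | succ i ih =>
      intro hi
      obtain ⟨X, hX, eX, h⟩ := ih (by omega)
      rcases S.cv_eq (S.conj_mem hX (E.mem (8 + i))) (E.wQ (qw (mv8 (MM l) (lc (8 + i))))) (by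
        rw [S.cv_conj hX (E.mem _), eX, E.cv, E.cvq ((mv8_lt _ _).trans (by omega)),
          Nat.mod_eq_of_lt (mv8_lt _ _)]
        exact P.act l h1 h7 _) with h2 | h2
      · exact ⟨X, hX, eX, fun j hj hj' => if c : j = 8 + i then c ▸ h2 else h j hj (by omega)⟩
      · refine ⟨X * e (15 - i), mul_mem hX (S.QC (E.mem _)), by rw [S.π_mq hX (E.mem _), eX],
          fun j hj hj' => ?_⟩
        have k : ∀ i < 8, ∀ j ∈ L8, lc (15 - i) < 256 ∧ lc j < 256 ∧
          B0 (lc (15 - i)) (lc j) = if j = 8 + i then 1 else 0 := by decide +kernel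
        obtain ⟨k1, k2, k3⟩ := k i (by omega) j hj
        have := S.comm (E.mem (15 - i)) (E.mem j)
        rw [E.cv, E.cv, P.Bv k1 k2, k3, mul_assoc, zp_comm (S.qz (E.mem _))] at this
        have e1 : X * e (15 - i) * e j * (X * e (15 - i))⁻¹ =
            X * e j * X⁻¹ * zp S.z (if j = 8 + i then 1 else 0) := by
          rw [mul_assoc X, this, mul_assoc _ X⁻¹, zp_comm (S.cz (inv_mem hX))]; group
        rw [e1]
        split_ifs with c
        · rw [c, h2, mul_assoc]; exact (congrArg _ S.z2).trans (mul_one _)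
        · exact (mul_one _).trans (h j hj (by omega))
  obtain ⟨X, hX, eX, h⟩ := k 8 le_rfl
  have h' := fun j hj => h j hj ((by decide : ∀ j ∈ L8, j < 8 + 8) j hj)
  have hN := E.norm O h1 h7 hX h'
  have u3 : up l * up l * up l = 1 := by
    have := O.eq ((by decide +kernel : ∀ l < 8, pe (mwd cl0 [l, l, l]) (mwd cl0 []) = true) l
      (by omega))
    simpa only [evL_cons, evL_nil, mul_one, mul_assoc] using this
  rcases E.nc O (mul_mem (mul_mem hN hN) hN) (mul_mem (mul_mem hX hX) hX) u3 with h3 | h3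
  · exact ⟨X, hX, eX, h3, hN⟩
  · have c : Commute X S.z := S.cz hX
    refine ⟨X * S.z, mul_mem hX S.zC, by rw [S.π_mq hX S.zQ, eX], ?_, E.norm O h1 h7
      (mul_mem hX S.zC) fun j hj => ?_⟩
    · have h4 : X ^ 3 = S.z := by rw [pow_three, ← mul_assoc]; exact h3
      rw [mul_assoc, ← pow_three, c.mul_pow, h4, pow_three, S.z2, mul_one, S.z2]
    · rw [← h' j hj, mul_assoc X, ← S.qz (E.mem j)]; group

end Qb

end Cfsg.TH
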