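import Cfsg.Agent.TH.ModC

/-! The centralizer is the matrix model. -/

set_option autoImplicit false
set_option linter.unusedSectionVars false
set_option maxRecDepth 100000

namespace Cfsg.TH

open Subgroup Cfsg.H6

variable {V : Type*} [AddCommGroup V] [Module (ZMod 2) V] {D : VD V} {G : Type*} [Group G]

/-- The model of the centralizer. -/
structure Md (P : Spin D) (S : Ch D G) (ev : ℕ → G) : Prop where
  mem : ∀ l, ev l ∈ S.C
  π : ∀ l, S.π (ev l) = if l < 8 then xa l else 1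
  z : ev 16 = S.z
  cvq : ∀ n < 512, S.cv (evL ev (qw n)) = P.v (n % 256)
  wQ : ∀ n, evL ev (qw n) ∈ S.Q
  enum : ∀ x ∈ S.Q, ∃ n < 512, x = evL ev (qw n)
  orc : Orc ev

theorem carL_spec : ∀ i < 8, 1 ≤ i → ∀ j < 8, i < j → ∃ r ∈ carL, r.1 = i ∧ r.2.1 = j := by
  decide +kernel

theorem carL_ok : ∀ r ∈ carL,
    pe (mwd cl0 (r.2.2.1 ++ [1])) (mwd cl0 (r.1 :: qw r.2.2.2.1 ++ r.2.2.1)) = true ∧
    pe (mwd cl0 (r.2.2.1 ++ [2])) (mwd cl0 (r.2.1 :: qw r.2.2.2.2 ++ r.2.2.1)) = true := by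
  decide +kernel

theorem xa_zero : xa 0 = 1 := by decide +kernel

theorem exists_md [Finite G] (P : Spin D) (S : Ch D G) (hq : S.QC') : ∃ ev, Md P S ev := by
  obtain ⟨U, _, _, up, O⟩ := exists_orc
  obtain ⟨e, E⟩ := exists_qb P S
  choose! X hX πX X3 hN using fun l (h1 : 1 ≤ l) (h7 : l ≤ 7) => E.exists_X O h1 h7
  obtain ⟨ev, e1, e2⟩ : ∃ ev : ℕ → G, (∀ l, 1 ≤ l → l ≤ 7 → ev l = X l) ∧
      ∀ l, l = 0 ∨ 8 ≤ l → ev l = e l :=
    ⟨fun l => if 1 ≤ l ∧ l ≤ 7 then X l else e l, fun l h1 h2 => if_pos ⟨h1, h2⟩,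
      fun l h => if_neg (by omega)⟩
  have cs : ∀ l, (1 ≤ l ∧ l ≤ 7) ∨ l = 0 ∨ 8 ≤ l := fun l => by omega
  have evC : ∀ l, ev l ∈ S.C := fun l => by
    rcases cs l with h | h
    · rw [e1 l h.1 h.2]; exact hX l h.1 h.2
    · rw [e2 l h]; exact S.QC (E.mem l)
  have evπ : ∀ l, S.π (ev l) = if l < 8 then xa l else 1 := fun l => by
    rcases cs l with h | h
    · rw [e1 l h.1 h.2, πX l h.1 h.2, if_pos (by omega)]
    · rw [e2 l h, S.π_Q (E.mem l)]
      rcases h with rfl | h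
      · exact xa_zero.symm
      · rw [if_neg (by omega)]
  have eq : ∀ n, evL ev (qw n) = evL e (qw n) := fun n =>
    evL_congr fun l h => e2 l (Or.inr (qw_mem h).1)
  refine ⟨ev, evC, evπ, (e2 16 (by omega)).trans E.z, fun n h => eq n ▸ E.cvq h,
    fun n => eq n ▸ E.wQ _, fun x hx => (E.enum hx).imp fun n h => ⟨h.1, (eq n).symm ▸ h.2⟩, ?_⟩
  let N := NN S e up
  let M : Subgroup (G × U) := normalizer (N : Set (G × U)) ⊓ S.C.prod ⊤
  have : (N.subgroupOf M).Normal := normal_subgroupOf_of_le_normalizer inf_le_left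
  let κ := QuotientGroup.mk' (N.subgroupOf M)
  let p1 : M →* G := (MonoidHom.fst G U).comp M.subtype
  let p2 : M →* U := (MonoidHom.snd G U).comp M.subtype
  have pC : ∀ a : M, p1 a ∈ S.C := fun a => a.2.2.1
  have κ1 : ∀ a : M, κ a = 1 ↔ a.1 ∈ N := fun a => QuotientGroup.eq_one_iff a
  have k2 : ∀ a : M, κ a = 1 → p2 a = 1 → p1 a = 1 := fun a h h' => E.fst_one O ((κ1 a).1 h) h'
  have k3 : ∀ a : M, κ a = 1 → p1 a = 1 → p2 a = 1 := fun a h h' => E.snd_one O ((κ1 a).1 h) h'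
  have k4 : ∀ a b : M, p2 a = p2 b → p1 a = p1 b ∨ p1 a = S.z * p1 b := fun a b h => by
    have := E.nc O (a * b⁻¹).2.1 (pC (a * b⁻¹)) (show p2 (a * b⁻¹) = 1 by rw [map_mul, map_inv, h]; simp)
    change p1 (a * b⁻¹) = 1 ∨ p1 (a * b⁻¹) = _ at this
    rwa [map_mul, map_inv, mul_inv_eq_one, mul_inv_eq_iff_eq_mul] at this
  have k5 : ∀ a b : M, p1 a = p1 b → p2 a = p2 b → a = b := fun a b h h' =>
    Subtype.ext (Prod.ext h h')
  have NM : N ≤ M := fun a ha => ⟨le_normalizer ha, S.QC (E.fstQ O ha), trivial⟩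
  let h : ℕ → M := fun l => ⟨(ev l, up l), by
    rcases cs l with c | c
    · exact ⟨by rw [e1 l c.1 c.2]; exact hN l c.1 c.2, evC l, trivial⟩
    · rw [e2 l c]; exact NM (E.let_mem O c)⟩
  have h1 : ∀ w, p1 (evL h w) = evL ev w := fun w => map_evL p1 h w
  have h2 : ∀ w, p2 (evL h w) = evL up w := fun w => map_evL p2 h w
  have hκ : ∀ l, l = 0 ∨ 8 ≤ l → κ (h l) = 1 := fun l c => (κ1 _).2 (by
    change (ev l, up l) ∈ N; rw [e2 l c]; exact E.let_mem O c)
  have hq1 : ∀ n, κ (evL h (qw n)) = 1 := fun n => by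
    rw [map_evL]
    exact mem_bot.1 (evL_mem_of_letters fun l c => mem_bot.2 (hκ l (Or.inr (qw_mem c).1)))
  have h3 : ∀ l, 1 ≤ l → l ≤ 7 → h l * h l * h l = 1 := fun l c c' => k5 _ _ (by
    change ev l * ev l * ev l = 1; rw [e1 l c c']; exact X3 l c c') (by
    have := O.eq ((by decide +kernel : ∀ l < 8, pe (mwd cl0 [l, l, l]) (mwd cl0 []) = true) l
      (by omega))
    change up l * up l * up l = 1
    simpa only [evL_cons, evL_nil, mul_one, mul_assoc] using this)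
  have x3 : ∀ l, 1 ≤ l → l ≤ 7 → κ (h l) * κ (h l) * κ (h l) = 1 := fun l c c' => by
    rw [← map_mul, ← map_mul, h3 l c c', map_one]
  have zc : ∀ a : M, S.z * p1 a = p1 a * S.z := fun a => (S.cz (pC a)).symm
  have r0 : κ (h 1) * κ (h 2) * (κ (h 1) * κ (h 2)) = 1 := by
    have e0 : κ (h 1) * κ (h 2) * (κ (h 1) * κ (h 2)) = κ (evL h [1, 2, 1, 2]) := by
      simp only [evL_cons, evL_nil, mul_one, mul_assoc, map_mul]
    have e3 : p2 (evL h [1, 2, 1, 2]) = p2 (evL h (qw 324)) := by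
      rw [h2, h2]; exact O.eq (by decide +kernel)
    rcases k4 _ _ e3 with c | c
    · rw [e0, k5 _ _ c e3, hq1]
    exfalso
    let τ : M := ⟨(S.z, 1), centralizer_le_normalizer _ (mem_centralizer_iff.2 fun a ha =>
      Prod.ext (S.qz (E.fstQ O ha)) (by simp)), S.zC, trivial⟩
    have e4 : evL h [1, 2, 1, 2] = τ * evL h (qw 324) :=
      k5 _ _ c (e3.trans (one_mul _).symm)
    have e5 : κ (τ * evL h [1, 2, 11, 1, 2, 11, 16]) = 1 := by
      have e6 : κ τ * κ τ = 1 := by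
        rw [← map_mul, k5 (τ * τ) 1 S.z2 (mul_one _), map_one]
      rw [e4, map_mul, hq1, mul_one] at e0
      simp only [evL_cons, evL_nil, mul_one, map_mul, hκ 11 (by omega), hκ 16 (by omega), one_mul]
      rw [← e6, ← e0]; simp only [mul_assoc]
    have e7 := k2 _ e5 (by
      rw [map_mul, h2, O.eq (w := []) (by decide +kernel)]; exact mul_one _)
    rw [map_mul, h1] at e7
    have hy : ev 1 * ev 2 * ev 11 ∈ S.C := mul_mem (mul_mem (evC _) (evC _)) (evC _)
    refine S.nb P hq hy ?_ ?_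
    · have e8 : p1 τ = S.z := rfl
      simp only [evL_cons, evL_nil, mul_one, e2 16 (by omega), E.z, e8] at e7
      refine mul_left_cancel (a := S.z) (mul_right_cancel (b := S.z) ?_)
      rw [mul_one, S.z2, ← e7]
      simp only [mul_assoc]
    · rw [S.π_mul (mul_mem (evC _) (evC _)) (evC _), S.π_mul (evC _) (evC _), evπ, evπ, evπ]
      exact isConj_iff.2 ⟨aw [3, 4, 1], by decide +kernel⟩
  have t3 : ∀ a, 1 ≤ a → a ≤ 7 → ∀ i, 1 ≤ i → i ≤ 7 → ∀ g n,
      pe (mwd cl0 (g ++ [a])) (mwd cl0 (i :: qw n ++ g)) = true →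
      κ (evL h g) * κ (h a) * (κ (evL h g))⁻¹ = κ (h i) := by
    intro a a1 a7 i i1 i7 g n c
    have e3 : p2 (evL h g * h a * (evL h g)⁻¹) = p2 (h i * evL h (qw n)) := by
      have := O.eq c
      rw [← h2, ← h2, evL_append, evL_singleton, evL_append, evL_cons] at this
      rw [map_mul, map_inv, mul_inv_eq_iff_eq_mul, ← map_mul p2 (_ * _), this]
    have e4 : κ (h i * evL h (qw n)) = κ (h i) := by rw [map_mul, hq1, mul_one]
    have e5 : (evL h g * h a * (evL h g)⁻¹) ^ 3 = 1 := by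
      rw [conj_pow, pow_three, ← mul_assoc (h a), h3 a a1 a7]; simp
    rcases k4 _ _ e3 with c | c
    · rw [← map_inv, ← map_mul, ← map_mul, k5 _ _ c e3, e4]
    have e6 := k2 ((h i * evL h (qw n)) ^ 3) (by
      rw [map_pow, e4, pow_three, ← mul_assoc, x3 i i1 i7]) (by
      rw [map_pow, ← e3, ← map_pow, e5, map_one])
    have e7 := congrArg p1 e5
    rw [map_pow, c, (show Commute _ _ from zc _).mul_pow, ← map_pow, e6, map_one, mul_one,
      pow_three, S.z2, mul_one] at e7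
    exact absurd e7 S.z1
  have ub := carm (fun l => κ (h l)) x3 (fun i i1 j j7 ij => by
    obtain ⟨r, hr, rfl, rfl⟩ := carL_spec i (by omega) i1 j (by omega) ij
    obtain ⟨c1, c2⟩ := carL_ok r hr
    rw [← t3 1 le_rfl (by omega) _ i1 (by omega) _ _ c1,
      ← t3 2 (by omega) (by omega) _ (by omega) j7 _ _ c2, conj_mul, conj_mul, r0]; simp) le_rfl
  set L := closure {y | ∃ i, 1 ≤ i ∧ i ≤ 7 ∧ κ (h i) = y}
  let ρ0 : M →* A9 := S.ph.comp (p1.codRestrict _ pC)
  have ρe : ∀ a, ρ0 a = S.π (p1 a) := fun _ => rfl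
  let ρ := QuotientGroup.lift (N.subgroupOf M) ρ0 fun a ha => S.π_Q (E.fstQ O ha)
  have ρκ : ∀ a, ρ (κ a) = S.π (p1 a) := fun _ => rfl
  have hL : ∀ w, κ (evL h w) ∈ L := fun w => by
    rw [map_evL]
    refine evL_mem_of_letters fun l _ => ?_
    rcases cs l with c | c
    · exact subset_closure ⟨l, c.1, c.2, rfl⟩
    · rw [hκ l c]; exact one_mem _
  have inj : Function.Injective (ρ.comp L.subtype) := by
    have := ub.1
    refine (Function.Surjective.bijective_of_nat_card_le (fun σ => ?_) (card_A9 ▸ ub.2)).1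
    obtain ⟨w, hw, rfl⟩ := aw_surj σ
    refine ⟨⟨_, hL w⟩, ?_⟩
    change ρ0 (evL h w) = _
    rw [map_evL]
    exact evL_congr fun l hl => (evπ l).trans (if_pos (by have := hw l hl; omega))
  have key : ∀ u w, S.π (evL ev u) = S.π (evL ev w) → κ (evL h u * (evL h w)⁻¹) = 1 := by
    intro u w c
    rw [map_mul, map_inv, mul_inv_eq_one]
    exact congrArg Subtype.val (inj (a₁ := ⟨_, hL u⟩) (a₂ := ⟨_, hL w⟩) (by
      change ρ (κ _) = ρ (κ _); rw [ρκ, ρκ, h1, h1, c]))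
  intro u w
  rw [← O]
  refine ⟨fun c => ?_, fun c => ?_⟩
  · have := k3 _ (key u w (by rw [c])) (by rw [map_mul, map_inv, h1, h1, c, mul_inv_cancel])
    rwa [map_mul, map_inv, h2, h2, mul_inv_eq_one] at this
  · have := k2 _ (key u w (by
      rcases k4 (evL h u) (evL h w) (by rw [h2, h2, c]) with c | c
      · rw [← h1, ← h1, c]
      · rw [← h1, ← h1, c, zc, S.π_mq (pC _) S.zQ])) (by
      rw [map_mul, map_inv, h2, h2, c, mul_inv_cancel])
    rwa [map_mul, map_inv, h1, h1, mul_inv_eq_one] at this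

end Cfsg.TH
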