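import Cfsg.Agent.TH.Ch2

/-! The dichotomy between the natural module and the spin modules. -/

set_option autoImplicit false
set_option linter.unusedSectionVars false
set_option maxRecDepth 100000

namespace Cfsg.TH

open Subgroup Cfsg.H6 Module

abbrev E3 : Type := ZMod 3 × ZMod 3 × ZMod 3

def w1 : List ℕ := [1, 3, 3, 2, 1, 1]
def w2 : List ℕ := [4, 6, 6, 5, 4, 4]
def w3 : List ℕ := [7]
def wA2 : List ℕ := [1, 2, 3, 5, 6, 2, 3, 4, 4, 1, 7, 7]
def wt (g : E3) : List ℕ := rp g.1.val w1 ++ rp g.2.1.val w2 ++ rp g.2.2.val w3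

theorem wt_add (g h : E3) : aw (wt g) * aw (wt h) = aw (wt (g + h)) := by
  have : ∀ g h : E3, pmul (pw (wt g)) (pw (wt h)) = pw (wt (g + h)) := by decide +kernel
  exact eq_aw (by rw [cd_mul, cd_aw, cd_aw, this])

def chi (i : Fin 14) : ℕ × ℕ × ℕ := [(0, 0, 0), (1, 0, 0), (0, 1, 0), (0, 0, 1), (1, 1, 0), (1, 2, 0),
  (1, 0, 1), (1, 0, 2), (0, 1, 1), (0, 1, 2), (1, 1, 1), (1, 1, 2), (1, 2, 1), (1, 2, 2)].getD i 0

def co (i : Fin 14) (g : E3) : ZMod 2 :=
  if i ≠ 0 ∧ ((chi i).1 * g.1.val + (chi i).2.1 * g.2.1.val + (chi i).2.2 * g.2.2.val) % 3 = 0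
  then 0 else 1

variable {V : Type*} [AddCommGroup V] [Module (ZMod 2) V]

theorem dimsum [Finite V] {n : ℕ} (P : Fin n → End (ZMod 2) V)
    (h : ∀ i j, P i * P j = if i = j then P i else 0) :
    ∑ i, finrank (ZMod 2) (LinearMap.range (P i)) ≤ finrank (ZMod 2) V := by
  rw [← finrank_pi_fintype]
  refine LinearMap.finrank_le_finrank_of_injective
    (f := ∑ i, (LinearMap.range (P i)).subtype ∘ₗ LinearMap.proj i) ?_
  rw [injective_iff_map_eq_zero]
  intro x hx
  ext j
  have := congrArg (P j) hx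
  simp only [LinearMap.coe_sum, LinearMap.coe_comp, Finset.sum_apply, Function.comp_apply,
    LinearMap.proj_apply, Submodule.subtype_apply, map_sum, map_zero] at this
  rw [Finset.sum_eq_single j _ (by simp)] at this
  · obtain ⟨y, hy⟩ := (x j).2
    rw [← hy, ← End.mul_apply, h, if_pos rfl, hy] at this
    simpa using this
  · intro i _ hij
    obtain ⟨y, hy⟩ := (x i).2
    rw [← hy, ← End.mul_apply, h, if_neg hij.symm]; rfl

namespace VD
variable (D : VD V)

noncomputable def ev (a : E3 → ZMod 2) : End (ZMod 2) V := ∑ g, a g • D.r (aw (wt g))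

theorem ev_shift (g : E3) (a : E3 → ZMod 2) :
    D.r (aw (wt g)) * D.ev a = D.ev fun h => a (h - g) := by
  rw [ev, ev, Finset.mul_sum]
  refine Fintype.sum_equiv (Equiv.addLeft g) _ _ fun h => ?_
  rw [mul_smul_comm, ← map_mul, wt_add]; simp

theorem ev_shift' (g : E3) (a : E3 → ZMod 2) :
    D.ev a * D.r (aw (wt g)) = D.ev fun h => a (h - g) := by
  rw [ev, ev, Finset.sum_mul]
  refine Fintype.sum_equiv (Equiv.addRight g) _ _ fun h => ?_
  rw [smul_mul_assoc, ← map_mul, wt_add]; simp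

theorem ev_mul (a b : E3 → ZMod 2) : D.ev a * D.ev b = D.ev fun h => ∑ g, a g * b (h - g) := by
  conv_lhs => rw [ev, Finset.sum_mul]
  simp only [smul_mul_assoc, ev_shift]
  simp only [ev, Finset.smul_sum, Finset.sum_smul, smul_smul]
  exact Finset.sum_comm

theorem ev_add (a b : E3 → ZMod 2) : D.ev a + D.ev b = D.ev fun h => a h + b h := by
  simp only [ev, add_smul, Finset.sum_add_distrib]

theorem ev_zero : D.ev (fun _ => 0) = 0 := by simp [ev]

theorem ev_one (g : E3) : D.r (aw (wt g)) = D.ev fun h => if h = g then 1 else 0 := by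
  simp [ev]

theorem ev_conj (n : List ℕ) (φ : E3 ≃ E3) (h : ∀ g, pw (n ++ wt g) = pw (wt (φ g) ++ n))
    {a b : E3 → ZMod 2} (hab : ∀ g, b (φ g) = a g) :
    Module.finrank (ZMod 2) (LinearMap.range (D.ev a)) ≤ Module.finrank (ZMod 2) (LinearMap.range (D.ev b)) := by
  have := D.fin
  have e : D.r (aw n) * D.ev a = D.ev b * D.r (aw n) := by
    rw [ev, ev, Finset.mul_sum, Finset.sum_mul]
    refine Fintype.sum_equiv φ _ _ fun g => ?_
    rw [mul_smul_comm, smul_mul_assoc, ← map_mul, ← map_mul, ← aw_append, ← aw_append, aw_eq (h g),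
      hab]
  refine LinearMap.finrank_le_finrank_of_injective (f := (D.r (aw n)).restrict ?_) ?_
  · rintro _ ⟨x, rfl⟩
    exact ⟨D.r (aw n) x, by rw [← End.mul_apply, ← e]; rfl⟩
  · exact fun x y h => Subtype.ext (D.r_inj _ (congrArg Subtype.val h))

/-- The projection onto the commutator space of an element of order three. -/
def fq (τ : A9) : End (ZMod 2) V := D.r τ + D.r τ * D.r τ

set_option maxHeartbeats 1000000 in
theorem p1 : 1 + D.fq (aw w1) = 0 ∨ (D.fq (aw w1) * D.fq (aw w2) = 0 ∧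
    Module.finrank (ZMod 2) (LinearMap.range (D.fq (aw w1))) ≤ 2) := by
  have := D.fin
  let P : Fin 14 → End (ZMod 2) V := fun i => D.ev (co i)
  have ho : ∀ i j, P i * P j = if i = j then P i else 0 := by
    have k : ∀ i j : Fin 14, ∀ h, ∑ g, co i g * co j (h - g) = if i = j then co i h else 0 := by
      decide +kernel
    intro i j
    simp only [P, ev_mul, k]
    split_ifs
    · rfl
    · exact D.ev_zero
  let rk : Fin 14 → ℕ := fun i => Module.finrank (ZMod 2) (LinearMap.range (P i))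
  have hs : ∑ i, rk i ≤ 8 := (dimsum P ho).trans_eq D.finrank
  have h0 : ∀ i, rk i = 0 → P i = 0 := fun i h =>
    LinearMap.range_eq_bot.1 (Submodule.finrank_eq_zero.1 h)
  have h2 : ∀ i, i ≠ 0 → rk i = 0 ∨ 2 ≤ rk i := by
    have k : ∀ i : Fin 14, i ≠ 0 → ∃ g : E3, ∀ h, co i h + (co i (h - g) + co i (h - g - g)) = 0 := by
      decide +kernel
    intro i hi
    obtain ⟨g, hg⟩ := k i hi
    by_contra! hc
    obtain ⟨v0, hv⟩ := finrank_le_one_iff.1 (show rk i ≤ 1 by omega)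
    have e : P i + (D.r (aw (wt g)) * P i + D.r (aw (wt g)) * (D.r (aw (wt g)) * P i)) = 0 := by
      simp only [P, ev_shift, ev_add, hg, ev_zero]
    refine hc.1 (Submodule.finrank_eq_zero.2 (LinearMap.range_eq_bot.2 (LinearMap.ext fun x => ?_)))
    by_contra hx
    have m : D.r (aw (wt g)) (P i x) ∈ LinearMap.range (P i) :=
      ⟨D.r (aw (wt g)) x, by rw [← End.mul_apply, ← End.mul_apply, ev_shift, ev_shift']⟩
    obtain ⟨c, hc1⟩ := hv ⟨P i x, x, rfl⟩
    obtain ⟨d, hd1⟩ := hv ⟨_, m⟩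
    have e1 : (c • v0).1 = P i x := congrArg Subtype.val hc1
    have e2 : (d • v0).1 = D.r (aw (wt g)) (P i x) := congrArg Subtype.val hd1
    have e3 := congrArg (fun T : End (ZMod 2) V => T x) e
    simp only [LinearMap.add_apply, End.mul_apply, LinearMap.zero_apply] at e3
    rcases z2c c with rfl | rfl
    · exact hx (by simpa using e1.symm)
    rcases z2c d with rfl | rfl
    · exact hx (D.r_eq_zero.1 (by simpa using e2.symm))
    rw [e1] at e2
    rw [← e2, ← e2, vadd, add_zero] at e3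
    exact hx e3
  have c1 : ∀ i, rk i ≤ rk (![0, 2, 3, 1, 8, 9, 4, 5, 6, 7, 10, 13, 11, 12] i) := fun i =>
    D.ev_conj [1, 6, 7, 3, 4, 1, 1, 5, 2, 2] ⟨fun g => (g.2.2, g.1, g.2.1),
      fun g => (g.2.1, g.2.2, g.1), fun _ => rfl, fun _ => rfl⟩ (by decide +kernel)
      (by revert i; decide +kernel)
  have c2 : ∀ i, rk i ≤ rk (![0, 1, 2, 3, 5, 4, 7, 6, 8, 9, 13, 12, 11, 10] i) := fun i =>
    D.ev_conj [5, 6, 6, 5] ⟨fun g => (g.1, -g.2.1, -g.2.2), fun g => (g.1, -g.2.1, -g.2.2),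
      fun _ => by simp, fun _ => by simp⟩ (by decide +kernel) (by revert i; decide +kernel)
  simp only [Fin.sum_univ_succ, Fin.forall_fin_succ, Fin.succ_zero_eq_one, Fin.reduceSucc,
    Matrix.cons_val_zero, Matrix.cons_val_succ, Finset.univ_eq_empty, Finset.sum_empty] at hs c1 c2
  have f1 : D.fq (aw w1) = D.ev fun h => (if h = (1, 0, 0) then 1 else 0) +
      if h - (1, 0, 0) = (1, 0, 0) then 1 else 0 := by
    rw [← ev_add, ← D.ev_shift (1, 0, 0) fun h => if h = (1, 0, 0) then 1 else 0, ← ev_one,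
      show aw (wt (1, 0, 0)) = aw w1 from aw_eq (by decide +kernel), fq]
  have f2 : D.fq (aw w2) = D.ev fun h => (if h = (0, 1, 0) then 1 else 0) +
      if h - (0, 1, 0) = (0, 1, 0) then 1 else 0 := by
    rw [← ev_add, ← D.ev_shift (0, 1, 0) fun h => if h = (0, 1, 0) then 1 else 0, ← ev_one,
      show aw (wt (0, 1, 0)) = aw w2 from aw_eq (by decide +kernel), fq]
  have g1 : D.fq (aw w1) = P 1 + (P 4 + P 5 + P 6 + P 7 + P 10 + P 11 + P 12 + P 13) := by
    simp only [f1, P, ev_add]; exact congrArg D.ev (by decide +kernel)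
  have g2 : D.fq (aw w2) = P 2 + (P 4 + P 5 + P 8 + P 9 + P 10 + P 11 + P 12 + P 13) := by
    simp only [f2, P, ev_add]; exact congrArg D.ev (by decide +kernel)
  have g3 : 1 + D.fq (aw w1) = P 0 + P 2 + P 3 + P 8 + P 9 := by
    rw [← map_one D.r, show (1 : A9) = aw (wt 0) from eq_aw (by decide +kernel), ev_one]
    simp only [f1, P, ev_add]; exact congrArg D.ev (by decide +kernel)
  have hrk : rk 1 = Module.finrank (ZMod 2) (LinearMap.range (P 1)) := rfl
  have h12 : P 1 * P 2 = 0 := (ho 1 2).trans (if_neg (by decide))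
  clear_value rk P
  have a4 := h2 4 (by decide)
  have a10 := h2 10 (by decide)
  by_cases h : rk 10 = 0
  · right
    rw [h0 4 (by omega), h0 5 (by omega), h0 10 (by omega), h0 11 (by omega), h0 12 (by omega),
      h0 13 (by omega)] at g1 g2
    rw [h0 6 (by omega), h0 7 (by omega)] at g1
    rw [h0 8 (by omega), h0 9 (by omega)] at g2
    simp only [add_zero] at g1 g2
    rw [g1, g2]
    exact ⟨h12, by omega⟩
  · left
    rw [g3, h0 0 (by omega), h0 2 (by omega), h0 3 (by omega), h0 8 (by omega), h0 9 (by omega)]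
    simp

/-- The square of the commutator with `σ` is not always trivial. -/
def Lam (σ : A9) : Prop := ∃ x, D.B x (D.r σ x) = 1

theorem Lam.conj {D : VD V} {σ τ : A9} (h : D.Lam σ) (c : IsConj σ τ) : D.Lam τ := by
  obtain ⟨x, hx⟩ := h
  obtain ⟨ρ, rfl⟩ := isConj_iff.1 c
  exact ⟨D.r ρ x, by rw [r_mul, r_mul, inv_r, B_r, hx]⟩

theorem B_fq {τ : A9} (h : τ * τ * τ = 1) (u v : V) : D.B (D.fq τ u) v = D.B u (D.fq τ v) := by
  have k : ∀ x, D.r τ (D.r τ (D.r τ x)) = x := fun x => by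
    rw [← r_mul, ← r_mul, h, r_one]
  simp only [fq, LinearMap.add_apply, End.mul_apply, map_add]
  rw [← D.B_r τ (D.r τ (D.r τ u)), k, ← D.B_r τ u (D.r τ (D.r τ v)), k, add_comm]

/-- The natural module. -/
structure Nat0 : Prop where
  lam : ∀ σ : A9, σ * σ = 1 → σ ≠ 1 → D.Lam σ
  fix : ∀ s, (∀ x, D.B x (D.r (aw wA2) x) = D.B x s) → D.r (aw w1) s = s

theorem dich (hf : ∀ σ, D.r σ = 1 → σ = 1) :
    (∀ l, 1 ≤ l → l ≤ 7 → ∀ v, D.r (xa l) (D.r (xa l) v) = D.r (xa l) v + v) ∨ D.Nat0 := by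
  have := D.fin
  have t3 : aw w1 * aw w1 * aw w1 = 1 := by decide +kernel
  have k : ∀ x, D.r (aw w1) (D.r (aw w1) (D.r (aw w1) x)) = x := fun x => by
    rw [← r_mul, ← r_mul, t3, r_one]
  have fa : ∀ x, D.fq (aw w1) x = D.r (aw w1) x + D.r (aw w1) (D.r (aw w1) x) := fun _ => rfl
  refine D.p1.imp (fun h l h1 h2 v => ?_) fun ⟨h1, h2⟩ => ?_
  · have c : ∀ l ≤ 7, 1 ≤ l → ∃ g ∈ [[2, 3], [3, 1], [1, 2], [1, 2, 4, 3, 3], [1, 2, 5, 3, 3],
      [1, 2, 6, 3, 3], [1, 2, 7, 3, 3]], xc l = cjc g (pw w1) := by decide +kernel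
    obtain ⟨g, -, e⟩ := c l h2 h1
    rw [← cd_xa, ← cd_aw, ← cd_cj] at e
    have := congrArg (fun T : End (ZMod 2) V => D.r (aw g) (T (D.r (aw g)⁻¹ v))) h
    simp only [LinearMap.add_apply, fa, End.one_apply, map_add, r_inv, LinearMap.zero_apply,
      map_zero] at this
    rw [cd_inj e]
    simp only [r_mul, inv_r]
    rw [← add_assoc, veq] at this
    rw [← this, add_comm]
  have hx : ∀ x ∈ LinearMap.range (D.fq (aw w1)), D.r (aw w1) (D.r (aw w1) x) = D.r (aw w1) x + x := by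
    rintro _ ⟨x, rfl⟩
    simp only [fa, map_add, k]
    linear_combination (norm := abel) -(vadd (D.r (aw w1) (D.r (aw w1) x)))
  have hm : ∀ x ∈ LinearMap.range (D.fq (aw w1)), D.r (aw w1) x ∈ LinearMap.range (D.fq (aw w1)) := by
    rintro _ ⟨x, rfl⟩
    exact ⟨D.r (aw w1) x, by simp only [fa, map_add]⟩
  have hne : ∀ x ∈ LinearMap.range (D.fq (aw w1)), x ≠ 0 → D.r (aw w1) x ≠ x := fun x h h0 e => by
    have := hx x h
    rw [e, e, vadd] at this
    exact h0 this
  have hsp : ∀ x ∈ LinearMap.range (D.fq (aw w1)), x ≠ 0 → ∀ y ∈ LinearMap.range (D.fq (aw w1)),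
      ∃ a b : ZMod 2, a • x + b • D.r (aw w1) x = y := fun x h h0 y hy => by
    have li : LinearIndependent (ZMod 2) ![x, D.r (aw w1) x] := LinearIndependent.pair_iff.2 (by
      intro a b e
      rcases z2c a with rfl | rfl <;> rcases z2c b with rfl | rfl
      · simp
      · exact absurd (D.r_eq_zero.1 (by simpa using e)) h0
      · exact absurd (by simpa using e) h0
      · exact absurd (veq.1 (by simpa using e)).symm (hne x h h0))
    have e : Submodule.span (ZMod 2) (Set.range ![x, D.r (aw w1) x]) =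
        LinearMap.range (D.fq (aw w1)) := Submodule.eq_of_le_of_finrank_le
      (Submodule.span_le.2 (by rintro _ ⟨i, rfl⟩; fin_cases i; exacts [h, hm x h]))
      (by rw [finrank_span_eq_card li]; simpa using h2)
    rw [← e, Matrix.range_cons, Matrix.range_cons, Matrix.range_empty, Set.union_empty,
      Set.singleton_union, Submodule.mem_span_pair] at hy
    exact hy
  have hB : ∀ x ∈ LinearMap.range (D.fq (aw w1)), x ≠ 0 → D.B x (D.r (aw w1) x) = 1 :=
    fun x h h0 => by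
    refine (z2c _).resolve_left fun e => h0 (D.nd x fun w => ?_)
    obtain ⟨a, b, e'⟩ := hsp x h h0 _ ⟨w, rfl⟩
    have : D.fq (aw w1) x = x := by rw [fa, hx x h, ← add_assoc, vadd, zero_add]
    rw [← this, D.B_fq t3, ← e']; simp [e, D.B_self]
  obtain ⟨x0, hx0, h0⟩ : ∃ x ∈ LinearMap.range (D.fq (aw w1)), x ≠ 0 := by
    by_contra! hc
    refine absurd (hf (aw w1) (LinearMap.ext fun x => D.r_inj (aw w1) ?_)) (by decide +kernel)
    exact (veq.1 (hc _ ⟨x, rfl⟩)).symm
  have lam : ∀ σ : A9, σ * aw w1 = aw w1 * aw w1 * σ → D.Lam σ := fun σ hσ => by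
    have s1 : ∀ x, D.r σ (D.r (aw w1) x) = D.r (aw w1) (D.r (aw w1) (D.r σ x)) := fun x => by
      rw [← r_mul, hσ, r_mul, r_mul]
    obtain ⟨x, h, h0, hs⟩ : ∃ x ∈ LinearMap.range (D.fq (aw w1)), x ≠ 0 ∧ D.r σ x ≠ x := by
      by_contra! hc
      have := s1 x0
      rw [hc x0 hx0 h0, hc _ (hm _ hx0) (mt D.r_eq_zero.1 h0)] at this
      exact hne x0 hx0 h0 (D.r_inj _ this).symm
    have m : D.r σ x ∈ LinearMap.range (D.fq (aw w1)) := by
      obtain ⟨y, rfl⟩ := h
      exact ⟨D.r σ y, by simp only [fa, map_add, s1, k]; rw [add_comm]⟩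
    obtain ⟨a, b, e⟩ := hsp x h h0 _ m
    refine ⟨x, ?_⟩
    rcases z2c b with rfl | rfl
    · rcases z2c a with rfl | rfl
      · exact absurd (D.r_eq_zero.1 (by simpa using e.symm)) h0
      · exact absurd (by simpa using e.symm) hs
    · rw [← e]; simp [D.B_self, hB x h h0]
  refine ⟨fun σ a b => ?_, fun s hs => ?_⟩
  · rcases inv_class a b with c | c
    · exact (lam (aw [1, 4, 2, 5, 1, 4, 6, 7, 7, 6]) (by decide +kernel)).conj
        ((c.trans (isConj_iff.2 ⟨aw [3, 4, 6, 6], by decide +kernel⟩)).symm)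
    · exact (lam (aw [1, 4, 2, 5, 1, 4]) (by decide +kernel)).conj
        ((c.trans (isConj_iff.2 ⟨aw [5, 3, 3], by decide +kernel⟩)).symm)
  · have s1 : ∀ x, D.r (aw wA2) (D.r (aw w1) x) = D.r (aw w2) (D.r (aw wA2) x) := fun x => by
      rw [← r_mul, ← r_mul, show aw wA2 * aw w1 = aw w2 * aw wA2 by decide +kernel]
    have : D.fq (aw w1) s = 0 := D.nd _ fun w => by
      rw [D.B_fq t3, D.B_comm, ← hs, D.B_fq t3]
      have : D.r (aw wA2) (D.fq (aw w1) w) = D.fq (aw w2) (D.r (aw wA2) w) := by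
        simp only [fq, LinearMap.add_apply, End.mul_apply, map_add, s1]
      rw [this, ← End.mul_apply, h1]; simp
    exact (D.r_inj _ (veq.1 this)).symm

end VD

end Cfsg.TH
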