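import Cfsg.Agent.TH.Perm

/-! Finite facts about the alternating group of degree nine. -/

set_option autoImplicit false
set_option maxRecDepth 100000

namespace Cfsg.TH

open Equiv Cfsg.H6 Subgroup

theorem xa_cube (l : ℕ) : xa l * xa l * xa l = 1 := by
  have h1 : ∀ l < 8, pmul (pmul (xc l) (xc l)) (xc l) = idc := by decide +kernel
  rw [← cd_eq_one, cd_mul, cd_mul, cd_xa]
  have := h1 _ (Nat.mod_lt l (by omega : 0 < 8))
  rwa [xc, Nat.mod_mod] at this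

def iw (w : List ℕ) : List ℕ := w.reverse.flatMap fun l => [l, l]

theorem evL_iw {H : Type*} [Group H] {ev : ℕ → H} {w : List ℕ}
    (h : ∀ l ∈ w, ev l * ev l * ev l = 1) : evL ev (iw w) = (evL ev w)⁻¹ := by
  induction w with
  | nil => simp [iw, evL_nil]
  | cons x w ih =>
    have e : iw (x :: w) = iw w ++ [x, x] := by simp [iw]
    rw [e, evL_append, ih fun l hl => h l (List.mem_cons_of_mem _ hl), evL_cons ev x w,
      mul_inv_rev, evL_cons, evL_singleton, eq_inv_of_mul_eq_one_left (h x List.mem_cons_self)]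

theorem aw_iw (w : List ℕ) : aw (iw w) = (aw w)⁻¹ := evL_iw fun l _ => xa_cube l

theorem aw_append (u w : List ℕ) : aw (u ++ w) = aw u * aw w := evL_append _ _ _

noncomputable def cjc (g : List ℕ) (x : ℕ) : ℕ := pmul (pmul (pw g) x) (pw (iw g))

theorem cd_cj (g : List ℕ) (σ : A9) : cd (aw g * σ * (aw g)⁻¹) = cjc g (cd σ) := by
  rw [← aw_iw, cd_mul, cd_mul, cd_aw, cd_aw, cjc]

theorem cd_comm {σ τ : A9} (h : σ * τ = τ * σ) : pmul (cd σ) (cd τ) = pmul (cd τ) (cd σ) := by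
  rw [← cd_mul, ← cd_mul, h]

theorem card_le_of_cd {H : Subgroup A9} {L : List ℕ} (h : ∀ x ∈ H, cd x ∈ L) :
    Nat.card H ≤ L.length := by
  classical
  have : Nat.card H ≤ Nat.card L.toFinset := Nat.card_le_card_of_injective
    (fun x => ⟨cd x.1, List.mem_toFinset.2 (h _ x.2)⟩) fun x y e =>
      Subtype.ext (cd_inj (congrArg Subtype.val e))
  rw [Nat.card_eq_finsetCard] at this
  exact this.trans (List.toFinset_card_le L)

theorem card_A9 : Nat.card A9 = 181440 := by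
  rw [nat_card_alternatingGroup]; simp [Nat.factorial]

def wA : List ℕ := [1, 3, 2, 4, 1, 3, 5, 6, 6, 5, 7, 7]
def wB : List ℕ := [1, 3, 2, 4, 1, 3]
def wW : List ℕ := [7, 6, 6, 5]
def wS : List ℕ := [1, 7, 7, 6, 5, 5, 4, 3, 3, 2, 1, 1]
def wT : List ℕ := [1, 2, 3, 5, 7, 4, 1, 2]
def wE : List ℕ := [1, 3, 2, 4, 1, 7, 6, 4, 5, 5, 3]
def wU : List ℕ := [3, 4, 7, 5, 3, 4]
def wD : List ℕ := [1, 2, 4, 3, 1, 2, 5, 7, 7, 5]

def T0W : List (List ℕ) := [[],[1,2,3,4,1,2],[1,3,2,4,1,3],[1,2,3,6,7,2,3,5,5,1,4,4],[1,5,2,6,1,5],[1,2,4,3,1,2],[1,7,7,3,5,5,1,4,4,6,2,2],[1,5,3,6,2,5,4,1,1],[1,6,6,2,5,5,1,4,4,7,3,3],[3,5,4,6,3,5],[1,5,5,3,7,7,1,2,2,6,4,4],[1,5,5,2,6,6,1,3,3,7,4,4],[1,2,3,5,7,2,3,6,6,1,4,4],[1,5,4,6,2,5,3,1,1],[2,7,7,3,6,6,2,4,4,5,1,1],[1,3,4,5,6,3,4,7,7,1,2,2],[1,7,7,4,6,6,1,3,3,5,2,2],[1,7,7,3,6,6,1,4,4,5,2,2],[1,6,6,4,7,7,1,2,2,5,3,3],[1,2,4,5,7,2,4,6,6,1,3,3],[1,5,5,2,6,6,1,4,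4,7,3,3],[1,2,5,6,4,3,7,7,2],[5,7,7,5,6,6],[1,2,6,5,4,3,7,7,2],[5,6,6,5,7,7],[1,6,6,2,5,5,1,3,3,7,4,4],[1,6,6,3,7,7,1,2,2,5,4,4],[2,7,7,3,5,5,2,4,4,6,1,1],[2,3,7,6,1,4,5,5,3],[2,7,7,4,5,5,2,3,3,6,1,1],[1,3,7,5,2,4,6,6,3],[1,2,3,4,1,2,5,7,7,5,6,6],[1,3,7,6,2,4,5,5,3],[1,2,3,4,1,2,5,6,6,5,7,7],[1,7,7,4,5,5,1,3,3,6,2,2],[1,3,4,6,5,3,4,7,7,1,2,2],[1,2,6,5,3,4,7,7,2],[1,3,2,4,1,3,5,7,7,5,6,6],[1,2,5,6,3,4,7,7,2],[1,3,2,4,1,3,5,6,6,5,7,7],[1,2,4,6,7,2,4,5,5,1,3,3],[1,5,5,4,7,7,1,2,2,6,3,3],[5,6,7,7,6],[1,2,2,1,5,5,7,6,6],[1,2,2,1,7,7],[1,2,2,1,6,6,7,5,5],[2,3,7,5,1,4,6,6,3],[2,7,7,4,6,6,2,3,3,5,1,1],[1,2,3,4,6,5,3,4,7,7,2],[1,2,4,3,1,2,5,7,7,5,6,6],[1,2,3,4,5,6,3,4,7,7,2],[1,2,4,3,1,2,5,6,6,5,7,7],[1,2,3,4,1,2,5,6,7,7,6],[1,3,3,2,4,4,1,5,5,7,6,6],[1,3,3,2,4,4,1,7,7],[1,3,3,2,4,4,1,6,6,7,5,5],[1,3,2,4,1,3,5,6,7,7,6],[3,4,4,3,5,5,7,6,6],[3,4,4,3,7,7],[3,4,4,3,6,6,7,5,5],[1,4,4,2,3,3,1,5,5,7,6,6],[1,4,4,2,3,3,1,7,7],[1,4,4,2,3,3,1,6,6,7,5,5],[1,2,4,3,1,2,5,6,7,7,6]]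

def T0L : List ℕ := [36344967696,36344959026,36344963841,35199678036,36343984641,36344955171,34631480916,36343975971,34947036756,36343980816,35199669366,35199674181,35198694981,36343972146,34378839636,34631472246,34631477061,34630497861,34947028086,34947032901,34948019781,35199665511,35776770576,35198686311,36092326416,35198691156,35198682486,34379822661,34378830966,34378835781,34631468391,35776761906,34630489191,36092317746,34630494036,34630485366,34947024231,35776766721,34948011111,36092322561,34948015956,34948007286,35524129296,35775787521,36093309441,35525112321,34379810166,34379818836,34378827111,35776758051,34379813991,36092313891,35524120626,35775778851,36093300771,35525103651,35524125441,35775783696,36093305616,35525108496,35775775026,36093296946,35525099826,35524116771]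

def tabI : List (ℕ × List ℕ × ℕ) := [(36344959026,[1,4,4,1],1),(36344963841,[],1),(35199678036,[1,6,6,1,3,3],0),(36343984641,[3,4,5,6],1),(36344955171,[1,3,3,1],1),(36343980816,[1,2,5,6],1),(35198694981,[1,5,5,1,3,3],0),(34631472246,[1,3,6,6,3],0),(34947032901,[1,5,5,1,4,4],0),(35776770576,[1,2,5,7,3,4,6],1),(36092326416,[1,2,5,6,3,4,7],1),(35776761906,[1,4,4,1,5,5],0),(36092317746,[1,2,2,4,1,1],0),(34630485366,[1,3,5,5,3],0),(35776766721,[5,6,6],0),(36092322561,[],0),(34948015956,[1,6,6,1,4,4],0),(35524129296,[1,2,5,3,3,6,4,4,7],1),(36093309441,[3,4,7],1),(34378827111,[2,3,5,5,3],0),(35776758051,[1,3,3,1,5,5],0),(34379813991,[2,3,6,6,3],0),(36092313891,[1,2,2,3,1,1],0),(35524120626,[1,4,4,1,6,6],0),(35524125441,[5,7,7],0),(36093305616,[1,2,7],1),(35524116771,[1,3,3,1,6,6],0)]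


theorem T0_eq : T0W.map pw = T0L := by decide +kernel

def T0 : Subgroup A9 where
  carrier := {σ | cd σ ∈ T0L}
  one_mem' := by change cd 1 ∈ T0L; rw [cd_one]; decide +kernel
  mul_mem' := by
    have : ∀ a ∈ T0L, ∀ b ∈ T0L, fr (fun x => decide (x ∈ T0L)) (pmul a b) = true := by
      decide +kernel
    intro a b ha hb
    change cd (a * b) ∈ T0L
    rw [cd_mul]
    simpa [fr_eq] using this _ ha _ hb
  inv_mem' := by
    have : ∀ a ∈ T0L, ∃ w ∈ T0W, pmul a (pw w) = idc := by decide +kernel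
    intro a ha
    obtain ⟨w, hw, e⟩ := this _ ha
    rw [← cd_aw, ← cd_mul, cd_eq_one] at e
    change cd a⁻¹ ∈ T0L
    rw [← eq_inv_of_mul_eq_one_right e, cd_aw, ← T0_eq]
    exact List.mem_map_of_mem hw

theorem card_T0 : Nat.card T0 = 64 := by
  classical
  have h1 : Nat.card T0 = Nat.card T0L.toFinset := Nat.card_eq_of_bijective
    (fun x => ⟨cd x.1, List.mem_toFinset.2 x.2⟩) ⟨fun x y e =>
      Subtype.ext (cd_inj (congrArg Subtype.val e)), by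
      rintro ⟨c, hc⟩
      have hc' := List.mem_toFinset.1 hc
      have h2 := hc'
      rw [← T0_eq] at h2
      obtain ⟨w, -, e⟩ := List.mem_map.1 h2
      exact ⟨⟨aw w, by change cd _ ∈ T0L; rw [cd_aw, e]; exact hc'⟩, Subtype.ext ((cd_aw w).trans e)⟩⟩
  rw [h1, Nat.card_eq_finsetCard, List.toFinset_card_of_nodup (by decide +kernel)]
  rfl

theorem exists_T0 {H : Subgroup A9} (hH : IsPGroup 2 H) : ∃ τ : A9, ∀ x ∈ H, cd (τ * x * τ⁻¹) ∈ T0L := by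
  have : Fact (Nat.Prime 2) := ⟨Nat.prime_two⟩
  obtain ⟨P, hP⟩ := hH.exists_le_sylow
  obtain ⟨P', hP'⟩ := (IsPGroup.of_card (p := 2) (n := 6) card_T0).exists_le_sylow
  obtain ⟨k, hk⟩ := P'.isPGroup'.exists_card_eq
  have h1 := card_subgroup_dvd_card (P' : Subgroup A9)
  rw [hk, card_A9] at h1
  have h2 : k ≤ 6 := by
    by_contra h
    exact absurd ((pow_dvd_pow 2 (by omega : 7 ≤ k)).trans h1) (by norm_num)
  have h3 : T0 = P' := eq_of_le_of_card_ge hP' (by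
    rw [hk, card_T0]; exact Nat.pow_le_pow_right (by omega) h2)
  obtain ⟨τ, hτ⟩ := MulAction.exists_smul_eq A9 P P'
  refine ⟨τ, fun x hx => ?_⟩
  change _ ∈ T0
  rw [h3, ← hτ]
  exact ⟨x, hP hx, rfl⟩

noncomputable def mvc (c : ℕ) : ℕ := ((List.range 9).filter fun i => !Nat.beq (pf c i) i).length

theorem tab_spec {σ : A9} (h : cd σ ∈ T0L) (h2 : σ * σ = 1) (h1 : σ ≠ 1) :
    (mvc (cd σ) = 8 ∧ IsConj σ (aw wA)) ∨ (mvc (cd σ) = 4 ∧ IsConj σ (aw wB)) := by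
  have k : ∀ c ∈ T0L, pmul c c = idc → c ≠ idc → ∃ p ∈ tabI, p.1 = c ∧
      ((mvc c = 8 ∧ cjc p.2.1 c = pw wA) ∨ (mvc c = 4 ∧ cjc p.2.1 c = pw wB)) := by decide +kernel
  obtain ⟨p, -, -, e⟩ := k _ h (by rw [← cd_mul, h2, cd_one]) (mt cd_eq_one.1 h1)
  rw [← cd_cj] at e
  exact e.imp (And.imp_right fun e => isConj_iff.2 ⟨_, eq_aw e⟩)
    (And.imp_right fun e => isConj_iff.2 ⟨_, eq_aw e⟩)

theorem inv_class {σ : A9} (h2 : σ * σ = 1) (h1 : σ ≠ 1) :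
    IsConj σ (aw wA) ∨ IsConj σ (aw wB) := by
  have : Fact (Nat.Prime 2) := ⟨Nat.prime_two⟩
  obtain ⟨τ, hτ⟩ := exists_T0 (H := zpowers σ) (IsPGroup.of_card (n := 1) (by
    rw [Nat.card_zpowers, orderOf_eq_prime (by rw [pow_two, h2]) h1]; rfl))
  have c : IsConj σ (τ * σ * τ⁻¹) := isConj_iff.2 ⟨τ, rfl⟩
  exact (tab_spec (hτ σ (mem_zpowers σ)) (by rw [conj_mul, h2]; simp) (by simpa using h1)).imp
    (fun h => c.trans h.2) (fun h => c.trans h.2)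

noncomputable def cm (a b : ℕ) : Bool := Nat.beq (pmul a b) (pmul b a)

theorem cm_cd {σ τ : A9} (h : σ * τ = τ * σ) : cm (cd σ) (cd τ) = true := by
  rw [cm, Nat.beq_eq]; exact cd_comm h

noncomputable def TI : List ℕ := T0L.filter fun x => Nat.beq (pmul x x) idc

theorem wc0 {H E : Subgroup A9} (hT : ∀ x ∈ H, cd x ∈ T0L) (hE : E ≤ H)
    (hc : ∀ e ∈ E, ∀ h ∈ H, e * h = h * e) (h2 : ∀ e ∈ E, e * e = 1)
    (hcard : Nat.card H * Nat.card E = 256) {z : A9} (hz : z ∈ E) (hz1 : z ≠ 1) :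
    Nat.card E = 16 ∧ ∃ d ∈ E, d ≠ z ∧ IsConj d z := by
  have hI : ∀ e ∈ E, cd e ∈ TI := fun e he =>
    List.mem_filter.2 ⟨hT e (hE he), by rw [Nat.beq_eq, ← cd_mul, h2 e he, cd_one]⟩
  have F1 : ∀ z ∈ TI, z ≠ idc → ∀ u ∈ TI, u ∉ [idc, z] → cm z u = true →
      fr (fun zu => fr (fun n => Nat.ble n 32 && TI.all fun v => [idc, z, u, zu].elem v ||
        !(cm z v && cm u v) || Nat.ble ((T0L.filter fun g => cm z g && cm u g && cm v g).length) 16)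
        (T0L.filter fun g => cm z g && cm u g).length) (pmul z u) = true := by decide +kernel
  have F3 : ∀ z ∈ TI, z ≠ idc → (TI.filter fun g => cm z g && (Nat.beq g idc || Nat.beq g z ||
      (!Nat.beq (mvc g) (mvc z) && !Nat.beq (mvc (pmul g z)) (mvc z)))).length ≤ 8 := by
    decide +kernel
  have b0 : Nat.card H ≤ 64 := card_le_of_cd hT
  have bE : Nat.card E ≤ Nat.card H := card_le_of_le hE
  have hz' := mt cd_eq_one.1 hz1
  obtain ⟨u, hu, hu'⟩ : ∃ u ∈ E, cd u ∉ [idc, cd z] := by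
    by_contra! h
    have : Nat.card E ≤ 2 := card_le_of_cd h
    nlinarith
  have f1 := F1 _ (hI z hz) hz' _ (hI u hu) hu' (cm_cd (hc z hz u (hE hu)))
  simp only [fr_eq, Bool.and_eq_true, Nat.ble_eq, List.all_eq_true, Bool.or_eq_true,
    List.elem_eq_mem, decide_eq_true_eq] at f1
  have b1 : Nat.card H ≤ 32 := (card_le_of_cd fun x hx => List.mem_filter.2 ⟨hT x hx, by
    rw [cm_cd (hc z hz x hx), cm_cd (hc u hu x hx)]; rfl⟩).trans f1.1
  obtain ⟨v, hv, hv'⟩ : ∃ v ∈ E, cd v ∉ [idc, cd z, cd u, pmul (cd z) (cd u)] := by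
    by_contra! h
    have : Nat.card E ≤ 4 := card_le_of_cd h
    nlinarith
  have f2 := (f1.2 _ (hI v hv)).resolve_left (by
    rw [cm_cd (hc z hz v (hE hv)), cm_cd (hc u hu v (hE hv))]; simpa using hv')
  have b2 : Nat.card H ≤ 16 := (card_le_of_cd fun x hx => List.mem_filter.2 ⟨hT x hx, by
    rw [cm_cd (hc z hz x hx), cm_cd (hc u hu x hx), cm_cd (hc v hv x hx)]; rfl⟩).trans f2
  have b3 : Nat.card E = 16 := by nlinarith
  refine ⟨b3, ?_⟩
  by_contra! hn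
  have key : ∀ g ∈ E, g ≠ 1 → g ≠ z → mvc (cd g) ≠ mvc (cd z) := by
    intro g hg g1 gz e
    refine hn g hg gz ?_
    rcases tab_spec (hT g (hE hg)) (h2 g hg) g1 with a | a <;>
      rcases tab_spec (hT z (hE hz)) (h2 z hz) hz1 with b | b
    · exact a.2.trans b.2.symm
    · omega
    · omega
    · exact a.2.trans b.2.symm
  have := (card_le_of_cd (H := E) fun g hg => List.mem_filter.2 ⟨hI g hg, ?_⟩).trans
    (F3 _ (hI z hz) hz')
  · omega
  rw [cm_cd (hc z hz g (hE hg))]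
  by_cases g1 : g = 1
  · simp [g1, cd_one]
  by_cases gz : g = z
  · simp [gz]
  have k1 := key g hg g1 gz
  have k2 := key (g * z) (mul_mem hg hz) (fun e => gz (by
    rw [eq_inv_of_mul_eq_one_left e, eq_comm, eq_inv_iff_mul_eq_one, h2 z hz])) (by simpa using g1)
  rw [cd_mul] at k2
  simp [← Bool.not_eq_true, k1, k2]

theorem wc_perm {H E : Subgroup A9} (hp : IsPGroup 2 H) (hE : E ≤ H)
    (hc : ∀ e ∈ E, ∀ h ∈ H, e * h = h * e) (h2 : ∀ e ∈ E, e * e = 1)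
    (hcard : Nat.card H * Nat.card E = 256) {z : A9} (hz : z ∈ E) (hz1 : z ≠ 1) :
    Nat.card E = 16 ∧ ∃ d ∈ E, d ≠ z ∧ IsConj d z := by
  obtain ⟨τ, hτ⟩ := exists_T0 hp
  let φ := (MulAut.conj τ).toMonoidHom
  have inj : Function.Injective φ := (MulAut.conj τ).injective
  have := wc0 (H := H.map φ) (E := E.map φ) (z := φ z)
    (by rintro _ ⟨x, hx, rfl⟩; exact hτ x hx) (map_mono hE)
    (by rintro _ ⟨x, hx, rfl⟩ _ ⟨y, hy, rfl⟩; rw [← map_mul, ← map_mul, hc x hx y hy])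
    (by rintro _ ⟨x, hx, rfl⟩; rw [← map_mul, h2 x hx, map_one])
    (by rw [card_map_of_injective inj, card_map_of_injective inj, hcard]) ⟨z, hz, rfl⟩
    (by rwa [Ne, map_eq_one_iff _ inj])
  rw [card_map_of_injective inj] at this
  obtain ⟨h1, _, ⟨d, hd, rfl⟩, h3, h4⟩ := this
  refine ⟨h1, d, hd, fun e => h3 (by rw [e]), ?_⟩
  have c : ∀ x, IsConj x (φ x) := fun x => isConj_iff.2 ⟨τ, rfl⟩
  exact ((c d).trans h4).trans (c z).symm

theorem five_class {σ : A9} (h5 : σ ^ 5 = 1) (h1 : σ ≠ 1) : IsConj σ (aw wW) := by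
  have : Fact (Nat.Prime 5) := ⟨by norm_num⟩
  have key : ∀ ρ : A9, ρ ^ 5 = 1 → ρ ≠ 1 → ρ.1.cycleType = {5} := by
    intro ρ a b
    have ho : orderOf ρ.1 = 5 := by rw [Subgroup.orderOf_coe, orderOf_eq_prime a b]
    obtain ⟨n, hn⟩ := Perm.cycleType_prime_order (σ := ρ.1) (by rw [ho]; norm_num)
    have := Perm.sum_cycleType_le ρ.1
    rw [hn, ho] at this ⊢
    simp at this
    obtain rfl : n = 0 := by omega
    rfl
  have k1 := key σ h5 h1
  have k2 := key (aw wW) (by decide +kernel) (by decide +kernel)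
  refine alternatingGroup.isConj_of (Perm.isConj_iff_cycleType_eq.2 (k1.trans k2.symm)) ?_
  rw [← Perm.sum_cycleType, k1]; simp

theorem five_a {u : A9} (h2 : u * u = 1)
    (h : ∀ g ∈ [wW, wW ++ wW], Commute u (aw g * u * (aw g)⁻¹)) : Commute u (aw wW) := by
  have k : ∀ u ∈ invL, cm u (cjc wW u) = true → cm u (cjc (wW ++ wW) u) = true →
      pmul u (pw wW) = pmul (pw wW) u := by decide +kernel
  have := k _ (mem_inv h2) (by rw [← cd_cj]; exact cm_cd (h _ (by simp)))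
    (by rw [← cd_cj]; exact cm_cd (h _ (by simp)))
  rw [← cd_aw, ← cd_mul, ← cd_mul] at this
  exact cd_inj this

theorem five_b {u : A9} (h2 : u * u = 1) (h : Commute u (aw wW)) :
    cd u ∈ [idc, 36344963841, 36344959026, 36344955171] := by
  have k : ∀ u ∈ invL, cm u (pw wW) = true → u ∈ [idc, 36344963841, 36344959026, 36344955171] ∨
      ∃ i j : Fin 9, i ≠ j ∧ u = cdp (swap i j) := by decide +kernel
  refine (k _ (mem_inv h2) (by rw [← cd_aw]; exact cm_cd h)).resolve_right ?_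
  rintro ⟨i, j, hij, e⟩
  have := Perm.mem_alternatingGroup.1 u.2
  rw [cdp_inj e, Perm.sign_swap hij] at this
  exact absurd this (by decide)

theorem five_c {t a : A9} (h3 : t * t * t = 1) (h1 : t ≠ 1) (ht : Commute t (aw wW))
    (h2 : a * a = 1) (ha : a * aw wW * a * aw wW = 1) (hat : Commute a t) :
    ¬ IsConj a (aw wA) := by
  have k : ∀ t ∈ bt (Pcom ([(aw wW).1].map cdp)) 9, pmul (pmul t t) t = idc → t ≠ idc →
      ∀ a ∈ invL.filter (fun a => Nat.beq (pmul (pmul (pmul a (pw wW)) a) (pw wW)) idc),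
        cm a t = true → ∃ i j : Fin 9, i ≠ j ∧ pf a i = i ∧ pf a j = j := by decide +kernel
  obtain ⟨i, j, hij, e1, e2⟩ := k (cd t) (mem_com t.1 _ (by
      simpa using congrArg Subtype.val ht)) (by rw [← cd_mul, ← cd_mul, h3, cd_one])
    (mt cd_eq_one.1 h1) (cd a) (List.mem_filter.2 ⟨mem_inv h2, by
      rw [Nat.beq_eq, ← cd_aw, ← cd_mul, ← cd_mul, ← cd_mul, ha, cd_one]⟩) (cm_cd hat)
  rw [cd, pf_cdp', Fin.val_inj] at e1 e2
  intro hc
  obtain ⟨τ, hτ⟩ := isConj_iff.1 hc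
  have f : ∀ i : Fin 9, (aw wA).1 i = i → i = 8 := by decide +kernel
  have g : ∀ i, a.1 i = i → τ.1 i = 8 := fun i hi => f _ (by rw [← hτ]; simp [hi])
  exact hij (τ.1.injective ((g i e1).trans (g j e2).symm))

theorem seven {u : A9} (h2 : u * u = 1) (h : ∀ g ∈ [wS, wS ++ wS, wS ++ wS ++ wS, wE ++ wS, wS ++ wE],
    Commute u (aw g * u * (aw g)⁻¹)) :
    u = 1 ∨ ∃ i < 7, u = aw (rp i wS) * aw wE * (aw (rp i wS))⁻¹ := by
  have k : ∀ u ∈ invL, (∀ g ∈ [wS, wS ++ wS, wS ++ wS ++ wS, wE ++ wS, wS ++ wE],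
      cm u (cjc g u) = true) → u = idc ∨ ∃ i < 7, u = cjc (rp i wS) (pw wE) := by decide +kernel
  refine (k _ (mem_inv h2) fun g hg => by rw [← cd_cj]; exact cm_cd (h g hg)).imp cd_eq_one.1 ?_
  rintro ⟨i, hi, e⟩
  exact ⟨i, hi, cd_inj (by rw [cd_cj, cd_aw, e])⟩

end Cfsg.TH
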