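import Cfsg.Agent.TH.P1

/-! Coordinates for the spin module. -/

set_option autoImplicit false
set_option linter.unusedSectionVars false
set_option maxRecDepth 100000

namespace Cfsg.TH

open Subgroup Cfsg.H6 Module

def col (M k : ℕ) : ℕ := Nat.mod (Nat.shiftRight M (Nat.mul 8 k)) 256
def cb (M n k : ℕ) : ℕ := cond (n.testBit k) (col M k) 0
noncomputable def mv8 (M n : ℕ) : ℕ := fr (fun n => cb M n 0 ^^^ cb M n 1 ^^^ cb M n 2 ^^^ cb M n 3 ^^^
  cb M n 4 ^^^ cb M n 5 ^^^ cb M n 6 ^^^ cb M n 7) n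

def GM (j : ℕ) : ℕ := [4611703610680541440, 2310346608874684416, 577588855528488960, 36028934458441730, 141012366264324, 2151686160].getD j 0
def MM (l : ℕ) : ℕ := [0, 13871245665231448854, 14448834518608251654, 12147336506587816466, 16181451259588182786, 9801101975620954644, 11533859726815463940, 16723011182809916176].getD l 0
def q0 (n : ℕ) : ZMod 2 := if Nat.testBit 47758915483058652629300889924143904114798786457834842901517979108472281628672 n then 1 else 0
def B0 (n m : ℕ) : ZMod 2 := q0 (n ^^^ m) + q0 n + q0 m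
noncomputable def vw (w : List ℕ) (n : ℕ) : ℕ :=
  @List.rec ℕ (fun _ => ℕ) n (fun l _ c => mv8 (MM l) c) w
def orbW : List (List ℕ) := [[],[1,2,4,1],[6,3,3],[2,3,4],[7,2,2],[5,2,6],[3,1,1],[5,1,2],[3,3],[1,7,2,1],[3,6],[4,3,2],[3,2],[1,2,4],[3,4],[7,1,6],[5,2,2],[6,2,7],[5,1,1],[2,1,3],[2,1,1],[3,1,5],[7,4,4],[2,4,1],[],[3,2,7],[6,3,1],[5,1],[2,6,1],[1,3],[4,2,3],[3,5],[5,5],[1,5,2,1],[5,3],[1,3,7],[2,7,1],[4,1,2],[2,3],[5,6,4],[6,6],[1,7,3,1],[6,5],[7,3,1],[6,3,3],[7,1,1],[4,4],[1,6,6],[5,4],[1,2,3],[5,7],[6,1,4],[5,2,1],[6,2,4],[4],[6,1,1],[1,3,4],[4,1,3],[1,2],[2,5],[6,1],[7,1,4],[6,4],[3,4,5],[1,2,3,1],[2,2],[3,1],[6,4,1],[6,2,5],[2,7],[4,7,3],[6,3,4],[1,4,2,1],[7,7],[6,6],[3,2,2],[4,2,1],[7,3],[7,7,1],[1,1,2],[7,2,6],[2,5],[6],[7,6,1],[4,1,7],[2,6],[5,2,2],[2,2,1],[7,1,6],[1,2,5],[4,1,6],[7,1],[3,4],[4,1],[5,4,3],[7,6],[1,3,2,1],[4,4],[6,3,2],[6,7,5],[3,4,2],[6,1],[6,1,7],[4,1],[1,5,4,1],[1,1],[3,3,4],[4,1,1],[5,4,4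],[2,2],[2,1,5],[1,3],[3,2,1],[4,2],[4,6,2],[3,2,4],[7,2,3],[2],[1,4,2],[4,7],[3,4,1],[5,1,2],[3,1,2],[1,5],[5,1,3],[1,2],[6,3],[5,6],[5,3,3],[5,1,3],[],[3,5,1],[4,1,1],[5,4,1],[3,2,2],[5,2],[3,5],[4,2,2],[3],[5,5,4],[3,1],[3,3,2],[3,7],[7,7],[7,1,1],[6,6,1],[4,2,2],[4,3,1],[6,4,4],[2,2,3],[6,1,1],[7],[5,6,2],[6,1,3],[3,2,1],[7,2,1],[1,2,4],[1,4,5],[7,5,2],[3,1,7],[5,6],[5,4,2],[5],[2,1],[7,5,1],[5,1,6],[7,1,2],[5,2,1],[6,3],[4,4,1],[6],[3,3],[3,5,5],[2,1,7],[1,1,3],[4,2,6],[5,1],[1,5,2],[5,2],[3],[6,6,2],[3,4,2],[3,3,1],[4,1,5],[2,7],[4,1,2],[7,1],[6,2,3],[6,7],[5,4],[6,2],[4,2],[2,3,1],[6,2],[7,1,3],[2],[7,1,2],[4,7,1],[7,3,4],[2,3],[1,3,2],[5,5],[5,1,1],[7],[6,1,5],[6,6,3],[1,2,2],[7,2],[2,1,4],[5],[2,2,4],[2,4],[2,4,3],[7,2,2],[2,1,1],[2,1],[7,3],[7,5],[1,2,7],[1,6],[4,7],[7,4],[5,1,4],[6,4],[7,3,4],[7,3,5],[6,7,3],[4],[2,4],[4,3],[1,2,5],[7,5,6],[4,3,7],[1,3,3],[2,2,5],[1],[1,1],[1,4],[6,2,4],[5,5,1],[3,1,6],[3,1,1],[5,5,2],[4,5],[1],[4,6],[7,1,3],[1,2,3],[3,2],[1,7],[3,2,6],[6,7],[5,4,1],[7,5],[2,6],[1,6]]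

variable {V : Type*} [AddCommGroup V] [Module (ZMod 2) V]

def vec (b : Fin 8 → V) (n : ℕ) : V := ∑ k : Fin 8, if n.testBit k then b k else 0

theorem vec_xor (b : Fin 8 → V) (n m : ℕ) : vec b (n ^^^ m) = vec b n + vec b m := by
  rw [vec, vec, vec, ← Finset.sum_add_distrib]
  refine Finset.sum_congr rfl fun k _ => ?_
  rw [Nat.testBit_xor]
  cases n.testBit k <;> cases m.testBit k <;> simp [vadd]

theorem vec_zero (b : Fin 8 → V) : vec b 0 = 0 := by simp [vec]

theorem vec_pow (b : Fin 8 → V) (k : Fin 8) : vec b (2 ^ (k : ℕ)) = b k := by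
  rw [vec, Finset.sum_eq_single k _ (by simp)]
  · simp
  · intro j _ h
    rw [Nat.testBit_two_pow_of_ne (fun e => h (Fin.ext e.symm))]; simp

theorem lin_vec {b : Fin 8 → V} {T : End (ZMod 2) V} {M : ℕ}
    (h : ∀ k : Fin 8, T (b k) = vec b (col M k)) (n : ℕ) : T (vec b n) = vec b (mv8 M n) := by
  have k : ∀ k : Fin 8, T (if n.testBit k then b k else 0) = vec b (cb M n k) := fun k => by
    unfold cb
    cases n.testBit k <;> simp [h, vec_zero]
  rw [mv8, fr_eq]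
  simp only [vec_xor]
  rw [vec, map_sum, Fin.sum_univ_eight]
  simp only [k]; rfl

theorem xor_lt {n m : ℕ} (h : n < 256) (k : m < 256) : n ^^^ m < 256 :=
  Nat.xor_lt_two_pow (n := 8) h k

theorem mv8_lt (M n : ℕ) : mv8 M n < 256 := by
  have : ∀ k, cb M n k < 256 := fun k => by
    unfold cb; cases n.testBit k
    · simp
    · exact Nat.mod_lt _ (by omega)
  rw [mv8, fr_eq]
  repeat' apply xor_lt
  all_goals exact this _

section
variable (X : ℕ → End (ZMod 2) V)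

def XL (L : List ℕ) : End (ZMod 2) V := (L.map X).sum

theorem XL_cons (i : ℕ) (L : List ℕ) : XL X (i :: L) = X i + XL X L := rfl
theorem XL_append (L M : List ℕ) : XL X (L ++ M) = XL X L + XL X M := by simp [XL]

theorem XL_eq {L : List ℕ} (h : ∀ i ∈ L, i < 8) :
    XL X L = ∑ i : Fin 8, (L.count i.1 : ZMod 2) • X i := by
  induction L with
  | nil => simp [XL]
  | cons j L ih =>
    rw [XL_cons, ih fun i hi => h i (List.mem_cons_of_mem _ hi)]
    simp only [List.count_cons, Nat.cast_add, add_smul, Finset.sum_add_distrib]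
    rw [add_comm]
    congr 1
    rw [Finset.sum_eq_single (⟨j, h j List.mem_cons_self⟩ : Fin 8) _ (by simp)]
    · simp
    · intro i _ hi
      have : ¬ j = i := fun e => hi (Fin.ext e.symm)
      simp [this]

variable {X} (r1 : ∀ i, 1 ≤ i → i ≤ 7 → X i * X i = X i + 1)
  (r2 : ∀ i, 1 ≤ i → i ≤ 7 → ∀ j, 1 ≤ j → j ≤ 7 → i ≠ j → X i * X j + X j * X i = X i + X j + 1)
include r1 r2

theorem anti1 {i : ℕ} (h1 : 1 ≤ i) (h2 : i ≤ 7) {M : List ℕ} (h : ∀ j ∈ M, 1 ≤ j ∧ j ≤ 7) :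
    X i * XL X M + XL X M * X i =
      (M.length : ZMod 2) • X i + XL X M + ((M.length + M.count i : ℕ) : ZMod 2) • 1 := by
  induction M with
  | nil => simp [XL]
  | cons j M ih =>
    have ih := ih fun j hj => h j (List.mem_cons_of_mem _ hj)
    have hj := h j List.mem_cons_self
    have e : X i * X j + X j * X i =
        X i + X j + ((1 + if j == i then 1 else 0 : ℕ) : ZMod 2) • 1 := by
      by_cases e : i = j
      · subst e; rw [vadd, vadd]; simp [two_smul, vadd]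
      · rw [r2 i h1 h2 j hj.1 hj.2 e]; simp [Ne.symm e]
    rw [XL_cons, mul_add, add_mul, add_add_add_comm, e, ih, List.count_cons, List.length_cons]
    push_cast
    module

theorem anti2 {L M : List ℕ} (hL : ∀ j ∈ L, 1 ≤ j ∧ j ≤ 7) (h : ∀ j ∈ M, 1 ≤ j ∧ j ≤ 7) :
    XL X L * XL X M + XL X M * XL X L = (M.length : ZMod 2) • XL X L + (L.length : ZMod 2) • XL X M +
      ((L.length * M.length + (L.map fun i => M.count i).sum : ℕ) : ZMod 2) • 1 := by
  induction L with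
  | nil => simp [XL]
  | cons i L ih =>
    have hi := hL i List.mem_cons_self
    rw [XL_cons, mul_add, add_mul, add_add_add_comm, ih fun j hj => hL j (List.mem_cons_of_mem _ hj),
      anti1 r1 r2 hi.1 hi.2 h, List.length_cons, List.map_cons, List.sum_cons]
    push_cast
    module

def kk : List ℕ → ℕ
  | [] => 0
  | i :: L => kk L + 1 + L.length + L.count i

theorem sqL {L : List ℕ} (hL : ∀ j ∈ L, 1 ≤ j ∧ j ≤ 7) :
    XL X L * XL X L = (L.length : ZMod 2) • XL X L + (kk L : ZMod 2) • 1 := by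
  induction L with
  | nil => simp [XL, kk]
  | cons i L ih =>
    have hi := hL i List.mem_cons_self
    have h' := fun j hj => hL j (List.mem_cons_of_mem _ hj)
    have := anti1 r1 r2 hi.1 hi.2 h'
    rw [XL_cons, mul_add, add_mul, add_mul, ih h', r1 i hi.1 hi.2, kk, List.length_cons]
    rw [← eq_sub_iff_add_eq] at this
    rw [this]
    push_cast
    module

def Ls (j : ℕ) : List ℕ := [[1, 2, 3, 4], [1, 2, 5, 6], [1, 3, 5, 7], [1, 2, 4, 7], [3, 4, 6, 7],
  [2, 3, 5, 7]].getD j []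
def cf (l : ℕ) : List ℕ := [[], [1, 2, 3, 4], [1, 3, 4, 5], [0, 3], [2, 3, 5], [0, 1, 4],
  [0, 2, 4, 5], []].getD l []

theorem cliff (hc : Nat.card V = 256) : ∃ b : Fin 8 → V, (∀ n < 256, vec b n = 0 → n = 0) ∧
    (∀ v, ∃ n < 256, vec b n = v) ∧
    ((∀ l, 1 ≤ l → l ≤ 7 → ∀ n, X l (vec b n) = vec b (mv8 (MM l) n)) ∨
      ∀ l, 1 ≤ l → l ≤ 7 → ∀ n, (X l + 1) (vec b n) = vec b (mv8 (MM l) n)) := by
  have : Finite V := Nat.finite_of_card_ne_zero (by omega)
  let g : ℕ → End (ZMod 2) V := fun j => XL X (Ls j)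
  have hL : ∀ j < 6, ∀ i ∈ Ls j, 1 ≤ i ∧ i ≤ 7 := by decide
  have l4 : ∀ j < 6, ((Ls j).length : ZMod 2) = 0 := by decide
  have ga : ∀ i < 6, ∀ j < 6, ∀ w, g i (g j w) = g j (g i w) +
      (if i + 3 = j ∨ j + 3 = i then w else 0) := fun i hi j hj w => by
    have k : ∀ i < 6, ∀ j < 6, (((Ls i).length * (Ls j).length +
      ((Ls i).map fun a => (Ls j).count a).sum : ℕ) : ZMod 2) =
        if i + 3 = j ∨ j + 3 = i then 1 else 0 := by decide
    have := congrArg (fun T : End (ZMod 2) V => T w) (anti2 r1 r2 (hL i hi) (hL j hj))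
    simp only [l4 i hi, l4 j hj, k i hi j hj, zero_smul, zero_add, LinearMap.add_apply,
      End.mul_apply, ite_smul, one_smul] at this
    rw [← veq, ← add_assoc]
    split_ifs at this ⊢ <;> simp [g, this, vadd]
  have gs : ∀ i < 6, ∀ w, g i (g i w) = 0 := fun i hi w => by
    have k : ∀ i < 6, (kk (Ls i) : ZMod 2) = 0 := by decide
    simpa [l4 i hi, k i hi] using congrArg (fun T : End (ZMod 2) V => T w) (sqL r1 r2 (hL i hi))
  have g7 : ∀ j < 6, ∀ w, X 7 (g j w) = g j (X 7 w) + g j w + (if 2 ≤ j then w else 0) :=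
    fun j hj w => by
    have k : ∀ j < 6, (((Ls j).length + (Ls j).count 7 : ℕ) : ZMod 2) = if 2 ≤ j then 1 else 0 := by
      decide
    have := congrArg (fun T : End (ZMod 2) V => T w) (anti1 r1 r2 (by omega) le_rfl (hL j hj))
    simp only [l4 j hj, k j hj, zero_smul, zero_add, LinearMap.add_apply,
      End.mul_apply, ite_smul, one_smul] at this
    rw [← veq, add_assoc (g j _), ← add_assoc]
    split_ifs at this ⊢ <;> simp [g, this, vadd]
  have gx : ∀ l, 1 ≤ l → l ≤ 7 → X l = X 7 + ((cf l).map g).sum := fun l h1 h2 => by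
    have e : ∀ L : List ℕ, (L.map g).sum = XL X (L.flatMap Ls) := fun L => by
      induction L with
      | nil => rfl
      | cons a L ih => rw [List.map_cons, List.sum_cons, ih, List.flatMap_cons, XL_append]
    have k : ∀ l ≤ 7, 1 ≤ l → (∀ i ∈ 7 :: (cf l).flatMap Ls, i < 8) ∧ ∀ i : Fin 8,
      ((7 :: (cf l).flatMap Ls).count i.1 : ZMod 2) = ([l].count i.1 : ZMod 2) := by decide
    rw [e, ← XL_cons, XL_eq X (k l h2 h1).1]
    simp only [(k l h2 h1).2]
    rw [← XL_eq X (by simp; omega)]; simp [XL]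
  clear_value g
  have kill : ∀ i < 3, ∀ w, w ≠ 0 → ∃ w', w' ≠ 0 ∧ g i w' = 0 ∧ ∀ j < 3, g j w = 0 → g j w' = 0 :=
    fun i hi w hw => by
    by_cases h : g i w = 0
    · exact ⟨w, hw, h, fun _ _ h => h⟩
    · exact ⟨g i w, h, gs i (by omega) w, fun j hj h => by
        rw [ga j (by omega) i (by omega), h, if_neg (by omega)]; simp⟩
  have : Nontrivial V := Finite.one_lt_card_iff_nontrivial.1 (by omega)
  obtain ⟨u0, hu0⟩ := exists_ne (0 : V)
  obtain ⟨u1, hu1, a1, -⟩ := kill 0 (by omega) u0 hu0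
  obtain ⟨u2, hu2, a2, b2⟩ := kill 1 (by omega) u1 hu1
  obtain ⟨v, hv, e2, b3⟩ := kill 2 (by omega) u2 hu2
  have e0 := b3 0 (by omega) (b2 0 (by omega) a1)
  have e1 := b3 1 (by omega) a2
  let b : Fin 8 → V := ![v, g 3 v, g 4 v, g 3 (g 4 v), g 5 v, g 3 (g 5 v), g 4 (g 5 v),
    g 3 (g 4 (g 5 v))]
  have hb : vec b 1 = v ∧ vec b 2 = g 3 v ∧ vec b 4 = g 4 v ∧ vec b 8 = g 3 (g 4 v) ∧
      vec b 16 = g 5 v ∧ vec b 32 = g 3 (g 5 v) ∧ vec b 64 = g 4 (g 5 v) ∧
      vec b 128 = g 3 (g 4 (g 5 v)) := ⟨vec_pow b 0, vec_pow b 1, vec_pow b 2, vec_pow b 3,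
        vec_pow b 4, vec_pow b 5, vec_pow b 6, vec_pow b 7⟩
  have hg : ∀ j < 6, ∀ n, g j (vec b n) = vec b (mv8 (GM j) n) := fun j hj => lin_vec (by
    have k : ∀ j < 6, ∀ k : Fin 8, col (GM j) k = if j < 3 then (if k.1.testBit j then
      2 ^ (k.1 - 2 ^ j) else 0) else if k.1.testBit (j - 3) then 0 else 2 ^ (k.1 + 2 ^ (j - 3)) := by
      decide +kernel
    intro i
    rw [k j hj]
    have s3 := gs 3 (by omega); have s4 := gs 4 (by omega); have s5 := gs 5 (by omega)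
    have c03 := ga 0 (by omega) 3 (by omega); have c04 := ga 0 (by omega) 4 (by omega)
    have c05 := ga 0 (by omega) 5 (by omega); have c13 := ga 1 (by omega) 3 (by omega)
    have c14 := ga 1 (by omega) 4 (by omega); have c15 := ga 1 (by omega) 5 (by omega)
    have c23 := ga 2 (by omega) 3 (by omega); have c24 := ga 2 (by omega) 4 (by omega)
    have c25 := ga 2 (by omega) 5 (by omega); have c43 := ga 4 (by omega) 3 (by omega)
    have c53 := ga 5 (by omega) 3 (by omega); have c54 := ga 5 (by omega) 4 (by omega)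
    interval_cases j <;> fin_cases i <;>
      simp [Nat.testBit, hb, vec_zero, b, s3, s4, s5, c03, c04, c05, c13, c14, c15, c23, c24, c25,
        c43, c53, c54, e0, e1, e2])
  have hb' : ∀ k : Fin 8, b k = vec b (2 ^ k.1) := fun k => (vec_pow b k).symm
  have hb1 := hb.1
  clear_value b
  have inj : ∀ n < 256, vec b n = 0 → n = 0 := fun n hn h => by
    have k : ∀ n < 256, n ≠ 0 → ∃ w ∈ [[], [3], [4], [5], [3, 4], [3, 5], [4, 5], [3, 4, 5]],
      ([0, 1, 2] ++ w).foldr (fun j c => mv8 (GM j) c) n = 1 ∧ ∀ j ∈ [0, 1, 2] ++ w, j < 6 := by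
      decide +kernel
    by_contra hn0
    obtain ⟨w, -, e, hw⟩ := k n hn hn0
    have : ∀ L : List ℕ, (∀ j ∈ L, j < 6) → vec b (L.foldr (fun j c => mv8 (GM j) c) n) = 0 := by
      intro L hL
      induction L with
      | nil => exact h
      | cons a L ih => rw [List.foldr_cons, ← hg a (hL a List.mem_cons_self),
          ih fun j hj => hL j (List.mem_cons_of_mem _ hj), map_zero]
    exact hv (by rw [← hb1, ← e]; exact this _ hw)
  have inj' : ∀ n < 256, ∀ m < 256, vec b n = vec b m → n = m := fun n hn m hm h =>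
    Nat.eq_of_xor_eq_zero (inj _ (xor_lt hn hm) (by rw [vec_xor, h, vadd]))
  have surj : ∀ v, ∃ n < 256, vec b n = v := fun v => by
    obtain ⟨n, hn⟩ := ((Nat.bijective_iff_injective_and_card (fun n : Fin 256 => vec b n)).2
      ⟨fun n m h => Fin.ext (inj' _ n.2 _ m.2 h), by simp [hc]⟩).2 v
    exact ⟨n, n.2, hn⟩
  have main : ∀ Y : End (ZMod 2) V, (∀ j < 6, ∀ w, Y (g j w) = g j (Y w) + g j w +
      (if 2 ≤ j then w else 0)) → Y v = vec b 16 → ∀ l, 1 ≤ l → l ≤ 7 → ∀ n,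
      (Y + ((cf l).map g).sum) (vec b n) = vec b (mv8 (MM l) n) := fun Y hY h0 l h1 h2 => by
    have st : ∀ j < 6, 2 ≤ j → ∀ n c, Y (vec b n) = vec b c → ∀ m d, m = mv8 (GM j) n →
        d = mv8 (GM j) c ^^^ m ^^^ n → Y (vec b m) = vec b d := by
      rintro j hj hj2 n c h _ _ rfl rfl
      rw [← hg j hj, hY j hj, if_pos hj2, h, vec_xor, vec_xor, ← hg j hj, ← hg j hj]
    have y0 : Y (vec b 1) = vec b 16 := by rw [hb1, h0]
    have y1 := st 3 (by omega) (by omega) _ _ y0 2 35 (by decide +kernel) (by decide +kernel)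
    have y2 := st 4 (by omega) (by omega) _ _ y0 4 69 (by decide +kernel) (by decide +kernel)
    have y3 := st 3 (by omega) (by omega) _ _ y2 8 134 (by decide +kernel) (by decide +kernel)
    have y4 := st 5 (by omega) (by omega) _ _ y0 16 17 (by decide +kernel) (by decide +kernel)
    have y5 := st 3 (by omega) (by omega) _ _ y4 32 18 (by decide +kernel) (by decide +kernel)
    have y6 := st 4 (by omega) (by omega) _ _ y4 64 20 (by decide +kernel) (by decide +kernel)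
    have y7 := st 3 (by omega) (by omega) _ _ y6 128 232 (by decide +kernel) (by decide +kernel)
    have hY7 : ∀ k : Fin 8, Y (vec b (2 ^ k.1)) = vec b (col (MM 7) k) := fun k => by
      fin_cases k
      exacts [y0, y1, y2, y3, y4, y5, y6, y7]
    have sm : ∀ L : List ℕ, (∀ j ∈ L, j < 6) → ∀ n, (L.map g).sum (vec b n) =
        vec b (L.foldr (fun j c => mv8 (GM j) n ^^^ c) 0) := fun L hL n => by
      induction L with
      | nil => simp [vec_zero]
      | cons a L ih => rw [List.map_cons, List.sum_cons, LinearMap.add_apply, List.foldr_cons,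
          vec_xor, hg a (hL a List.mem_cons_self), ih fun j hj => hL j (List.mem_cons_of_mem _ hj)]
    have k : ∀ l ≤ 7, 1 ≤ l → (∀ j ∈ cf l, j < 6) ∧ ∀ k : Fin 8, col (MM 7) k ^^^
      (cf l).foldr (fun j c => mv8 (GM j) (2 ^ k.1) ^^^ c) 0 = col (MM l) k := by decide +kernel
    refine lin_vec fun i => ?_
    rw [hb', LinearMap.add_apply, hY7, sm _ (k l h2 h1).1, ← vec_xor, (k l h2 h1).2]
  refine ⟨b, inj, surj, ?_⟩
  obtain ⟨n, hn, e⟩ := surj (X 7 v)
  have k : ∀ n < 256, mv8 (GM 0) n = 0 → mv8 (GM 1) n = 0 → mv8 (GM 2) n = 1 → n = 16 ∨ n = 17 := by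
    decide +kernel
  have t0 := g7 0 (by omega) v
  have t1 := g7 1 (by omega) v
  have t2 := g7 2 (by omega) v
  simp only [e0, e1, e2, map_zero, add_zero, ← e, hg _ (by omega : 0 < 6), hg _ (by omega : 1 < 6),
    hg _ (by omega : 2 < 6), Nat.reduceLeDiff, le_refl, if_true, if_false] at t0 t1 t2
  rcases k n hn (inj _ (mv8_lt _ _) t0.symm) (inj _ (mv8_lt _ _) t1.symm)
    (inj' _ (mv8_lt _ _) _ (by omega) (by rw [hb1]; exact veq.1 t2.symm)) with rfl | rfl
  · exact Or.inl fun l h1 h2 n => by rw [gx l h1 h2]; exact main _ g7 e.symm l h1 h2 n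
  · refine Or.inr fun l h1 h2 n => ?_
    rw [gx l h1 h2, add_right_comm]
    refine main _ (fun j hj w => ?_) ?_ l h1 h2 n
    · simp only [LinearMap.add_apply, End.one_apply, map_add, g7 j hj]
      abel
    · rw [LinearMap.add_apply, ← e, End.one_apply, ← hb1, ← vec_xor]; rfl

end

/-- The spin module in coordinates. -/
structure Spin (D : VD V) where
  b : Fin 8 → V
  inj : ∀ n < 256, vec b n = 0 → n = 0
  surj : ∀ v, ∃ n < 256, vec b n = v
  act : ∀ l, 1 ≤ l → l ≤ 7 → ∀ n, D.r (xa l) (vec b n) = vec b (mv8 (MM l) n)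
  q : ∀ n < 256, D.q (vec b n) = q0 n

theorem act_w {D : VD V} {b : Fin 8 → V}
    (act : ∀ l, 1 ≤ l → l ≤ 7 → ∀ n, D.r (xa l) (vec b n) = vec b (mv8 (MM l) n))
    {w : List ℕ} (hw : ∀ l ∈ w, 1 ≤ l ∧ l ≤ 7) (n : ℕ) :
    D.r (aw w) (vec b n) = vec b (vw w n) := by
  induction w with
  | nil => exact D.r_one _
  | cons l w ih =>
    rw [aw, evL_cons, D.r_mul, ih fun j hj => hw j (List.mem_cons_of_mem _ hj),
      act l (hw l List.mem_cons_self).1 (hw l List.mem_cons_self).2]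
    rfl

theorem spin_of {D : VD V} {b : Fin 8 → V} (inj : ∀ n < 256, vec b n = 0 → n = 0)
    (surj : ∀ v, ∃ n < 256, vec b n = v)
    (act : ∀ l, 1 ≤ l → l ≤ 7 → ∀ n, D.r (xa l) (vec b n) = vec b (mv8 (MM l) n)) :
    Nonempty (Spin D) := by
  have k : ∀ n < 256, n ≠ 0 → (∀ l ∈ orbW.getD n [], 1 ≤ l ∧ l ≤ 7) ∧
      n = vw (orbW.getD n []) (if q0 n = 0 then 130 else 24) := by decide +kernel
  have h : ∀ n < 256, n ≠ 0 → D.q (vec b n) = D.q (vec b (if q0 n = 0 then 130 else 24)) :=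
    fun n hn h0 => by
    conv_lhs => rw [(k n hn h0).2, ← act_w act (k n hn h0).1, D.q_r]
  have h1 : D.q (vec b 130) = 0 := by
    have e := D.q_add (vec b 1 + vec b 2) (vec b 4)
    have e1 := D.q_add (vec b 1) (vec b 2)
    have e2 := D.q_add (vec b 1) (vec b 4)
    have e3 := D.q_add (vec b 2) (vec b 4)
    rw [map_add, LinearMap.add_apply] at e
    simp only [← vec_xor] at e e1 e2 e3
    have k' : ∀ n ∈ [1, 2, 4, 1 ^^^ 2, 1 ^^^ 4, 2 ^^^ 4, 1 ^^^ 2 ^^^ 4], D.q (vec b n) = D.q (vec b 130) :=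
      fun n hn => by
      rw [h n (by revert n; decide) (by revert n; decide), if_pos (by revert n; decide +kernel)]
    simp only [List.mem_cons, List.not_mem_nil, or_false, forall_eq_or_imp, forall_eq] at k'
    simp only [k'] at e e1 e2 e3
    revert e e1 e2 e3
    generalize D.q (vec b 130) = i, D.B (vec b 1) (vec b 2) = j, D.B (vec b 1) (vec b 4) = k,
      D.B (vec b 2) (vec b 4) = l
    revert i j k l; decide
  have h2 : D.q (vec b 24) = 1 := by
    refine (z2c _).resolve_left fun e => ?_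
    have : ∀ v, D.q v = 0 := fun v => by
      obtain ⟨n, hn, rfl⟩ := surj v
      by_cases h0 : n = 0
      · rw [h0, vec_zero, D.q_zero]
      · rw [h n hn h0]; split_ifs <;> assumption
    exact absurd (inj 1 (by omega) (D.nd _ fun w => by simpa [this] using (D.q_add _ w).symm))
      (by omega)
  refine ⟨⟨b, inj, surj, act, fun n hn => ?_⟩⟩
  by_cases h0 : n = 0
  · rw [h0, vec_zero, D.q_zero]; decide +kernel
  · rw [h n hn h0]
    rcases z2c (q0 n) with e | e <;> simp [e, h1, h2]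

/-- The outer automorphism. -/
def kap : A9 ≃* A9 := MulAut.conjNormal (Equiv.swap 7 8 : Equiv.Perm (Fin 9))

theorem VD.tri (D : VD V) (hf : ∀ σ, D.r σ = 1 → σ = 1) :
    Nonempty (Spin D) ∨ Nonempty (Spin (D.tw kap)) ∨ D.Nat0 := by
  rcases D.dich hf with h | h
  · obtain ⟨b, h1, h2, h3⟩ := cliff (X := fun l => D.r (xa l))
      (fun i a b => LinearMap.ext (h i a b)) (fun i a b j c d e => LinearMap.ext fun v => by
        have k : ∀ i < 8, ∀ j < 8, i ≠ j →
          pw [i, j] = pw [j, j, i, i] ∨ i = 0 ∨ j = 0 := by decide +kernel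
        have := congrArg (fun σ => D.r σ v)
          (aw_eq ((k i (by omega) j (by omega) e).resolve_right (by omega)))
        simp only [aw, evL_cons, evL_nil, mul_one] at this
        simp only [D.r_mul, h j c d, h i a b, map_add] at this
        simp only [LinearMap.add_apply, End.mul_apply, End.one_apply, this]
        linear_combination (norm := abel) vadd (D.r (xa j) (D.r (xa i) v))) D.card
    refine h3.elim (fun h3 => Or.inl (spin_of h1 h2 h3)) fun h3 => Or.inr (Or.inl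
      (spin_of h1 h2 fun l a b n => ?_))
    have k : ∀ l ≤ 7, kap (xa l) = xa l * xa l := by decide +kernel
    change D.r (kap (xa l)) _ = _
    rw [k l b, D.r_mul, h l a b, ← h3 l a b]; rfl
  · exact Or.inr (Or.inr h)

end Cfsg.TH
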