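import Cfsg.Agent.H6.Cert
import Cfsg.Agent.TH.CR

set_option autoImplicit false
set_option maxRecDepth 100000
set_option Elab.async false

namespace Cfsg.H6.THC1

noncomputable def get (y : ℕ) : ℕ := (sel (nat_lit 1) y (nat_lit 0x0) (nat_lit 0x20000010000020100000200000101000000000002020000020000000200000000000101000001000000))
noncomputable def gs (y : ℕ) : ℕ := (sel (nat_lit 2) y (sel (nat_lit 1) y (nat_lit 0x0) (nat_lit 0x0)) (sel (nat_lit 3) y (nat_lit 0x0) (sel (nat_lit 4) y (nat_lit 0x0) (nat_lit 0x8000002800000280000028000002800000280000028000002800000280000028000002800000280000028000002800000280000028000002800000280000028000002800000280000028000002800000280000028000002800000280000028000002800000280000010000202000020180000008000000))))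
noncomputable def gd (_y : ℕ) : ℕ := (nat_lit 0x20200002000000000)
noncomputable def gwh (y : ℕ) : ℕ := (sel (nat_lit 1) y (nat_lit 0x20202000003000000) (nat_lit 0x1))
noncomputable def gc (y : ℕ) : ℕ := (sel (nat_lit 1) y (nat_lit 0x20300002040000200) (nat_lit 0x20500002010000202))

theorem b0 : allR (blk get gs (gwB gwh 2) gd 66048) 4 1 = true := by decide +kernel

theorem c0 : allR (clo get gc 3 576 1) 0 2 = true := by decide +kernel

def sg : List (List ℕ) := [[], [1], [2]]

def BL : List ℕ := [0x20202, 0x0]

def Sub : List (List ℕ) := []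

theorem hA : prepA 67784688129939343067129679678865920 THR.R sg 66048 BL Sub get gd = true := by decide +kernel

theorem hw : allR (okW BL gwh) 0 2 = true := by decide +kernel

theorem hb : ∀ b, 4 ≤ b → b < 5 → blk get gs (gwB gwh 2) gd 66048 b = true :=
  (allR_range b0 (by norm_num : 4 + 1 = 5))

def X : List (List ℕ) := [[1]]

theorem hC : prepC sg 66048 X 2 3 1 = true := by decide +kernel

theorem hc : ∀ t, 0 ≤ t → t < 2 * 1 → clo get gc 3 576 1 t = true :=
  (allR_range c0 (by norm_num : 0 + 2 = 2))

theorem cover {G : Type*} [Group G] {ev : ℕ → G} (hev : Good ev 67784688129939343067129679678865920) (hR : Rels ev THR.R) :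
    Cover (gen ev Sub) (gen ev X) 3 :=
  cert_cover hev hR hA hC hw hb (by norm_num) hc


end Cfsg.H6.THC1
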